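/-
S1315 (intrinsic SL₂-type 2-components normalize each other): definitions.
See `PLAN.md` in this folder. Conventions: conjugation is left, `g * a * g⁻¹`.
-/
import Cfsg.Agent.Lib.PTerm.Dict

set_option autoImplicit false
set_option linter.style.haveILetI false
set_option linter.unusedSectionVars false

namespace Cfsg.Agent.Lib.IntrSL.Defs

open Subgroup Cfsg Cfsg.Agent.Lib.BpBalance.Basic Cfsg.Agent.Lib.Subnormal.Basic
  Cfsg.Agent.Lib.PTerm.Rel Cfsg.Agent.Lib.PTerm.Dict Cfsg.Agent.Lib.Components.Basic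
  Cfsg.Agent.Lib.Core.Basic

universe u

/-- The abstract properties of `SL₂(F)` (quasisimple) and of `2·A₇` used in S1315, with `z` the
unique involution. -/
structure QType {Q : Type u} [Group Q] (z : Q) : Prop where
  qs : IsQuasisimple Q
  ord : orderOf z = 2
  center_iff : ∀ a : Q, a ∈ Subgroup.center Q ↔ a = 1 ∨ a = z
  uniq : ∀ a : Q, orderOf a = 2 → a = z
  exists_sq : ∃ r : Q, r * r = z
  aut_inner : ∀ A : Subgroup (MulAut Q), commutator ↥A = ⊤ → ∀ α ∈ A, ∃ q : Q, α = MulAut.conj q
  nzr_solv : ∀ r : Q, r * r = z →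
    Group.IsSolvable ↥(Subgroup.normalizer ((Subgroup.zpowers r : Subgroup Q) : Set Q))
  hurwitz : ∀ r v : Q, r * r = z → v * v = z → v * r * v⁻¹ = r * z →
    ∃ j : Q, (j * r * j⁻¹) * r * (j * r * j⁻¹)⁻¹ = r * z ∧
      (j⁻¹ * r * j) * r * (j⁻¹ * r * j)⁻¹ = r * z

variable {X : Type u} [Group X] [Finite X]

/-- `Q` is a component of `X`, of `QType` with involution `z`, and `z` is central in `X`. -/
structure CompZ (Q : Subgroup X) (z : X) : Prop where
  sn : Q.IsSubnormal
  mem : z ∈ Q
  cen : ∀ a : X, a * z = z * a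
  qt : QType (⟨z, mem⟩ : ↥Q)

variable {G : Type u} [Group G] [Finite G]

/-- `J` is a `2`-component of `C(x)`, with `x` its unique involution, and `J/O(J)` of `QType`. -/
structure SLComp (J : Subgroup G) (x : G) : Prop where
  sn : SN J (CC x)
  pt : PT 2 ↥J
  mem : x ∈ J
  ord : orderOf x = 2
  uniq : ∀ t ∈ J, orderOf t = 2 → t = x
  qt : QType (QuotientGroup.mk' (oddCore ↥J) (⟨x, mem⟩ : ↥J))

/-- `C(x)/O(C(x))`. -/
abbrev Bar (x : G) : Type u := ↥(CC x) ⧸ oddCore ↥(CC x)

/-- The projection `C(x) → Bar x`. -/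
abbrev bar (x : G) : ↥(CC x) →* Bar x := QuotientGroup.mk' (oddCore ↥(CC x))

/-- The image in `Bar x` of `A ∩ C(x)`. -/
abbrev img (x : G) (A : Subgroup G) : Subgroup (Bar x) := (A.subgroupOf (CC x)).map (bar x)

theorem self_mem_CC (x : G) : x ∈ CC x := mem_CC.mpr rfl

/-- The image of `x` in `Bar x`: the `z` of `CompZ (img x J)`. -/
abbrev barz (x : G) : Bar x := bar x ⟨x, self_mem_CC x⟩

/-- `J/O(J)` order, the "size" of the type. -/
noncomputable abbrev qcard (J : Subgroup G) : ℕ := Nat.card (↥J ⧸ oddCore ↥J)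

/-- Transport of `QType`. -/
theorem QType.of_equiv {Q Q' : Type u} [Group Q] [Group Q'] (e : Q ≃* Q') {z : Q} (h : QType z) :
    QType (e z) := by
  have hsymm : ∀ a : Q', e (e.symm a) = a := e.apply_symm_apply
  have hsymm' : ∀ a : Q, e.symm (e a) = a := e.symm_apply_apply
  have hcen : ∀ a : Q', a ∈ Subgroup.center Q' ↔ e.symm a ∈ Subgroup.center Q := by
    intro a
    rw [Subgroup.mem_center_iff, Subgroup.mem_center_iff]
    constructor
    · intro ha b
      have := ha (e b)
      apply e.injective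
      rw [map_mul, map_mul, hsymm]
      exact this
    · intro ha b
      have := ha (e.symm b)
      have h2 := congrArg e this
      rwa [map_mul, map_mul, hsymm, hsymm] at h2
  refine ⟨quasisimple_of_mulEquiv e h.qs, ?_, ?_, ?_, ?_, ?_, ?_, ?_⟩
  · rw [MulEquiv.orderOf_eq]; exact h.ord
  · intro a
    rw [hcen, h.center_iff]
    constructor
    · rintro (h1 | h1)
      · left; rw [← hsymm a, h1, map_one]
      · right; rw [← hsymm a, h1]
    · rintro (h1 | h1)
      · left; rw [h1, map_one]
      · right; rw [h1, hsymm']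
  · intro a ha
    have h1 : orderOf (e.symm a) = 2 := by rw [MulEquiv.orderOf_eq]; exact ha
    have := h.uniq _ h1
    rw [← hsymm a, this]
  · obtain ⟨r, hr⟩ := h.exists_sq
    exact ⟨e r, by rw [← map_mul, hr]⟩
  · intro A hA α hα
    let Φ : MulAut Q' ≃* MulAut Q := MulAut.congr e.symm
    let A' : Subgroup (MulAut Q) := A.map Φ.toMonoidHom
    have hA' : commutator ↥A' = ⊤ := by
      let f : ↥A ≃* ↥A' := Subgroup.equivMapOfInjective A Φ.toMonoidHom Φ.injective
      rw [_root_.commutator_def] at hA ⊢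
      have := congrArg (Subgroup.map f.toMonoidHom) hA
      rwa [Subgroup.map_commutator, Subgroup.map_top_of_surjective _ f.surjective] at this
    obtain ⟨q, hq⟩ := h.aut_inner A' hA' (Φ α) ⟨α, hα, rfl⟩
    refine ⟨e q, ?_⟩
    ext a
    have h1 := congrArg (fun β : MulAut Q => β (e.symm a)) hq
    simp only [Φ, MulAut.congr_apply, MulEquiv.trans_apply, MulEquiv.symm_symm, MulAut.conj_apply] at h1
    have h2 : e (e.symm (α (e (e.symm a)))) = e (q * e.symm a * q⁻¹) := congrArg e h1
    rw [hsymm, hsymm, map_mul, map_mul, map_inv, hsymm] at h2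
    rw [h2, MulAut.conj_apply]
  · intro r hr
    have hr0 : e.symm r * e.symm r = z := by
      apply e.injective
      rw [map_mul, hsymm, hr]
    have hz : ∀ a : Q, a ∈ zpowers (e.symm r) ↔ e a ∈ zpowers r := by
      intro a
      rw [mem_zpowers_iff, mem_zpowers_iff]
      constructor
      · rintro ⟨n, rfl⟩
        exact ⟨n, by rw [map_zpow, hsymm]⟩
      · rintro ⟨n, hn⟩
        refine ⟨n, ?_⟩
        apply e.injective
        rw [map_zpow, hsymm, hn]
    have hmem : ∀ a : ↥(normalizer ((zpowers r : Subgroup Q') : Set Q')),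
        e.symm (a : Q') ∈ normalizer ((zpowers (e.symm r) : Subgroup Q) : Set Q) := by
      rintro ⟨a, ha⟩
      rw [mem_normalizer_iff] at ha ⊢
      intro b
      rw [hz, hz, map_mul, map_mul, map_inv, hsymm]
      exact ha (e b)
    haveI := h.nzr_solv _ hr0
    let φ : ↥(normalizer ((zpowers r : Subgroup Q') : Set Q')) →*
        ↥(normalizer ((zpowers (e.symm r) : Subgroup Q) : Set Q)) :=
      (e.symm.toMonoidHom.comp (normalizer ((zpowers r : Subgroup Q') : Set Q')).subtype).codRestrict _ hmem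
    apply solvable_of_solvable_injective (f := φ)
    intro a b hab
    apply Subtype.ext
    apply e.symm.injective
    exact congrArg Subtype.val hab
  · intro r v hr hv hvr
    have hr0 : e.symm r * e.symm r = z := by
      apply e.injective
      rw [map_mul, hsymm, hr]
    have hv0 : e.symm v * e.symm v = z := by
      apply e.injective
      rw [map_mul, hsymm, hv]
    have hvr0 : e.symm v * e.symm r * (e.symm v)⁻¹ = e.symm r * z := by
      apply e.injective
      simp only [map_mul, map_inv, hsymm]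
      exact hvr
    obtain ⟨j, h1, h2⟩ := h.hurwitz _ _ hr0 hv0 hvr0
    refine ⟨e j, ?_, ?_⟩
    · have := congrArg e h1
      simpa only [map_mul, map_inv, hsymm] using this
    · have := congrArg e h2
      simpa only [map_mul, map_inv, hsymm] using this

/-- The isomorphism of quotients induced by conjugation. -/
noncomputable def quotConjEquiv (J : Subgroup G) (g : G) :
    (↥J ⧸ oddCore ↥J) ≃* (↥(Kc g J) ⧸ oddCore ↥(Kc g J)) :=
  QuotientGroup.congr (oddCore ↥J) (oddCore ↥(Kc g J))
    (Subgroup.equivMapOfInjective J (MulAut.conj g).toMonoidHom (MulAut.conj g).injective)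
    (map_pPrimeCore_equiv _)

/-- Conjugates of an `SLComp`. -/
theorem SLComp.conj {J : Subgroup G} {x : G} (h : SLComp J x) (g : G) :
    SLComp (Kc g J) (g * x * g⁻¹) := by
  obtain ⟨h1, h2, h3⟩ := pair_conj (p := 2) h.ord h.sn h.pt g
  refine ⟨h2, h3, conj_mem_Kc g h.mem, h1, ?_, ?_⟩
  · intro t ht hto
    have h4 : g⁻¹ * t * g ∈ J := mem_Kc.mp ht
    have h5 : orderOf (g⁻¹ * t * g) = 2 := by
      have h6 := (MulAut.conj g⁻¹).orderOf_eq t
      rw [MulAut.conj_apply, inv_inv] at h6
      rw [h6, hto]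
    have h7 := h.uniq _ h4 h5
    rw [← h7]
    group
  · have := QType.of_equiv (quotConjEquiv J g) h.qt
    exact this

theorem qcard_conj (J : Subgroup G) (g : G) : qcard (Kc g J) = qcard J :=
  (Nat.card_congr (quotConjEquiv J g).toEquiv).symm

end Cfsg.Agent.Lib.IntrSL.Defs
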