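/-
S1315 X-level. Flip lemma. See PLAN.md.
-/
import Cfsg.Agent.Lib.IntrSL.Defs
import Cfsg.Agent.Lib.ZStar.Main

set_option autoImplicit false
set_option linter.style.haveILetI false
set_option linter.unusedSectionVars false

namespace Cfsg.Agent.Lib.IntrSL.Flip

open Subgroup Cfsg Cfsg.Agent.Lib.BpBalance.Basic Cfsg.Agent.Lib.Subnormal.Basic
  Cfsg.Agent.Lib.PTerm.Rel Cfsg.Agent.Lib.PTerm.Dict Cfsg.Agent.Lib.IntrSL.Defs
open scoped commutatorElement Pointwise

universe u

variable {X : Type u} [Group X] [Finite X]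

/-- `Q⟨t⟩` as a subgroup, for an involution `t` normalizing `Q`. -/
def bgrp (Q : Subgroup X) (t : X) (ht : t * t = 1) (hn : t ∈ normalizer (Q : Set X)) : Subgroup X where
  carrier := {b | b ∈ Q ∨ b * t ∈ Q}
  one_mem' := Or.inl Q.one_mem
  mul_mem' := by
    have htinv : t⁻¹ = t := inv_eq_of_mul_eq_one_left ht
    have hconj : ∀ a, a ∈ Q → t * a * t ∈ Q := by
      intro a ha
      have := (mem_normalizer_iff.mp hn a).mp ha
      rwa [htinv] at this
    rintro a b (ha | ha) (hb | hb)
    · exact Or.inl (Q.mul_mem ha hb)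
    · right
      rw [mul_assoc]
      exact Q.mul_mem ha hb
    · right
      have : a * b * t = (a * t) * (t * b * t) := by
        calc a * b * t = a * (t * t) * b * t := by rw [ht, mul_one]
          _ = _ := by group
      rw [this]
      exact Q.mul_mem ha (hconj b hb)
    · left
      have : a * b = (a * t) * (t * (b * t) * t) := by
        calc a * b = a * (t * t) * b * (t * t) := by rw [ht, mul_one, mul_one]
          _ = _ := by group
      rw [this]
      exact Q.mul_mem ha (hconj _ hb)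
  inv_mem' := by
    have htinv : t⁻¹ = t := inv_eq_of_mul_eq_one_left ht
    have hconj : ∀ a, a ∈ Q → t * a * t ∈ Q := by
      intro a ha
      have := (mem_normalizer_iff.mp hn a).mp ha
      rwa [htinv] at this
    rintro a (ha | ha)
    · exact Or.inl (Q.inv_mem ha)
    · right
      have : a⁻¹ * t = t * (a * t)⁻¹ * t := by
        group
      rw [this]
      exact hconj _ (Q.inv_mem ha)

/-- **Flip.** An involution `t` normalizing `Q`, acting nontrivially, is sent to `t * z` by some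
`u ∈ Q` with `u * u = z`. See PLAN.md (uses Glauberman's Z*, `Lib.ZStar.Main.zstar`, in `(Q⟨t⟩)/⟨z⟩`). -/
theorem flip {Q : Subgroup X} {z t : X} (hC : CompZ Q z) (ht : t * t = 1)
    (hn : t ∈ normalizer (Q : Set X)) (hnt : ∃ j ∈ Q, t * j * t⁻¹ ≠ j) :
    ∃ u ∈ Q, u * t * u⁻¹ = t * z ∧ u * u = z := by
  classical
  have htinv : t⁻¹ = t := inv_eq_of_mul_eq_one_left ht
  have hconj : ∀ a, a ∈ Q → t * a * t⁻¹ ∈ Q := fun a ha => (mem_normalizer_iff.mp hn a).mp ha
  have hzz : z * z = 1 := by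
    have h := pow_orderOf_eq_one (⟨z, hC.mem⟩ : ↥Q)
    rw [hC.qt.ord, sq] at h
    exact congrArg Subtype.val h
  have hz1 : z ≠ 1 := by
    intro h
    have h2 := hC.qt.ord
    have : (⟨z, hC.mem⟩ : ↥Q) = 1 := Subtype.ext h
    rw [this, orderOf_one] at h2
    omega
  -- the central subgroup
  have hZnormal : (zpowers z).Normal := by
    constructor
    intro n hn g
    obtain ⟨k, rfl⟩ := mem_zpowers_iff.mp hn
    have h1 : g * z ^ k * g⁻¹ = z ^ k := by
      have : Commute g (z ^ k) := Commute.zpow_right (hC.cen g) k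
      rw [this.eq]; group
    rw [h1]
    exact zpow_mem (mem_zpowers z) k
  have hZ2 : ∀ a, a ∈ zpowers z → a = 1 ∨ a = z := by
    intro a ha
    obtain ⟨k, rfl⟩ := mem_zpowers_iff.mp ha
    have h2 : z ^ (2 : ℤ) = 1 := by
      rw [zpow_two, hzz]
    rcases Int.emod_two_eq_zero_or_one k with h | h
    · left
      rw [← Int.mul_ediv_add_emod k 2, h, add_zero, zpow_mul, h2, one_zpow]
    · right
      rw [← Int.mul_ediv_add_emod k 2, h, zpow_add, zpow_mul, h2, one_zpow, one_mul, zpow_one]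
  let π : X →* X ⧸ zpowers z := QuotientGroup.mk' (zpowers z)
  have hπ : ∀ a, π a = 1 ↔ a = 1 ∨ a = z := by
    intro a
    rw [QuotientGroup.mk'_apply, QuotientGroup.eq_one_iff]
    constructor
    · exact hZ2 a
    · rintro (h | h)
      · rw [h]; exact one_mem _
      · rw [h]; exact mem_zpowers z
  have hπz : π z = 1 := (hπ z).mpr (Or.inr rfl)
  let B := bgrp Q t ht hn
  have hQB : ∀ a ∈ Q, a ∈ B := fun a ha => Or.inl ha
  have htB : t ∈ B := Or.inr (by rw [ht]; exact Q.one_mem)
  let W : Subgroup (X ⧸ zpowers z) := B.map π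
  have hπW : ∀ a ∈ B, π a ∈ W := fun a ha => ⟨a, ha, rfl⟩
  let tb : ↥W := ⟨π t, hπW t htB⟩
  obtain ⟨j₀, hj₀, hj₀t⟩ := hnt
  have htne : ¬ (t = 1 ∨ t = z) := by
    rintro (h | h)
    · apply hj₀t; rw [h]; simp
    · apply hj₀t
      rw [h, ← hC.cen j₀]
      group
  have htb2 : orderOf tb = 2 := by
    apply orderOf_eq_prime (p := 2) (hp := ⟨Nat.prime_two⟩)
    · apply Subtype.ext
      show π t ^ 2 = 1
      rw [sq, ← map_mul, ht, map_one]
    · intro h
      have h2 : π t = 1 := congrArg Subtype.val h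
      exact htne ((hπ t).mp h2)
  by_cases hiso : IsIsolatedInvolution tb
  · -- the isolated case is impossible
    exfalso
    have hZ := Cfsg.Agent.Lib.ZStar.Main.zstar (↥W) tb hiso
    let φ : ↥Q →* ↥W := (π.comp Q.subtype).codRestrict W (fun a => hπW _ (hQB _ a.2))
    have hφ : ∀ a : ↥Q, ((φ a : ↥W) : X ⧸ zpowers z) = π a := fun _ => rfl
    let K : Subgroup ↥Q := (pPrimeCore 2 ↥W).comap φ
    haveI hKn : K.Normal := by
      haveI : (pPrimeCore 2 ↥W).Normal := inferInstance
      exact Subgroup.Normal.comap this φ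
    have hcom : ∀ j (hj : j ∈ Q), (⟨t * j * t⁻¹ * j⁻¹, Q.mul_mem (hconj j hj) (Q.inv_mem hj)⟩ : ↥Q) ∈ K := by
      intro j hj
      have := hZ (φ ⟨j, hj⟩)
      show φ _ ∈ pPrimeCore 2 ↥W
      convert this using 1
      apply Subtype.ext
      show π (t * j * t⁻¹ * j⁻¹) = π t * π j * (π t)⁻¹ * (π j)⁻¹
      simp only [map_mul, map_inv]
    rcases Cfsg.Agent.Lib.Components.Basic.normal_eq_top_or_le_center hC.qt.qs K with hK | hK
    · -- `Q` maps to `O`: impossible since it has an element squaring to `z`.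
      obtain ⟨r, hr⟩ := hC.qt.exists_sq
      have hrK : r ∈ K := by rw [hK]; trivial
      have hrO : φ r ∈ pPrimeCore 2 ↥W := hrK
      have hrr : φ r * φ r = 1 := by
        rw [← map_mul, hr]
        apply Subtype.ext
        show π z = 1
        exact hπz
      have hr1 : φ r = 1 := by
        have hcop : (Nat.card ↥(pPrimeCore 2 ↥W)).Coprime 2 :=
          Cfsg.Agent.Lib.Core.Basic.pPrimeCore_coprime
        by_contra hne
        have ho : orderOf (φ r) = 2 :=
          orderOf_eq_prime (p := 2) (hp := ⟨Nat.prime_two⟩) (by rw [sq, hrr]) hne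
        have h3 : orderOf (⟨φ r, hrO⟩ : ↥(pPrimeCore 2 ↥W)) = 2 := by
          rw [Subgroup.orderOf_mk, ho]
        have h4 := orderOf_dvd_natCard (⟨φ r, hrO⟩ : ↥(pPrimeCore 2 ↥W))
        rw [h3] at h4
        have h5 := Nat.Coprime.eq_one_of_dvd hcop.symm h4
        omega
      have h2 : π (r : X) = 1 := congrArg Subtype.val hr1
      have h3 := (hπ _).mp h2
      have h4 : (r : X) * r = z := congrArg Subtype.val hr
      rcases h3 with h3 | h3
      · rw [h3, mul_one] at h4; exact hz1 h4.symm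
      · rw [h3, hzz] at h4; exact hz1 h4.symm
    · -- `[t, Q] ≤ ⟨z⟩`, and `Q` is perfect
      have hc2 : ∀ j (hj : j ∈ Q), t * j * t⁻¹ = j ∨ t * j * t⁻¹ = z * j := by
        intro j hj
        have h1 := hK (hcom j hj)
        have h2 := (hC.qt.center_iff _).mp h1
        rcases h2 with h2 | h2
        · left
          have h3 : t * j * t⁻¹ * j⁻¹ = 1 := congrArg Subtype.val h2
          exact mul_inv_eq_one.mp h3
        · right
          have h3 : t * j * t⁻¹ * j⁻¹ = z := congrArg Subtype.val h2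
          exact mul_inv_eq_iff_eq_mul.mp h3
      have hc3 : ∀ j (hj : j ∈ Q), ∃ c : X, (∀ x, x * c = c * x) ∧ t * j * t⁻¹ = c * j := by
        intro j hj
        rcases hc2 j hj with h | h
        · exact ⟨1, by simp, by rw [h, one_mul]⟩
        · exact ⟨z, hC.cen, h⟩
      let T : Subgroup ↥Q := (centralizer ({t} : Set X)).subgroupOf Q
      have hTmem : ∀ j (hj : j ∈ Q), (⟨j, hj⟩ : ↥Q) ∈ T ↔ t * j * t⁻¹ = j := by
        intro j hj
        rw [Subgroup.mem_subgroupOf, Subgroup.mem_centralizer_singleton_iff]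
        constructor
        · intro h
          show t * j * t⁻¹ = j
          have h' : j * t = t * j := h
          rw [← h']; group
        · intro h
          show j * t = t * j
          calc j * t = (t * j * t⁻¹) * t := by rw [h]
            _ = t * j := by group
      have hle : commutator ↥Q ≤ T := by
        rw [_root_.commutator_def, Subgroup.commutator_le]
        rintro ⟨a, ha⟩ _ ⟨b, hb⟩ _
        have hcmem : a * b * a⁻¹ * b⁻¹ ∈ Q :=
          Q.mul_mem (Q.mul_mem (Q.mul_mem ha hb) (Q.inv_mem ha)) (Q.inv_mem hb)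
        have : (⁅(⟨a, ha⟩ : ↥Q), (⟨b, hb⟩ : ↥Q)⁆ : ↥Q) = ⟨a * b * a⁻¹ * b⁻¹, hcmem⟩ := rfl
        rw [this, hTmem]
        have key : t * (a * b * a⁻¹ * b⁻¹) * t⁻¹
            = (t * a * t⁻¹) * (t * b * t⁻¹) * (t * a * t⁻¹)⁻¹ * (t * b * t⁻¹)⁻¹ := by group
        rw [key]
        obtain ⟨c, hc, hcc⟩ := hc3 a ha
        obtain ⟨d, hd, hdd⟩ := hc3 b hb
        rw [hcc, hdd]
        have e1 : ∀ c' : X, (∀ x, x * c' = c' * x) → ∀ Y, c' * Y * c'⁻¹ = Y := by
          intro c' hc' Y
          rw [← hc' Y]; group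
        calc (c * a) * (d * b) * (c * a)⁻¹ * (d * b)⁻¹
            = c * (a * d * b * a⁻¹) * c⁻¹ * (b⁻¹ * d⁻¹) := by group
          _ = (a * d * b * a⁻¹) * (b⁻¹ * d⁻¹) := by rw [e1 c hc]
          _ = (d * a * b * a⁻¹) * (b⁻¹ * d⁻¹) := by rw [hd a]
          _ = d * (a * b * a⁻¹ * b⁻¹) * d⁻¹ := by group
          _ = _ := by rw [e1 d hd]
      have htop : T = ⊤ := by
        apply le_antisymm le_top
        rw [← Cfsg.Agent.Lib.Components.Basic.quasisimple_perfect hC.qt.qs]
        exact hle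
      apply hj₀t
      have : (⟨j₀, hj₀⟩ : ↥Q) ∈ T := by rw [htop]; trivial
      exact (hTmem _ _).mp this
  · -- the non-isolated case
    unfold IsIsolatedInvolution at hiso
    push Not at hiso
    obtain ⟨h, hc, hne⟩ := hiso htb2
    obtain ⟨b, hb, hbh⟩ := h.2
    -- replace `b` by an element of `Q`
    have : ∃ q ∈ Q, q * t * q⁻¹ = b * t * b⁻¹ := by
      rcases hb with hb | hb
      · exact ⟨b, hb, rfl⟩
      · refine ⟨b * t, hb, ?_⟩
        group
    obtain ⟨q, hq, hqb⟩ := this
    have hq1 : ((h * tb * h⁻¹ : ↥W) : X ⧸ zpowers z) = π (q * t * q⁻¹) := by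
      rw [hqb]
      show (h : X ⧸ zpowers z) * π t * (h : X ⧸ zpowers z)⁻¹ = _
      rw [← hbh]
      simp only [map_mul, map_inv]
    set t₁ := q * t * q⁻¹ with ht₁
    have ht₁₁ : t₁ * t₁ = 1 := by
      rw [ht₁]
      calc q * t * q⁻¹ * (q * t * q⁻¹) = q * (t * t) * q⁻¹ := by group
        _ = 1 := by rw [ht]; group
    have hcomm : π t * π t₁ = π t₁ * π t := by
      have h0 : tb * (h * tb * h⁻¹) = (h * tb * h⁻¹) * tb := hc.eq
      have h1 : ((tb * (h * tb * h⁻¹) : ↥W) : X ⧸ zpowers z)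
          = ((h * tb * h⁻¹) * tb : ↥W) := congrArg Subtype.val h0
      have h2 : ((tb * (h * tb * h⁻¹) : ↥W) : X ⧸ zpowers z)
          = π t * ((h * tb * h⁻¹ : ↥W) : X ⧸ zpowers z) := rfl
      have h3 : (((h * tb * h⁻¹) * tb : ↥W) : X ⧸ zpowers z)
          = ((h * tb * h⁻¹ : ↥W) : X ⧸ zpowers z) * π t := rfl
      rw [h2, h3, hq1] at h1
      exact h1
    have hnet : π t₁ ≠ π t := by
      intro h2
      apply hne
      apply Subtype.ext
      rw [hq1, h2]
    have huQ : t₁ * t ∈ Q := by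
      have : t₁ * t = q * (t * q⁻¹ * t⁻¹) := by
        rw [htinv, ht₁]; group
      rw [this]
      exact Q.mul_mem hq (hconj _ (Q.inv_mem hq))
    have hπt : π t * π t = 1 := by rw [← map_mul, ht, map_one]
    have hπt₁ : π t₁ * π t₁ = 1 := by rw [← map_mul, ht₁₁, map_one]
    have huu : π (t₁ * t * (t₁ * t)) = 1 := by
      simp only [map_mul]
      calc π t₁ * π t * (π t₁ * π t) = π t₁ * (π t * π t₁) * π t := by group
        _ = π t₁ * (π t₁ * π t) * π t := by rw [hcomm]
        _ = (π t₁ * π t₁) * (π t * π t) := by group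
        _ = 1 := by rw [hπt, hπt₁, one_mul]
    have hune : π (t₁ * t) ≠ 1 := by
      intro h2
      rw [map_mul] at h2
      apply hnet
      calc π t₁ = π t₁ * π t * π t := by rw [mul_assoc, hπt, mul_one]
        _ = π t := by rw [h2, one_mul]
    have hu2 : t₁ * t * (t₁ * t) = z := by
      rcases (hπ _).mp huu with h2 | h2
      · exfalso
        apply hune
        by_cases h3 : t₁ * t = 1
        · rw [h3, map_one]
        · have ho : orderOf (⟨t₁ * t, huQ⟩ : ↥Q) = 2 := by
            apply orderOf_eq_prime (p := 2) (hp := ⟨Nat.prime_two⟩)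
            · apply Subtype.ext
              show (t₁ * t) ^ 2 = 1
              rw [sq, h2]
            · intro h4
              exact h3 (congrArg Subtype.val h4)
          have h5 := hC.qt.uniq _ ho
          have h6 : t₁ * t = z := congrArg Subtype.val h5
          rw [h6]
          exact hπz
      · exact h2
    refine ⟨t₁ * t, huQ, ?_, hu2⟩
    have ht₁inv : t₁⁻¹ = t₁ := inv_eq_of_mul_eq_one_left ht₁₁
    calc t₁ * t * t * (t₁ * t)⁻¹ = t₁ * (t * t) * t⁻¹ * t₁⁻¹ := by group
      _ = t₁ * t * t₁ := by rw [ht, mul_one, htinv, ht₁inv]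
      _ = (t₁ * t * (t₁ * t)) * t⁻¹ := by group
      _ = z * t := by rw [hu2, htinv]
      _ = t * z := (hC.cen t).symm

end Cfsg.Agent.Lib.IntrSL.Flip
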