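/-
S1315: transport between `G` and `Bar x`. See PLAN.md.
-/
import Cfsg.Agent.Lib.IntrSL.Defs

set_option autoImplicit false
set_option linter.style.haveILetI false
set_option linter.unusedSectionVars false

namespace Cfsg.Agent.Lib.IntrSL.Transport

open Subgroup Cfsg Cfsg.Agent.Lib.BpBalance.Basic Cfsg.Agent.Lib.Subnormal.Basic
  Cfsg.Agent.Lib.PTerm.Rel Cfsg.Agent.Lib.PTerm.Dict Cfsg.Agent.Lib.IntrSL.Defs
open scoped commutatorElement Pointwise

universe u

variable {X : Type u} [Group X] [Finite X]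

variable {G : Type u} [Group G] [Finite G]

theorem bar_eq_iff {x : G} (a b : ↥(CC x)) :
    bar x a = bar x b ↔ (a : G) * (b : G)⁻¹ ∈ OC 2 (CC x) := by
  have h1 : bar x a = bar x b ↔ bar x (a * b⁻¹) = 1 := by
    rw [map_mul, map_inv, mul_inv_eq_one]
  rw [h1]
  exact mk_eq_one_iff (p := 2) (a * b⁻¹)

/-- An odd element: everything in `OC` has odd order. An involution never lies in `OC`. -/
theorem not_mem_OC_of_ord2 (H : Subgroup G) {a : G} (ha : orderOf a = 2) : a ∉ OC 2 H := by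
  intro h
  have h1 := orderOf_dvd_natCard (⟨a, h⟩ : ↥(OC 2 H))
  rw [Subgroup.orderOf_mk, ha] at h1
  have h2 : (Nat.card (OC 2 H)).Coprime 2 := OC_coprime H
  have h3 := Nat.Coprime.coprime_dvd_left h1 h2
  exact absurd h3 (by norm_num)

theorem odd_order_of_mem_OC (H : Subgroup G) {a : G} (ha : a ∈ OC 2 H) : Odd (orderOf a) := by
  have h1 := orderOf_dvd_natCard (⟨a, ha⟩ : ↥(OC 2 H))
  rw [Subgroup.orderOf_mk] at h1
  have h2 : (Nat.card (OC 2 H)).Coprime 2 := OC_coprime H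
  exact Nat.Coprime.odd_of_right (Nat.Coprime.coprime_dvd_left h1 h2)

/-- Surjectivity: every element of `img x J` is `bar` of an element of `J`. -/
theorem mem_img_iff {x : G} {J : Subgroup G} {q : Bar x} :
    q ∈ img x J ↔ ∃ (j : ↥(CC x)), (j : G) ∈ J ∧ bar x j = q := by
  constructor
  · rintro ⟨j, hj, rfl⟩
    exact ⟨j, mem_subgroupOf.mp hj, rfl⟩
  · rintro ⟨j, hj, rfl⟩
    exact ⟨j, mem_subgroupOf.mpr hj, rfl⟩

/-- The map `L → img x L`. -/
noncomputable def toImg {L : Subgroup G} {x : G} (hL : L ≤ CC x) : ↥L →* ↥(img x L) :=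
  ((bar x).comp (Subgroup.inclusion hL)).codRestrict (img x L)
    (fun j => ⟨Subgroup.inclusion hL j, mem_subgroupOf.mpr j.2, rfl⟩)

theorem toImg_coe {L : Subgroup G} {x : G} (hL : L ≤ CC x) (j : ↥L) :
    ((toImg hL j : ↥(img x L)) : Bar x) = bar x ⟨j, hL j.2⟩ := rfl

theorem toImg_surjective {L : Subgroup G} {x : G} (hL : L ≤ CC x) : Function.Surjective (toImg hL) := by
  rintro ⟨q, hq⟩
  obtain ⟨j, hj, rfl⟩ := mem_img_iff.mp hq
  exact ⟨⟨j, hj⟩, rfl⟩

theorem mem_ker_toImg {L : Subgroup G} {x : G} (hL : L ≤ CC x) (j : ↥L) :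
    j ∈ (toImg hL).ker ↔ (j : G) ∈ OC 2 (CC x) := by
  rw [MonoidHom.mem_ker, Subtype.ext_iff]
  show bar x ⟨j, hL j.2⟩ = 1 ↔ _
  exact mk_eq_one_iff (p := 2) _

theorem ker_toImg_coprime {L : Subgroup G} {x : G} (hL : L ≤ CC x) :
    (Nat.card (toImg hL).ker).Coprime 2 := by
  haveI : Fact (Nat.Prime 2) := ⟨Nat.prime_two⟩
  rw [Cfsg.Agent.Lib.Core.Basic.coprime_card_iff_forall_orderOf]
  intro j hj
  have h1 := odd_order_of_mem_OC _ ((mem_ker_toImg hL j).mp hj)
  rw [Subgroup.orderOf_coe] at h1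
  exact Nat.coprime_two_right.mpr h1

/-- A surjection with odd kernel induces `A/O(A) ≃ C/O(C)`. -/
theorem quot_equiv_of_odd_ker {A C : Type u} [Group A] [Group C] [Finite A] (f : A →* C)
    (hf : Function.Surjective f) (hker : (Nat.card f.ker).Coprime 2) :
    Nonempty ((A ⧸ oddCore A) ≃* (C ⧸ oddCore C)) := by
  haveI : Fact (Nat.Prime 2) := ⟨Nat.prime_two⟩
  haveI : Finite C := Finite.of_surjective f hf
  let g : A →* (C ⧸ oddCore C) := (QuotientGroup.mk' (oddCore C)).comp f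
  have hg : Function.Surjective g := (QuotientGroup.mk'_surjective _).comp hf
  have hgk : (Nat.card g.ker).Coprime 2 := by
    rw [Cfsg.Agent.Lib.Core.Basic.coprime_card_iff_forall_orderOf]
    intro a ha
    have h1 : f a ∈ oddCore C := (QuotientGroup.eq_one_iff _).mp ha
    have h2 := Cfsg.Agent.Lib.Core.Basic.orderOf_coprime_of_mem_pPrimeCore h1
    have h3 : a ^ orderOf (f a) ∈ f.ker := by
      rw [MonoidHom.mem_ker, map_pow, pow_orderOf_eq_one]
    have h5 : (orderOf (a ^ orderOf (f a))).Coprime 2 := by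
      have := orderOf_dvd_natCard (⟨a ^ orderOf (f a), h3⟩ : ↥f.ker)
      rw [Subgroup.orderOf_mk] at this
      exact Nat.Coprime.coprime_dvd_left this hker
    have h6 : (orderOf (a : A)) ∣ orderOf (f a) * orderOf (a ^ orderOf (f a)) := by
      apply orderOf_dvd_of_pow_eq_one
      rw [pow_mul, pow_orderOf_eq_one]
    exact Nat.Coprime.coprime_dvd_left h6 (Nat.Coprime.mul_left h2 h5)
  exact Cfsg.Agent.Lib.PTerm.Cover.nonempty_quot_equiv g hg
    Cfsg.Agent.Lib.Core.Basic.pPrimeCore_quotient_eq_bot hgk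

/-- For subnormal `J`: the kernel of `J → J̄` is `O(J)`. -/
theorem ker_toImg {J : Subgroup G} {x : G} (h : SN J (CC x)) :
    (toImg h.le).ker = oddCore ↥J := by
  ext j
  rw [mem_ker_toImg, ← mem_core_iff (p := 2) j, OC_of_SN h]
  constructor
  · intro h1
    exact ⟨h1, j.2⟩
  · intro h1
    exact h1.1

/-- `J/O(J) ≃ J̄`. -/
noncomputable def imgEquiv {J : Subgroup G} {x : G} (h : SN J (CC x)) :
    (↥J ⧸ oddCore ↥J) ≃* ↥(img x J) :=
  (QuotientGroup.quotientMulEquivOfEq (ker_toImg h).symm).trans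
    (QuotientGroup.quotientKerEquivOfSurjective (toImg h.le) (toImg_surjective h.le))

theorem imgEquiv_mk {J : Subgroup G} {x : G} (h : SN J (CC x)) (j : ↥J) :
    imgEquiv h (QuotientGroup.mk' (oddCore ↥J) j) = toImg h.le j := rfl

theorem pPrimeCore_coprime_aux {A : Type u} [Group A] [Finite A] : (Nat.card (oddCore A)).Coprime 2 :=
  Cfsg.Agent.Lib.Core.Basic.pPrimeCore_coprime

/-- T1. -/
theorem compZ_img {J : Subgroup G} {x : G} (h : SLComp J x) : CompZ (img x J) (barz x) := by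
  have hz : barz x ∈ img x J := ⟨⟨x, self_mem_CC x⟩, mem_subgroupOf.mpr h.mem, rfl⟩
  refine ⟨?_, hz, ?_, ?_⟩
  · exact (isSubnormal_subgroupOf_of_SN h.sn).map (QuotientGroup.mk'_surjective _)
  · intro a
    obtain ⟨a₀, rfl⟩ := QuotientGroup.mk'_surjective (oddCore ↥(CC x)) a
    have h1 : a₀ * ⟨x, self_mem_CC x⟩ = ⟨x, self_mem_CC x⟩ * a₀ :=
      Subtype.ext (mem_CC.mp a₀.2)
    have h2 := congrArg (bar x) h1
    rwa [map_mul, map_mul] at h2
  · have := QType.of_equiv (imgEquiv h.sn) h.qt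
    exact this

/-- T2. `eq_of_map_eq` / `pcomp_eq_or_comm`. -/
theorem mem_norm_iff {J : Subgroup G} {x : G} (h : SLComp J x) (a : ↥(CC x)) :
    bar x a ∈ normalizer ((img x J : Subgroup (Bar x)) : Set (Bar x)) ↔
      (a : G) ∈ normalizer (J : Set G) := by
  haveI : Fact (Nat.Prime 2) := ⟨Nat.prime_two⟩
  have hax : (a : G) * x * (a : G)⁻¹ = x := by
    rw [mem_CC.mp a.2]; group
  constructor
  · intro hn
    have hK : SLComp (Kc (a : G) J) x := by
      have := h.conj (a : G)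
      rwa [hax] at this
    have hJc : IsPComponent 2 (J.subgroupOf (CC x)) :=
      (isPComponentOf_iff.mpr ⟨h.sn, h.pt⟩ : IsPComponentOf 2 J (CC x)).2
    have hKc : IsPComponent 2 ((Kc (a : G) J).subgroupOf (CC x)) :=
      (isPComponentOf_iff.mpr ⟨hK.sn, hK.pt⟩ : IsPComponentOf 2 (Kc (a : G) J) (CC x)).2
    have hmap : img x (Kc (a : G) J) = img x J := by
      ext q
      rw [mem_img_iff, mem_img_iff]
      constructor
      · rintro ⟨c, hc, rfl⟩
        have h1 : (a : G)⁻¹ * c * a ∈ J := mem_Kc.mp hc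
        have h2 : a⁻¹ * c * a ∈ J.subgroupOf (CC x) := mem_subgroupOf.mpr h1
        have h3 : bar x (a⁻¹ * c * a) ∈ img x J := ⟨_, h2, rfl⟩
        have h4 := (mem_normalizer_iff.mp hn _).mp h3
        rw [map_mul, map_mul, map_inv] at h4
        have e : bar x a * ((bar x a)⁻¹ * bar x c * bar x a) * (bar x a)⁻¹ = bar x c := by group
        rw [e] at h4
        obtain ⟨j, hj, e2⟩ := mem_img_iff.mp h4
        exact ⟨j, hj, e2⟩
      · rintro ⟨j, hj, rfl⟩
        have h3 : bar x j ∈ img x J := ⟨j, mem_subgroupOf.mpr hj, rfl⟩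
        have h4 := (mem_normalizer_iff.mp (inv_mem hn) _).mp h3
        obtain ⟨j', hj', e2⟩ := mem_img_iff.mp h4
        refine ⟨a * j' * a⁻¹, ?_, ?_⟩
        · exact conj_mem_Kc (a : G) hj'
        · rw [map_mul, map_mul, map_inv, e2]
          group
    have heq := Cfsg.Agent.Lib.PCStage.Basic.eq_of_map_eq Nat.prime_two hKc hJc hmap
    have heq' : Kc (a : G) J = J := by
      have h1 := congrArg (Subgroup.map (CC x).subtype) heq
      rwa [map_subgroupOf_eq_of_le hK.sn.le, map_subgroupOf_eq_of_le h.sn.le] at h1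
    rw [mem_normalizer_iff]
    intro b
    constructor
    · intro hb
      have : (a : G) * b * (a : G)⁻¹ ∈ Kc (a : G) J := conj_mem_Kc (a : G) hb
      rwa [heq'] at this
    · intro hb
      have h1 : (a : G) * b * (a : G)⁻¹ ∈ Kc (a : G) J := by rw [heq']; exact hb
      have h2 := mem_Kc.mp h1
      have e : (a : G)⁻¹ * ((a : G) * b * (a : G)⁻¹) * (a : G) = b := by group
      rwa [e] at h2
  · intro hn
    have h1 : a ∈ normalizer ((J.subgroupOf (CC x) : Subgroup ↥(CC x)) : Set ↥(CC x)) := by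
      rw [mem_normalizer_iff]
      intro b
      rw [mem_subgroupOf, mem_subgroupOf]
      exact mem_normalizer_iff.mp hn b
    exact Subgroup.le_normalizer_map (bar x) ⟨a, h1, rfl⟩

/-- T3. -/
theorem cent_iff {J : Subgroup G} {x : G} (h : SLComp J x) (a : ↥(CC x)) :
    (∀ q ∈ img x J, bar x a * q = q * bar x a) ↔
      (a : G) ∈ normalizer (J : Set G) ∧ ∀ j ∈ J, (a : G) * j * (a : G)⁻¹ * j⁻¹ ∈ OC 2 J := by
  constructor
  · intro hc
    have hn : bar x a ∈ normalizer ((img x J : Subgroup (Bar x)) : Set (Bar x)) := by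
      rw [mem_normalizer_iff]
      intro q
      have hcq : ∀ q : Bar x, q ∈ img x J → bar x a * q * (bar x a)⁻¹ = q := by
        intro q hq
        rw [hc q hq]
        group
      constructor
      · intro hq
        rw [hcq q hq]
        exact hq
      · intro hq
        have h1 := hcq _ hq
        have h2 : bar x a * q * (bar x a)⁻¹ = q := by
          have h3 : bar x a * (bar x a * q * (bar x a)⁻¹) = (bar x a) * q := by
            have h4 := hc _ hq
            rw [h4]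
            group
          exact mul_left_cancel h3
        rw [h2] at hq
        exact hq
    have hnJ := (mem_norm_iff h a).mp hn
    refine ⟨hnJ, ?_⟩
    intro j hj
    rw [OC_of_SN h.sn]
    have hjc := h.sn.le hj
    refine ⟨?_, J.mul_mem ((mem_normalizer_iff.mp hnJ j).mp hj) (J.inv_mem hj)⟩
    have h1 := hc (bar x ⟨j, hjc⟩) ⟨⟨j, hjc⟩, mem_subgroupOf.mpr hj, rfl⟩
    have h2 : bar x (a * ⟨j, hjc⟩) = bar x (⟨j, hjc⟩ * a) := by
      rw [map_mul, map_mul, h1]
    rw [bar_eq_iff] at h2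
    have e : ((a * ⟨j, hjc⟩ : ↥(CC x)) : G) * ((⟨j, hjc⟩ * a : ↥(CC x)) : G)⁻¹ =
        (a : G) * j * (a : G)⁻¹ * j⁻¹ := by
      simp only [Subgroup.coe_mul, mul_inv_rev]
      group
    rwa [e] at h2
  · rintro ⟨-, hc⟩ q hq
    obtain ⟨j, hj, rfl⟩ := mem_img_iff.mp hq
    have h1 := hc j hj
    rw [OC_of_SN h.sn] at h1
    have h2 : bar x (a * j) = bar x (j * a) := by
      rw [bar_eq_iff]
      have e : ((a * j : ↥(CC x)) : G) * ((j * a : ↥(CC x)) : G)⁻¹ =
          (a : G) * j * (a : G)⁻¹ * (j : G)⁻¹ := by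
        simp only [Subgroup.coe_mul, mul_inv_rev]
        group
      rw [e]
      exact h1.1
    rwa [map_mul, map_mul] at h2

/-- T4. (`PT.of_surjective`; the image is nontrivial since the kernel is odd and `2 ∣ |L|`.) -/
theorem img_PT {L : Subgroup G} {x : G} (hL : L ≤ CC x) (hPT : PT 2 ↥L) : PT 2 ↥(img x L) := by
  haveI : Fact (Nat.Prime 2) := ⟨Nat.prime_two⟩
  haveI : Nontrivial ↥(img x L) := by
    by_contra hn
    rw [not_nontrivial_iff_subsingleton] at hn
    have h1 : (toImg hL).ker = ⊤ := by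
      rw [eq_top_iff]
      intro j _
      exact Subsingleton.elim _ _
    have h2 := ker_toImg_coprime hL
    rw [h1, Subgroup.card_top] at h2
    have h3 := PT.dvd_card hPT
    have h4 := Nat.Coprime.coprime_dvd_left h3 h2
    exact absurd h4 (by norm_num)
  exact PT.of_surjective (toImg hL) (toImg_surjective hL) hPT

/-- T5. (`PTerm.Balance.centralizer_map_mk`: `C(ȳ)` is the image of `C(x) ⊓ C(y)`; `SN_map`.) -/
theorem img_SN {L : Subgroup G} {x y : G} (hyx : y ∈ CC x) (hy : y * y = 1)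
    (hL : SN L (CC x ⊓ CC y)) : SN (img x L) (CC (bar x ⟨y, hyx⟩)) := by
  haveI : Fact (Nat.Prime 2) := ⟨Nat.prime_two⟩
  have h1 := Cfsg.Agent.Lib.PTerm.Balance.centralizer_map_mk (p := 2) (oddCore ↥(CC x))
    pPrimeCore_coprime_aux (x := (⟨y, hyx⟩ : ↥(CC x))) (k := 1)
    (by
      apply Subtype.ext
      show y ^ 2 ^ 1 = 1
      rw [pow_one, pow_two]; exact hy)
  have h2 := Cfsg.Agent.Lib.PTerm.Balance.SN_comap (CC x).subtype hL
  have h3 := Cfsg.Agent.Lib.PTerm.Balance.SN_map (bar x) h2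
  have h4 : (CC x ⊓ CC y).comap (CC x).subtype = centralizer ({(⟨y, hyx⟩ : ↥(CC x))} : Set ↥(CC x)) := by
    rw [centralizer_coe]
    ext a
    simp only [mem_comap, mem_inf, mem_subgroupOf, coe_subtype]
    exact ⟨fun h => h.2, fun h => ⟨a.2, h⟩⟩
  rw [h4, ← h1] at h3
  exact h3

/-- T6. Elements of `C(ȳ)` lift to `C(x) ⊓ C(y)`. -/
theorem lift_centralizer {x y : G} (hyx : y ∈ CC x) (hy : y * y = 1) {b : Bar x}
    (hb : b * bar x ⟨y, hyx⟩ = bar x ⟨y, hyx⟩ * b) :
    ∃ g : ↥(CC x), (g : G) ∈ CC y ∧ bar x g = b := by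
  haveI : Fact (Nat.Prime 2) := ⟨Nat.prime_two⟩
  have h1 := Cfsg.Agent.Lib.PTerm.Balance.centralizer_map_mk (p := 2) (oddCore ↥(CC x))
    pPrimeCore_coprime_aux (x := (⟨y, hyx⟩ : ↥(CC x))) (k := 1)
    (by
      apply Subtype.ext
      show y ^ 2 ^ 1 = 1
      rw [pow_one, pow_two]; exact hy)
  have h2 : b ∈ centralizer ({bar x ⟨y, hyx⟩} : Set (Bar x)) := mem_centralizer_singleton_iff.mpr hb
  rw [h1] at h2
  obtain ⟨g, hg, e⟩ := h2
  refine ⟨g, ?_, e⟩
  rw [mem_CC]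
  have h3 := mem_centralizer_singleton_iff.mp hg
  exact congrArg Subtype.val h3

/-- T6'. Involutions of `C(ȳ)` lift to involutions of `C(x) ⊓ C(y)`. -/
theorem lift_centralizer_inv {x y : G} (hyx : y ∈ CC x) (hy : y * y = 1) {b : Bar x}
    (hb : b * bar x ⟨y, hyx⟩ = bar x ⟨y, hyx⟩ * b) (hbb : b * b = 1) :
    ∃ g : ↥(CC x), (g : G) ∈ CC y ∧ bar x g = b ∧ (g : G) * g = 1 := by
  haveI : Fact (Nat.Prime 2) := ⟨Nat.prime_two⟩
  by_cases hb1 : b = 1
  · exact ⟨1, (CC y).one_mem, by rw [map_one, hb1], by simp⟩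
  obtain ⟨g, hg, rfl⟩ := lift_centralizer hyx hy hb
  have hker : (Nat.card (bar x).ker).Coprime 2 := by
    rw [QuotientGroup.ker_mk']
    exact pPrimeCore_coprime_aux
  obtain ⟨t, h1, h2, h3⟩ := Cfsg.Agent.Lib.PTerm.Dict.exists_lift_order_p (p := 2) (bar x) hker
    (l := g) (by rw [pow_two]; exact hbb) hb1
  refine ⟨g ^ t, ?_, h1, ?_⟩
  · rw [Subgroup.coe_pow]
    exact (CC y).pow_mem hg t
  · have := congrArg Subtype.val h2
    rw [pow_two] at this
    exact this

/-- T9. (A surjection with odd kernel induces an isomorphism `A/O(A) ≃ B/O(B)`.) -/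
theorem quot_img_equiv {L : Subgroup G} {x : G} (hL : L ≤ CC x) :
    Nonempty ((↥L ⧸ oddCore ↥L) ≃* (↥(img x L) ⧸ oddCore ↥(img x L))) :=
  quot_equiv_of_odd_ker (toImg hL) (toImg_surjective hL) (ker_toImg_coprime hL)

/-- T7. A 2-component of `C(ȳ)` lifts to a 2-component of `C(x) ⊓ C(y)`. (`comap`, then the
subgroup generated by the 2-elements, `PTerm.Cover`, `S1272`.) -/
theorem lift_SN {x y : G} (hyx : y ∈ CC x) (hy : y * y = 1) {S : Subgroup (Bar x)}
    (hS : SN S (CC (bar x ⟨y, hyx⟩))) (hPT : PT 2 ↥S) :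
    ∃ D : Subgroup G, SN D (CC x ⊓ CC y) ∧ PT 2 ↥D ∧ img x D = S := by
  haveI : Fact (Nat.Prime 2) := ⟨Nat.prime_two⟩
  set ybar := bar x ⟨y, hyx⟩ with hybar
  -- the preimage
  set M : Subgroup G := (S.comap (bar x)).map (CC x).subtype ⊓ CC y with hM
  have hMH : M ≤ CC x := inf_le_left.trans (map_subtype_le _)
  have hMsn : SN M (CC x ⊓ CC y) := by
    have h1 := Cfsg.Agent.Lib.PTerm.Balance.SN_comap (bar x) hS
    have h2 := Cfsg.Agent.Lib.PTerm.Balance.SN_map (CC x).subtype h1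
    have h3 := h2.inf (CC y)
    have h4 : ((CC ybar).comap (bar x)).map (CC x).subtype ⊓ CC y = CC x ⊓ CC y := by
      ext a
      constructor
      · rintro ⟨⟨c, -, rfl⟩, hc⟩
        exact ⟨c.2, hc⟩
      · rintro ⟨h5, h6⟩
        refine ⟨⟨⟨a, h5⟩, ?_, rfl⟩, h6⟩
        show bar x ⟨a, h5⟩ ∈ CC ybar
        rw [mem_CC]
        have h7 : (⟨a, h5⟩ : ↥(CC x)) * ⟨y, hyx⟩ = ⟨y, hyx⟩ * ⟨a, h5⟩ :=
          Subtype.ext (mem_CC.mp h6)
        have h8 := congrArg (bar x) h7
        rwa [map_mul, map_mul] at h8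
    rwa [h4] at h3
  have hMimg : img x M = S := by
    ext q
    rw [mem_img_iff]
    constructor
    · rintro ⟨j, ⟨⟨c, hc, e⟩, -⟩, rfl⟩
      have h1 : c = j := Subtype.ext e
      rw [← h1]
      exact hc
    · intro hq
      have hqc : q ∈ CC ybar := hS.le hq
      obtain ⟨g, hg, rfl⟩ := lift_centralizer hyx hy (mem_CC.mp hqc)
      exact ⟨g, ⟨⟨g, hq, rfl⟩, hg⟩, rfl⟩
  have hPT' : PT 2 ↥(img x M) := by rw [hMimg]; exact hPT
  obtain ⟨e⟩ := quot_img_equiv hMH
  have hq : IsQuasisimple (↥M ⧸ pPrimeCore 2 ↥M) :=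
    Cfsg.Agent.Lib.Components.Basic.quasisimple_of_mulEquiv e.symm (PT.quasisimple_quot hPT')
  obtain ⟨H, hH, hHt, -⟩ := Cfsg.Agent.Lib.PTerm.Cover.pLayer_of_quasisimple_quot (p := 2) hq
  set D : Subgroup G := H.map M.subtype with hD
  have hDM : D ≤ M := map_subtype_le H
  have hDsn : SN D M := by
    apply SN_of_isSubnormal_subgroupOf hDM
    have : D.subgroupOf M = H := by
      rw [hD, subgroupOf, comap_map_eq_self_of_injective M.subtype_injective]
    rw [this]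
    exact hH.1
  have hDpt : PT 2 ↥D :=
    PT.of_equiv (Subgroup.equivMapOfInjective H M.subtype M.subtype_injective)
      (isPComponent_iff.mp hH).2
  refine ⟨D, hDsn.trans hMsn, hDpt, ?_⟩
  -- `img x D = S`
  rw [← hMimg]
  have hTsn : SN (img x D) (img x M) :=
    Cfsg.Agent.Lib.PTerm.Balance.SN_map (bar x) (Cfsg.Agent.Lib.PTerm.Balance.SN_comap (CC x).subtype hDsn)
  have hTle : img x D ≤ img x M := hTsn.le
  have htop : IsPComponent 2 (⊤ : Subgroup ↥(img x M)) := PT.top hPT'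
  have hsub : ((img x D).subgroupOf (img x M)).IsSubnormal := isSubnormal_subgroupOf_of_SN hTsn
  have hmap : ((img x D).subgroupOf (img x M)).map (QuotientGroup.mk' (pPrimeCore 2 ↥(img x M))) =
      (⊤ : Subgroup ↥(img x M)).map (QuotientGroup.mk' (pPrimeCore 2 ↥(img x M))) := by
    apply le_antisymm (Subgroup.map_mono le_top)
    rintro _ ⟨s, -, rfl⟩
    obtain ⟨m, rfl⟩ := toImg_surjective hMH s
    have h1 : QuotientGroup.mk' (pPrimeCore 2 ↥M) m ∈ H.map (QuotientGroup.mk' (pPrimeCore 2 ↥M)) := by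
      rw [hHt]; trivial
    obtain ⟨h, hh, e1⟩ := h1
    have h2 : h⁻¹ * m ∈ pPrimeCore 2 ↥M := QuotientGroup.eq.mp e1
    have h3 : toImg hMH (h⁻¹ * m) ∈ pPrimeCore 2 ↥(img x M) :=
      Cfsg.Agent.Lib.Core.Basic.map_pPrimeCore_le_of_surjective (p := 2) (toImg hMH) (toImg_surjective hMH)
        ⟨_, h2, rfl⟩
    refine ⟨toImg hMH h, ?_, ?_⟩
    · show bar x ⟨h, hMH h.2⟩ ∈ img x D
      exact ⟨⟨h, hMH h.2⟩, mem_subgroupOf.mpr ⟨h, hh, rfl⟩, rfl⟩
    · apply QuotientGroup.eq.mpr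
      rw [← map_inv, ← map_mul]
      exact h3
  have hT := htop.2.2 _ hsub le_top hmap
  apply le_antisymm hTle
  intro s hs
  have h1 : (⟨s, hs⟩ : ↥(img x M)) ∈ (img x D).subgroupOf (img x M) := by rw [hT]; trivial
  exact mem_subgroupOf.mp h1

/-- T8. -/
theorem OC_inf (x y : G) : OC 2 (CC x) ⊓ CC y ≤ OC 2 (CC x ⊓ CC y) := by
  apply le_OC
  · exact inf_le_inf_right _ (OC_le _)
  · rintro h ⟨h1, h2⟩ a ⟨a1, a2⟩
    refine ⟨conj_mem_OC h1 a1, ?_⟩
    exact (CC y).mul_mem ((CC y).mul_mem h2 a2) ((CC y).inv_mem h2)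
  · exact Nat.Coprime.coprime_dvd_left (Subgroup.card_dvd_of_le inf_le_left) (OC_coprime (CC x))

/-- For `J` an `SLComp`: `J̄ ≃ J/O(J)`. -/
theorem card_img {J : Subgroup G} {x : G} (h : SLComp J x) : Nat.card (img x J) = qcard J :=
  (Nat.card_congr (imgEquiv h.sn).toEquiv).symm

/-- If `x ≠ y` are commuting involutions then `ȳ ≠ 1, x̄`. -/
theorem bar_ne {x y : G} (hyx : y ∈ CC x) (hx : orderOf x = 2) (hy : orderOf y = 2) (hxy : x ≠ y) :
    bar x ⟨y, hyx⟩ ≠ 1 ∧ bar x ⟨y, hyx⟩ ≠ barz x := by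
  constructor
  · intro h
    have h1 : (y : G) ∈ OC 2 (CC x) := (mk_eq_one_iff (p := 2) ⟨y, hyx⟩).mp h
    exact not_mem_OC_of_ord2 _ hy h1
  · intro h
    rw [barz, bar_eq_iff] at h
    have h0 : y * x⁻¹ ∈ OC 2 (CC x) := h
    have h1 := odd_order_of_mem_OC _ h0
    have hxx : x ^ 2 = 1 := by
      have h2 := pow_orderOf_eq_one x
      rwa [hx] at h2
    have hyy : y ^ 2 = 1 := by
      have h2 := pow_orderOf_eq_one y
      rwa [hy] at h2
    have hc : y * x = x * y := mem_CC.mp hyx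
    have h2 : (y * x⁻¹) ^ 2 = 1 := by
      have hcc : Commute y x⁻¹ := (show Commute y x from hc).inv_right
      rw [hcc.mul_pow, hyy, inv_pow, hxx, inv_one, one_mul]
    have h3 : orderOf (y * x⁻¹) ∣ 2 := orderOf_dvd_of_pow_eq_one h2
    have h4 : orderOf (y * x⁻¹) = 1 :=
      Nat.eq_one_of_dvd_coprimes (Nat.coprime_two_right.mpr h1) dvd_rfl h3
    rw [orderOf_eq_one_iff, mul_inv_eq_one] at h4
    exact hxy h4.symm

end Cfsg.Agent.Lib.IntrSL.Transport
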