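/-
S1315 X-level. The diagonal of Q and its conjugate. See PLAN.md.
-/
import Cfsg.Agent.Lib.IntrSL.Defs

set_option autoImplicit false
set_option linter.style.haveILetI false
set_option linter.unusedSectionVars false

namespace Cfsg.Agent.Lib.IntrSL.XDiag

open Subgroup Cfsg Cfsg.Agent.Lib.BpBalance.Basic Cfsg.Agent.Lib.Subnormal.Basic
  Cfsg.Agent.Lib.PTerm.Rel Cfsg.Agent.Lib.PTerm.Dict Cfsg.Agent.Lib.IntrSL.Defs
  Cfsg.Agent.Lib.PTerm.Balance Cfsg.Agent.Lib.Components.Basic Cfsg.Agent.Lib.LBalance.Basic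
open scoped commutatorElement Pointwise

universe u

variable {X : Type u} [Group X] [Finite X]

/-- Conjugates of `CompZ`. -/
theorem CompZ.conj {Q : Subgroup X} {z : X} (hC : CompZ Q z) (s : X) : CompZ (Kc s Q) z := by
  have hfix : s * z * s⁻¹ = z := by
    rw [hC.cen s]; group
  have hmem : z ∈ Kc s Q := ⟨z, hC.mem, hfix⟩
  refine ⟨?_, hmem, hC.cen, ?_⟩
  · have h := SN_map (MulAut.conj s).toMonoidHom (isSubnormal_iff_SN_top.mp hC.sn)
    rw [Subgroup.map_top_of_surjective _ (MulAut.conj s).surjective] at h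
    exact isSubnormal_iff_SN_top.mpr h
  · let e : ↥Q ≃* ↥(Kc s Q) :=
      Subgroup.equivMapOfInjective Q (MulAut.conj s).toMonoidHom (MulAut.conj s).injective
    have h1 := QType.of_equiv e hC.qt
    have h2 : e ⟨z, hC.mem⟩ = ⟨z, hmem⟩ := Subtype.ext hfix
    rwa [h2] at h1

/-- `Q` and its conjugate commute and meet in the centre. -/
theorem comm_conj {Q : Subgroup X} {z s : X} (hC : CompZ Q z) (hs : s ∉ normalizer (Q : Set X)) :
    (∀ a ∈ Q, ∀ b ∈ Q, a * (s * b * s⁻¹) = (s * b * s⁻¹) * a) ∧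
      ∀ a ∈ Q, ∀ b ∈ Q, a = s * b * s⁻¹ → a = 1 ∨ a = z := by
  have hC' := CompZ.conj hC s
  have hne : Q ≠ Kc s Q := by
    intro h
    apply hs
    rw [mem_normalizer_iff]
    intro a
    constructor
    · intro ha
      have : s * a * s⁻¹ ∈ Kc s Q := conj_mem_Kc s ha
      rwa [← h] at this
    · intro ha
      rw [h] at ha
      have h1 := mem_Kc.mp ha
      have h2 : s⁻¹ * (s * a * s⁻¹) * s = a := by group
      rwa [h2] at h1
  have hL : IsComponent Q := ⟨hC.sn, hC.qt.qs⟩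
  have hL' : IsComponent (Kc s Q) := ⟨hC'.sn, hC'.qt.qs⟩
  have h1 : ∀ a ∈ Q, ∀ b ∈ Q, a * (s * b * s⁻¹) = (s * b * s⁻¹) * a := fun a ha b hb =>
    commute_of_ne hL hL' hne ha (conj_mem_Kc s hb)
  refine ⟨h1, ?_⟩
  intro a ha b hb hab
  have hc : (⟨a, ha⟩ : ↥Q) ∈ Subgroup.center ↥Q := by
    rw [Subgroup.mem_center_iff]
    intro g
    apply Subtype.ext
    change (g : X) * a = a * (g : X)
    rw [hab]
    exact h1 g g.2 b hb
  rcases (hC.qt.center_iff _).mp hc with h | h
  · left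
    exact congrArg Subtype.val h
  · right
    exact congrArg Subtype.val h

/-- Distinct conjugates of `Q` commute (`t ∉ N(Q)`), so `j ↦ j * (t j t⁻¹)` is a homomorphism on `Q`
with kernel `⟨z⟩`; its image `D` is simple, subnormal in `C(t)`
(`C_{Q Q^t}(t) = D × ⟨z⟩`, `Q Q^t` subnormal by `SN.sup`, then `SN.inf`). -/
theorem diag {Q : Subgroup X} {z t : X} (hC : CompZ Q z) (ht : t * t = 1)
    (hm : t ∉ normalizer (Q : Set X)) :
    ∃ D : Subgroup X, SN D (CC t) ∧ PT 2 ↥D ∧ IsSimpleGroup ↥D ∧ Nat.card D * 2 = Nat.card Q ∧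
      (∀ j ∈ Q, j * (t * j * t⁻¹) ∈ D) ∧ (∀ d ∈ D, ∃ j ∈ Q, d = j * (t * j * t⁻¹)) := by
  classical
  haveI : Fact (Nat.Prime 2) := ⟨Nat.prime_two⟩
  obtain ⟨hcom, hint⟩ := comm_conj hC hm
  have htinv : t⁻¹ = t := inv_eq_of_mul_eq_one_left ht
  have hzt : t * z * t⁻¹ = z := by rw [hC.cen t]; group
  have hzz : z * z = 1 := by
    have h1 : orderOf (⟨z, hC.mem⟩ : ↥Q) = 2 := hC.qt.ord
    have h2 : (⟨z, hC.mem⟩ : ↥Q) ^ 2 = 1 := by rw [← h1]; exact pow_orderOf_eq_one _
    have h3 := congrArg Subtype.val h2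
    simpa [pow_two] using h3
  -- the homomorphism
  let f : ↥Q →* X :=
    { toFun := fun j => (j : X) * (t * (j : X) * t⁻¹)
      map_one' := by simp
      map_mul' := by
        intro a b
        have h := hcom b b.2 a a.2
        change (a : X) * (b : X) * (t * ((a : X) * (b : X)) * t⁻¹) =
          (a : X) * (t * (a : X) * t⁻¹) * ((b : X) * (t * (b : X) * t⁻¹))
        calc (a : X) * (b : X) * (t * ((a : X) * (b : X)) * t⁻¹)
            = (a : X) * ((b : X) * (t * (a : X) * t⁻¹)) * (t * (b : X) * t⁻¹) := by group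
          _ = (a : X) * ((t * (a : X) * t⁻¹) * (b : X)) * (t * (b : X) * t⁻¹) := by rw [h]
          _ = _ := by group }
  have hf : ∀ j : ↥Q, f j = (j : X) * (t * (j : X) * t⁻¹) := fun _ => rfl
  have hker : f.ker = Subgroup.center ↥Q := by
    ext j
    rw [MonoidHom.mem_ker, hf]
    constructor
    · intro h
      have h1 : (j : X) = t * (j : X)⁻¹ * t⁻¹ := by
        have h0 := eq_inv_of_mul_eq_one_left h
        calc (j : X) = (t * (j : X) * t⁻¹)⁻¹ := h0
          _ = t * (j : X)⁻¹ * t⁻¹ := by group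
      rw [hC.qt.center_iff]
      rcases hint j j.2 (j : X)⁻¹ (Q.inv_mem j.2) h1 with h2 | h2
      · left; exact Subtype.ext h2
      · right; exact Subtype.ext h2
    · intro h
      rw [hC.qt.center_iff] at h
      rcases h with rfl | rfl
      · simp
      · change z * (t * z * t⁻¹) = 1
        rw [hzt, hzz]
  set D : Subgroup X := f.range with hD
  have hDmem : ∀ j ∈ Q, j * (t * j * t⁻¹) ∈ D := fun j hj => ⟨⟨j, hj⟩, rfl⟩
  have hDex : ∀ d ∈ D, ∃ j ∈ Q, d = j * (t * j * t⁻¹) := by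
    rintro _ ⟨j, rfl⟩
    exact ⟨j, j.2, rfl⟩
  -- the quotient
  let e : (↥Q ⧸ Subgroup.center ↥Q) ≃* ↥D :=
    (QuotientGroup.quotientMulEquivOfEq hker.symm).trans (QuotientGroup.quotientKerEquivRange f)
  have hsimple : IsSimpleGroup ↥D := by
    haveI := hC.qt.qs.2
    exact e.symm.isSimpleGroup
  -- the centre has order two
  have hz1 : (⟨z, hC.mem⟩ : ↥Q) ≠ 1 := by
    intro h
    have := hC.qt.ord
    rw [h, orderOf_one] at this
    omega
  have hcenter : Nat.card (Subgroup.center ↥Q) = 2 := by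
    rw [Nat.card_eq_two_iff]
    refine ⟨1, ⟨⟨z, hC.mem⟩, (hC.qt.center_iff _).mpr (Or.inr rfl)⟩, ?_, ?_⟩
    · intro h
      exact hz1 (congrArg Subtype.val h).symm
    · ext ⟨a, ha⟩
      simp only [Set.mem_insert_iff, Set.mem_singleton_iff, Set.mem_univ, iff_true]
      rcases (hC.qt.center_iff a).mp ha with h | h
      · left; exact Subtype.ext h
      · right; exact Subtype.ext h
  have hcardD : Nat.card D * 2 = Nat.card Q := by
    have h1 := Subgroup.card_eq_card_quotient_mul_card_subgroup (Subgroup.center ↥Q)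
    rw [hcenter, Nat.card_congr e.toEquiv] at h1
    exact h1.symm
  -- `Q` is `PT`
  obtain ⟨r, hr⟩ := hC.qt.exists_sq
  have h4 : 4 ∣ Nat.card Q := by
    have hr1 : orderOf r = 4 := by
      have hr4 : r ^ (2 ^ 2) = 1 := by
        have h2 : r ^ 2 = ⟨z, hC.mem⟩ := by rw [pow_two, hr]
        calc r ^ (2 ^ 2) = (r ^ 2) ^ 2 := by rw [← pow_mul]; norm_num
          _ = 1 := by
            rw [h2, ← hC.qt.ord]
            exact pow_orderOf_eq_one _
      have hr2 : r ^ (2 ^ 1) ≠ 1 := by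
        have h2 : r ^ (2 ^ 1) = ⟨z, hC.mem⟩ := by rw [pow_one, pow_two, hr]
        rw [h2]
        exact hz1
      have := orderOf_eq_prime_pow (p := 2) (n := 1) hr2 hr4
      simpa using this
    rw [← hr1]
    exact orderOf_dvd_natCard r
  have hPTQ : PT 2 ↥Q := by
    refine ⟨⟨⊥, inferInstance, by simp, ?_⟩, ?_⟩
    · exact quasisimple_of_mulEquiv (QuotientGroup.quotientBot).symm hC.qt.qs
    · intro M hM hi
      rcases normal_eq_top_or_le_center hC.qt.qs M with h | h
      · exact h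
      · exfalso
        apply hi
        have h1 : Nat.card M ∣ 2 := by
          rw [← hcenter]
          exact Subgroup.card_dvd_of_le h
        have h2 := Subgroup.card_mul_index M
        have h3 : M.index * Nat.card M = Nat.card Q := by rw [mul_comm]; exact h2
        obtain ⟨c, hc⟩ := h4
        have h5 : Nat.card M = 1 ∨ Nat.card M = 2 :=
          (Nat.dvd_prime Nat.prime_two).mp h1
        rw [hc] at h3
        rcases h5 with h5 | h5
        · rw [h5] at h3
          exact ⟨2 * c, by omega⟩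
        · rw [h5] at h3
          exact ⟨c, by omega⟩
  have hPT : PT 2 ↥D := by
    haveI : Nontrivial ↥D := hsimple.toNontrivial
    exact PT.of_surjective (Q' := ↥D) f.rangeRestrict f.rangeRestrict_surjective hPTQ
  -- subnormality
  set Q' := Kc t Q with hQ'
  have hC' := CompZ.conj hC t
  have hSN1 : SN Q ⊤ := isSubnormal_iff_SN_top.mp hC.sn
  have hSN2 : SN Q' ⊤ := isSubnormal_iff_SN_top.mp hC'.sn
  have hSup := SN.sup hSN1 hSN2
  have hInf := SN.inf hSup (CC t)
  rw [top_inf_eq] at hInf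
  -- elements of the join
  have hjoin : ∀ w ∈ Q ⊔ Q', ∃ a ∈ Q, ∃ b ∈ Q', w = a * b := by
    intro w hw
    let P : Subgroup X :=
      { carrier := {w | ∃ a ∈ Q, ∃ b ∈ Q', w = a * b}
        one_mem' := ⟨1, Q.one_mem, 1, Q'.one_mem, by simp⟩
        mul_mem' := by
          rintro _ _ ⟨a, ha, b, hb, rfl⟩ ⟨a', ha', b', hb', rfl⟩
          refine ⟨a * a', Q.mul_mem ha ha', b * b', Q'.mul_mem hb hb', ?_⟩
          obtain ⟨b₀, hb₀, rfl⟩ := hb
          have h := hcom a' ha' b₀ hb₀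
          change a * (t * b₀ * t⁻¹) * (a' * b') = a * a' * ((t * b₀ * t⁻¹) * b')
          calc a * (t * b₀ * t⁻¹) * (a' * b') = a * ((t * b₀ * t⁻¹) * a') * b' := by group
            _ = a * (a' * (t * b₀ * t⁻¹)) * b' := by rw [h]
            _ = _ := by group
        inv_mem' := by
          rintro _ ⟨a, ha, b, hb, rfl⟩
          refine ⟨a⁻¹, Q.inv_mem ha, b⁻¹, Q'.inv_mem hb, ?_⟩
          obtain ⟨b₀, hb₀, rfl⟩ := hb
          have h := hcom a⁻¹ (Q.inv_mem ha) b₀⁻¹ (Q.inv_mem hb₀)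
          change (a * (t * b₀ * t⁻¹))⁻¹ = a⁻¹ * (t * b₀ * t⁻¹)⁻¹
          calc (a * (t * b₀ * t⁻¹))⁻¹ = (t * b₀⁻¹ * t⁻¹) * a⁻¹ := by group
            _ = a⁻¹ * (t * b₀⁻¹ * t⁻¹) := h.symm
            _ = _ := by group }
    have hle : Q ⊔ Q' ≤ P := by
      refine sup_le ?_ ?_
      · intro a ha
        exact ⟨a, ha, 1, Q'.one_mem, by simp⟩
      · intro b hb
        exact ⟨1, Q.one_mem, b, hb, by simp⟩
    exact hle hw
  have hDC : ∀ d ∈ D, d * t = t * d := by
    rintro _ ⟨j, rfl⟩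
    rw [hf]
    have h := hcom j j.2 j j.2
    have e1 : t * ((j : X) * (t * (j : X) * t⁻¹)) * t⁻¹ = (j : X) * (t * (j : X) * t⁻¹) := by
      calc t * ((j : X) * (t * (j : X) * t⁻¹)) * t⁻¹
          = (t * (j : X) * t⁻¹) * ((t * t) * (j : X) * (t * t)⁻¹) := by group
        _ = (t * (j : X) * t⁻¹) * (j : X) := by rw [ht]; group
        _ = _ := h.symm
    calc (j : X) * (t * (j : X) * t⁻¹) * t = (t * ((j : X) * (t * (j : X) * t⁻¹)) * t⁻¹) * t := by rw [e1]
      _ = _ := by group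
  have hDle : D ≤ (Q ⊔ Q') ⊓ CC t := by
    intro d hd
    refine ⟨?_, mem_CC.mpr (hDC d hd)⟩
    obtain ⟨j, hj, rfl⟩ := hDex d hd
    exact Subgroup.mul_mem_sup hj (conj_mem_Kc t hj)
  have hNorm : (Q ⊔ Q') ⊓ CC t ≤ normalizer (D : Set X) := by
    rintro w ⟨hw1, hw2⟩
    obtain ⟨a, ha, b, hb, rfl⟩ := hjoin w hw1
    have hcomm : (a * b) * t = t * (a * b) := mem_CC.mp hw2
    -- `b = (t a t⁻¹) c`
    set b' := t * b * t⁻¹ with hb'
    have hb'Q : b' ∈ Q := by
      have h1 := mem_Kc.mp hb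
      have h2 : t⁻¹ * b * t = b' := by rw [hb', htinv]
      rwa [h2] at h1
    have hbb : b = t * b' * t⁻¹ := by
      rw [hb']
      calc b = (t * t) * b * (t * t)⁻¹ := by rw [ht]; group
        _ = _ := by group
    have hrel : b' * (t * a * t⁻¹) = a * b := by
      have h1 := hcom b' hb'Q a ha
      rw [h1]
      calc t * a * t⁻¹ * b' = t * (a * b) * t⁻¹ := by rw [hb']; group
        _ = (a * b) * t * t⁻¹ := by rw [hcomm]
        _ = a * b := by group
    set c := a⁻¹ * b' with hc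
    have hcQ : c ∈ Q := Q.mul_mem (Q.inv_mem ha) hb'Q
    have hcc : c = t * (b' * a⁻¹) * t⁻¹ := by
      have h1 : b' = a * b * (t * a * t⁻¹)⁻¹ := by
        rw [← hrel]; group
      calc c = a⁻¹ * b' := rfl
        _ = b * (t * a * t⁻¹)⁻¹ := by
            rw [h1]; group
        _ = t * b' * t⁻¹ * (t * a * t⁻¹)⁻¹ := by rw [← hbb]
        _ = _ := by group
    have hc1 : c = 1 ∨ c = z := hint c hcQ _ (Q.mul_mem hb'Q (Q.inv_mem ha)) hcc
    have hccen : ∀ u : X, c * u = u * c := by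
      intro u
      rcases hc1 with h | h
      · rw [h]; group
      · rw [h]; exact (hC.cen u).symm
    have hb'e : b' = a * c := by rw [hc]; group
    have hbe : b = (t * a * t⁻¹) * c := by
      calc b = t * b' * t⁻¹ := hbb
        _ = t * (a * c) * t⁻¹ := by rw [hb'e]
        _ = (t * a * t⁻¹) * (t * c * t⁻¹) := by group
        _ = (t * a * t⁻¹) * c := by
            congr 1
            rw [← hccen t]
            group
    have hw : a * b = (a * (t * a * t⁻¹)) * c := by rw [hbe]; group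
    have hd0 := le_normalizer (hDmem a ha)
    rw [mem_normalizer_iff] at hd0 ⊢
    intro u
    have e1 : a * b * u * (a * b)⁻¹ = (a * (t * a * t⁻¹)) * u * (a * (t * a * t⁻¹))⁻¹ := by
      rw [hw]
      calc a * (t * a * t⁻¹) * c * u * (a * (t * a * t⁻¹) * c)⁻¹
          = a * (t * a * t⁻¹) * (c * u) * (c⁻¹ * (a * (t * a * t⁻¹))⁻¹) := by group
        _ = a * (t * a * t⁻¹) * (u * c) * (c⁻¹ * (a * (t * a * t⁻¹))⁻¹) := by rw [hccen u]
        _ = _ := by group
    rw [e1]
    exact hd0 u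
  have hSND : SN D (CC t) := (SN.of_le_normalizer hDle hNorm).trans hInf
  exact ⟨D, hSND, hPT, hsimple, hcardD, hDmem, hDex⟩

end Cfsg.Agent.Lib.IntrSL.XDiag
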