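/-
S1315 X-level. See PLAN.md.
-/
import Cfsg.Agent.Lib.IntrSL.XDiag

set_option autoImplicit false
set_option linter.style.haveILetI false
set_option linter.unusedSectionVars false

namespace Cfsg.Agent.Lib.IntrSL.XMoved

open Subgroup Cfsg Cfsg.Agent.Lib.BpBalance.Basic Cfsg.Agent.Lib.Subnormal.Basic
  Cfsg.Agent.Lib.PTerm.Rel Cfsg.Agent.Lib.PTerm.Dict Cfsg.Agent.Lib.IntrSL.Defs
  Cfsg.Agent.Lib.Components.Basic
open scoped commutatorElement Pointwise

universe u

variable {X : Type u} [Group X] [Finite X]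

/-- A `QType` subgroup is a `PT 2` group. -/
theorem pt_of_compZ {Q : Subgroup X} {z : X} (hC : CompZ Q z) : PT 2 ↥Q := by
  have hq := hC.qt
  refine ⟨⟨⊥, inferInstance, by simp, quasisimple_of_mulEquiv QuotientGroup.quotientBot.symm hq.qs⟩, ?_⟩
  intro M hM hi
  obtain ⟨r, hr⟩ := hq.exists_sq
  rcases normal_eq_top_or_le_center hq.qs M with h | h
  · exact h
  · exfalso
    have hz2 : (⟨z, hC.mem⟩ : ↥Q) * ⟨z, hC.mem⟩ = 1 := by
      have := pow_orderOf_eq_one (⟨z, hC.mem⟩ : ↥Q)
      rw [hq.ord, pow_two] at this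
      exact this
    have hz1 : (⟨z, hC.mem⟩ : ↥Q) ≠ 1 := by
      intro h1
      have := hq.ord
      rw [h1, orderOf_one] at this
      omega
    have hodd : Odd M.index := Nat.not_even_iff_odd.mp (by rwa [even_iff_two_dvd])
    obtain ⟨k, hk⟩ := hodd
    have h1 : r ^ M.index ∈ M := Subgroup.pow_index_mem M r
    rw [hk, pow_succ, pow_mul, pow_two, hr] at h1
    have h2 := h h1
    rw [hq.center_iff] at h2
    have h3 : ∀ n : ℕ, (⟨z, hC.mem⟩ : ↥Q) ^ n = 1 ∨ (⟨z, hC.mem⟩ : ↥Q) ^ n = ⟨z, hC.mem⟩ := by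
      intro n
      induction n with
      | zero => left; simp
      | succ n ih =>
        rcases ih with ih | ih
        · right; rw [pow_succ, ih, one_mul]
        · left; rw [pow_succ, ih, hz2]
    have h4 : r = 1 ∨ r = ⟨z, hC.mem⟩ := by
      rcases h3 k with h5 | h5 <;> rw [h5] at h2 <;> rcases h2 with h2 | h2
      · left; simpa using h2
      · right; simpa using h2
      · right
        have : r = (⟨z, hC.mem⟩ : ↥Q) * ((⟨z, hC.mem⟩ : ↥Q) * r) := by
          rw [← mul_assoc, hz2, one_mul]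
        rw [this, h2, mul_one]
      · left
        have : r = (⟨z, hC.mem⟩ : ↥Q) * ((⟨z, hC.mem⟩ : ↥Q) * r) := by
          rw [← mul_assoc, hz2, one_mul]
        rw [this, h2, hz2]
    rcases h4 with h4 | h4
    · rw [h4, one_mul] at hr
      exact hz1 hr.symm
    · rw [h4, hz2] at hr
      exact hz1 hr.symm

/-- The `t`-involution is not in `Q` unless it is `z` (or `1`). -/
theorem eq_of_mem {Q : Subgroup X} {z t : X} (hC : CompZ Q z) (ht : t * t = 1) (ht1 : t ≠ 1)
    (htQ : t ∈ Q) : t = z := by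
  have h1 : orderOf (⟨t, htQ⟩ : ↥Q) = 2 := by
    apply orderOf_eq_prime
    · rw [pow_two]
      apply Subtype.ext
      exact ht
    · intro h
      exact ht1 (congrArg Subtype.val h)
  have := hC.qt.uniq _ h1
  exact congrArg Subtype.val this

/-- `t` moves `Q`: `t ∉ L`. Let `D` be the diagonal (`XDiag.diag`), a simple 2-component of `C(t)`;
`t ∈ L` and `t` central in `C(t)`, `t ≠ 1`, so `L ≠ D`, `commute_of_qs`: `L` centralizes `D`.
For `l ∈ L`: `lQl⁻¹ ∈ {Q, tQt⁻¹}` (else `lQl⁻¹` commutes with `D = lDl⁻¹`, so `Q` commutes with `D`, `Q` abelian).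
`L` perfect so `L ≤ N(Q)` (stabilizer has index ≤ 2), so `t ∈ N(Q)`. -/
theorem not_mem_of_moved {Q L : Subgroup X} {z t : X} (hC : CompZ Q z) (ht : t * t = 1)
    (hm : t ∉ normalizer (Q : Set X)) (hL : SN L (CC t)) (hPT : PT 2 ↥L) : t ∉ L := by
  intro htL
  have ht1 : t ≠ 1 := by
    rintro rfl
    exact hm (one_mem _)
  obtain ⟨D, hDs, hDp, hDsim, -, hDin, -⟩ := XDiag.diag hC ht hm
  have htinv : t⁻¹ = t := inv_eq_of_mul_eq_one_left ht
  -- `D` is quasisimple
  have hDq : IsQuasisimple ↥D := by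
    haveI := hDsim.toNontrivial
    refine quasisimple_of_normal_criterion (PT.commutator_eq_top hDp) ?_
    intro N hN
    rcases hN.eq_bot_or_eq_top with h | h
    · right; rw [h]; exact bot_le
    · left; exact h
  have hDle : D ≤ CC t := hDs.le
  have hLle : L ≤ CC t := hL.le
  have htD : t ∉ D := by
    intro htD
    have hcen : (⟨t, htD⟩ : ↥D) ∈ center ↥D := by
      rw [Subgroup.mem_center_iff]
      intro g
      apply Subtype.ext
      have := mem_CC.mp (hDle g.2)
      exact this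
    have hne : center ↥D ≠ ⊤ := quasisimple_center_ne_top hDq
    rcases (inferInstance : (center ↥D).Normal).eq_bot_or_eq_top with h | h
    · rw [h, mem_bot] at hcen
      exact ht1 (congrArg Subtype.val hcen)
    · exact hne h
  have hne : D.subgroupOf (CC t) ≠ L.subgroupOf (CC t) := by
    intro h
    have h1 : (⟨t, self_mem_CC t⟩ : ↥(CC t)) ∈ L.subgroupOf (CC t) := mem_subgroupOf.mpr htL
    rw [← h] at h1
    exact htD (mem_subgroupOf.mp h1)
  have hDc : IsPComponentOf 2 D (CC t) := isPComponentOf_iff.mpr ⟨hDs, hDp⟩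
  have hLc : IsPComponentOf 2 L (CC t) := isPComponentOf_iff.mpr ⟨hL, hPT⟩
  have hcomm := commute_of_qs hDc.2 ((quasisimple_subgroupOf_iff hDle).mpr hDq) hLc.2 hne
  have hDL : ∀ d ∈ D, ∀ l ∈ L, l * d = d * l := by
    intro d hd l hl
    have h1 := Subgroup.commutator_mem_commutator
      (mem_subgroupOf.mpr hd : (⟨d, hDle hd⟩ : ↥(CC t)) ∈ D.subgroupOf (CC t))
      (mem_subgroupOf.mpr hl : (⟨l, hLle hl⟩ : ↥(CC t)) ∈ L.subgroupOf (CC t))
    rw [hcomm, mem_bot, commutatorElement_eq_one_iff_commute] at h1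
    exact (congrArg Subtype.val h1).symm
  -- `Q` is noncommutative
  have hnc : ¬ ∀ a ∈ Q, ∀ j ∈ Q, a * j = j * a := by
    intro h
    apply quasisimple_center_ne_top hC.qt.qs
    rw [eq_top_iff]
    intro g _
    rw [Subgroup.mem_center_iff]
    intro g'
    apply Subtype.ext
    exact h _ g'.2 _ g.2
  have hcomm_t := (XDiag.comm_conj hC hm).1
  -- the dichotomy
  have key : ∀ l ∈ L, l ∉ normalizer (Q : Set X) → t * l ∈ normalizer (Q : Set X) := by
    intro l hl hln
    by_contra hs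
    have hs' : t⁻¹ * l ∉ normalizer (Q : Set X) := by rwa [htinv]
    have hcl := (XDiag.comm_conj hC hln).1
    have hcs := (XDiag.comm_conj hC hs).1
    have hlt : l * t = t * l := mem_CC.mp (hLle hl)
    apply hnc
    intro a ha j hj
    -- (l a l⁻¹) commutes with j
    have h1 : j * (l * a * l⁻¹) = (l * a * l⁻¹) * j := hcl j hj a ha
    -- (l a l⁻¹) commutes with t j t⁻¹
    have h2 : j * ((t * l) * a * (t * l)⁻¹) = ((t * l) * a * (t * l)⁻¹) * j := hcs j hj a ha
    have h3 : (t * j * t⁻¹) * (l * a * l⁻¹) = (l * a * l⁻¹) * (t * j * t⁻¹) := by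
      have h4 : t * (j * ((t * l) * a * (t * l)⁻¹)) * t⁻¹ = t * (((t * l) * a * (t * l)⁻¹) * j) * t⁻¹ := by
        rw [h2]
      have e1 : (t * l) * a * (t * l)⁻¹ = t * (l * a * l⁻¹) * t⁻¹ := by group
      rw [e1] at h4
      have e2 : t * (j * (t * (l * a * l⁻¹) * t⁻¹)) * t⁻¹
          = (t * j * t⁻¹) * ((t * t) * (l * a * l⁻¹) * (t⁻¹ * t⁻¹) * t * t⁻¹) := by group
      have e3 : t * (t * (l * a * l⁻¹) * t⁻¹ * j) * t⁻¹
          = ((t * t) * (l * a * l⁻¹) * (t⁻¹ * t⁻¹)) * (t * j * t⁻¹) := by group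
      rw [e2, e3] at h4
      have ht2 : t⁻¹ * t⁻¹ = 1 := by rw [htinv, ht]
      rw [ht, ht2] at h4
      simpa using h4
    have hd : j * (t * j * t⁻¹) ∈ D := hDin j hj
    have hld := hDL _ hd l hl
    -- (l a l⁻¹) commutes with d
    have h5 : (l * a * l⁻¹) * (j * (t * j * t⁻¹)) = (j * (t * j * t⁻¹)) * (l * a * l⁻¹) := by
      calc (l * a * l⁻¹) * (j * (t * j * t⁻¹)) = ((l * a * l⁻¹) * j) * (t * j * t⁻¹) := by group
        _ = (j * (l * a * l⁻¹)) * (t * j * t⁻¹) := by rw [h1]
        _ = j * ((l * a * l⁻¹) * (t * j * t⁻¹)) := by group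
        _ = j * ((t * j * t⁻¹) * (l * a * l⁻¹)) := by rw [h3]
        _ = _ := by group
    -- so `a` commutes with `d`
    have h6 : a * (j * (t * j * t⁻¹)) = (j * (t * j * t⁻¹)) * a := by
      set d := j * (t * j * t⁻¹) with hd_def
      have h7 : l⁻¹ * d = d * l⁻¹ := by
        rw [inv_mul_eq_iff_eq_mul, ← mul_assoc, hld, mul_assoc, mul_inv_cancel, mul_one]
      have h8 : l⁻¹ * (l * a * l⁻¹ * d) * l = l⁻¹ * (d * (l * a * l⁻¹)) * l := by
        rw [h5]
      have e1 : l⁻¹ * (l * a * l⁻¹ * d) * l = a * (l⁻¹ * d) * l := by group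
      have e2 : l⁻¹ * (d * (l * a * l⁻¹)) * l = (l⁻¹ * d) * l * a * (l⁻¹ * l) := by group
      rw [e1, e2, h7] at h8
      have e3 : a * (d * l⁻¹) * l = a * d := by group
      have e4 : d * l⁻¹ * l * a * (l⁻¹ * l) = d * a := by group
      rw [e3, e4] at h8
      exact h8
    have h7 : a * (t * j * t⁻¹) = (t * j * t⁻¹) * a := hcomm_t a ha j hj
    -- so `a` commutes with `j`
    have h8 : (a * j) * (t * j * t⁻¹) = (j * a) * (t * j * t⁻¹) := by
      calc (a * j) * (t * j * t⁻¹) = a * (j * (t * j * t⁻¹)) := by group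
        _ = (j * (t * j * t⁻¹)) * a := h6
        _ = j * ((t * j * t⁻¹) * a) := by group
        _ = j * (a * (t * j * t⁻¹)) := by rw [h7]
        _ = _ := by group
    exact mul_right_cancel h8
  -- the two-coset sign
  have hnorm2 : ∀ a ∈ L, ∀ b ∈ L, a ∉ normalizer (Q : Set X) → b ∉ normalizer (Q : Set X) →
      a * b ∈ normalizer (Q : Set X) := by
    intro a ha b hb hna hnb
    have h1 := key a ha hna
    have h2 := key b hb hnb
    have hct : a * t = t * a := mem_CC.mp (hLle ha)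
    -- `t * a` and `t * b` normalize; `t` need not, but `(t a)(t b) = a b`
    have : a * b = (t * a) * (t * b) := by
      calc a * b = (t * t) * a * b := by rw [ht, one_mul]
        _ = t * (t * a) * b := by group
        _ = t * (a * t) * b := by rw [hct]
        _ = _ := by group
    rw [this]
    exact mul_mem h1 h2
  -- `L ≤ N(Q)`
  let N := normalizer (Q : Set X)
  classical
  let φ : ↥L →* Multiplicative (ZMod 2) :=
    { toFun := fun l => if (l : X) ∈ N then 1 else Multiplicative.ofAdd 1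
      map_one' := by simp [N, one_mem]
      map_mul' := by
        intro a b
        have hmul : ((a * b : ↥L) : X) = (a : X) * (b : X) := rfl
        by_cases ha : (a : X) ∈ N <;> by_cases hb : (b : X) ∈ N
        · have : (a : X) * b ∈ N := mul_mem ha hb
          simp [hmul, ha, hb, this]
        · have : (a : X) * b ∉ N := fun h => hb (by
            have := mul_mem (inv_mem ha) h
            simpa using this)
          simp [hmul, ha, hb, this]
        · have : (a : X) * b ∉ N := fun h => ha (by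
            have := mul_mem h (inv_mem hb)
            simpa using this)
          simp [hmul, ha, hb, this]
        · have : (a : X) * b ∈ N := hnorm2 a a.2 b b.2 ha hb
          simp only [hmul, ha, hb, this, if_true, if_false]
          decide }
  have hker : ∀ x : ↥L, φ x = 1 := by
    have hP := PT.commutator_eq_top hPT
    intro x
    have hx : x ∈ commutator ↥L := by rw [hP]; trivial
    have hle : commutator ↥L ≤ φ.ker := by
      rw [_root_.commutator_def, Subgroup.commutator_le]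
      intro g₁ _ g₂ _
      rw [MonoidHom.mem_ker, map_commutatorElement, commutatorElement_eq_one_iff_commute]
      exact mul_comm _ _
    exact hle hx
  have h1 := hker ⟨t, htL⟩
  by_cases h2 : t ∈ N
  · exact hm h2
  · simp only [φ, MonoidHom.mk'_apply] at h1
    simp [h2] at h1

/-- `t` centralizes `Q`, `t ≠ 1, z`, `t ∈ L`: `L` centralizes `Q`. `Q` is subnormal in `C(t)`,
`Q ≠ L` as `t ∉ Q` (unique involution), `commute_of_qs`. -/
theorem comm_of_trivial {Q L : Subgroup X} {z t : X} (hC : CompZ Q z) (ht : t * t = 1) (ht1 : t ≠ 1)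
    (htz : t ≠ z) (htc : ∀ j ∈ Q, t * j * t⁻¹ = j) (hL : SN L (CC t)) (hPT : PT 2 ↥L) (htL : t ∈ L) :
    ∀ l ∈ L, ∀ j ∈ Q, l * j * l⁻¹ = j := by
  have hQle : Q ≤ CC t := by
    intro j hj
    rw [mem_CC]
    have := htc j hj
    rw [mul_inv_eq_iff_eq_mul] at this
    exact this.symm
  have hQs : SN Q (CC t) := SN.restrict (isSubnormal_iff_SN_top.mp hC.sn) hQle le_top
  have hLle : L ≤ CC t := hL.le
  have hQc : IsPComponentOf 2 Q (CC t) := isPComponentOf_iff.mpr ⟨hQs, pt_of_compZ hC⟩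
  have hLc : IsPComponentOf 2 L (CC t) := isPComponentOf_iff.mpr ⟨hL, hPT⟩
  have htQ : t ∉ Q := fun h => htz (eq_of_mem hC ht ht1 h)
  have hne : Q.subgroupOf (CC t) ≠ L.subgroupOf (CC t) := by
    intro h
    have h1 : (⟨t, self_mem_CC t⟩ : ↥(CC t)) ∈ L.subgroupOf (CC t) := mem_subgroupOf.mpr htL
    rw [← h] at h1
    exact htQ (mem_subgroupOf.mp h1)
  have hcomm := commute_of_qs hQc.2 ((quasisimple_subgroupOf_iff hQle).mpr hC.qt.qs) hLc.2 hne
  intro l hl j hj
  have h1 := Subgroup.commutator_mem_commutator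
    (mem_subgroupOf.mpr hj : (⟨j, hQle hj⟩ : ↥(CC t)) ∈ Q.subgroupOf (CC t))
    (mem_subgroupOf.mpr hl : (⟨l, hLle hl⟩ : ↥(CC t)) ∈ L.subgroupOf (CC t))
  rw [hcomm, mem_bot, commutatorElement_eq_one_iff_commute] at h1
  have h2 : j * l = l * j := congrArg Subtype.val h1
  rw [mul_inv_eq_iff_eq_mul]
  exact h2.symm

end Cfsg.Agent.Lib.IntrSL.XMoved
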