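/-
S1315 X-level. Lemma O. See PLAN.md.
-/
import Cfsg.Agent.Lib.IntrSL.Flip
import Cfsg.Agent.Lib.IntrSL.XDiag

set_option autoImplicit false
set_option linter.style.haveILetI false
set_option linter.unusedSectionVars false

namespace Cfsg.Agent.Lib.IntrSL.XO

open Subgroup Cfsg Cfsg.Agent.Lib.BpBalance.Basic Cfsg.Agent.Lib.Subnormal.Basic
  Cfsg.Agent.Lib.PTerm.Rel Cfsg.Agent.Lib.PTerm.Dict Cfsg.Agent.Lib.IntrSL.Defs
open scoped commutatorElement Pointwise

universe u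

variable {X : Type u} [Group X] [Finite X]

namespace Aux

theorem mem_normalizer_of_comm {Q : Subgroup X} {g : X} (h : ∀ a ∈ Q, g * a * g⁻¹ = a) :
    g ∈ normalizer (Q : Set X) := by
  rw [mem_normalizer_iff]
  intro a
  constructor
  · intro ha
    rw [h a ha]
    exact ha
  · intro ha
    have h3 : g * (g * a * g⁻¹) * g⁻¹ = g * a * g⁻¹ := h _ ha
    have h2 : g * a * g⁻¹ = a := by
      apply mul_left_cancel (a := g)
      apply mul_right_cancel (b := g⁻¹)
      simpa [mul_assoc] using h3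
    rw [h2] at ha
    exact ha

theorem conj_comm {Q : Subgroup X} {z : X} (hC : CompZ Q z) {x y : X}
    (hne : x⁻¹ * y ∉ normalizer (Q : Set X)) {a b : X} (ha : a ∈ Q) (hb : b ∈ Q) :
    (x * a * x⁻¹) * (y * b * y⁻¹) = (y * b * y⁻¹) * (x * a * x⁻¹) := by
  have h := (XDiag.comm_conj hC hne).1 a ha b hb
  have h2 := congrArg (fun w => x * w * x⁻¹) h
  have e1 : x * (a * ((x⁻¹ * y) * b * (x⁻¹ * y)⁻¹)) * x⁻¹ = (x * a * x⁻¹) * (y * b * y⁻¹) := by
    group
  have e2 : x * (((x⁻¹ * y) * b * (x⁻¹ * y)⁻¹) * a) * x⁻¹ = (y * b * y⁻¹) * (x * a * x⁻¹) := by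
    group
  have h3 : x * (a * ((x⁻¹ * y) * b * (x⁻¹ * y)⁻¹)) * x⁻¹ =
      x * (((x⁻¹ * y) * b * (x⁻¹ * y)⁻¹) * a) * x⁻¹ := h2
  rw [e1, e2] at h3
  exact h3

/-- The join of the `L`-conjugates of `Q`. -/
def EE (L Q : Subgroup X) : Subgroup X :=
  closure {g | ∃ l ∈ L, ∃ q ∈ Q, g = l * q * l⁻¹}

theorem conj_mem_EE {L Q : Subgroup X} {l : X} (hl : l ∈ L) {h : X} (hh : h ∈ EE L Q) :
    l * h * l⁻¹ ∈ EE L Q := by
  have hle : EE L Q ≤ (EE L Q).comap (MulAut.conj l).toMonoidHom := by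
    refine (closure_le _).mpr ?_
    rintro _ ⟨l', hl', q, hq, rfl⟩
    show (MulAut.conj l).toMonoidHom (l' * q * l'⁻¹) ∈ EE L Q
    refine subset_closure ⟨l * l', mul_mem hl hl', q, hq, ?_⟩
    simp [MulAut.conj_apply]
    group
  simpa [MulAut.conj_apply] using hle hh

theorem le_normalizer_WW {L Q : Subgroup X} {t : X} (hL : L ≤ CC t) :
    L ≤ normalizer ((EE L Q ⊓ CC t : Subgroup X) : Set X) := by
  rw [le_normalizer_iff]
  rintro l hl w ⟨hw1, hw2⟩
  refine ⟨conj_mem_EE hl hw1, ?_⟩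
  exact Subgroup.mul_mem _ (Subgroup.mul_mem _ (hL hl) hw2) (Subgroup.inv_mem _ (hL hl))

theorem EE_le_normalizer {L Q : Subgroup X} {z : X} (hC : CompZ Q z) :
    EE L Q ≤ normalizer (Q : Set X) := by
  refine (closure_le _).mpr ?_
  rintro _ ⟨l, hl, q, hq, rfl⟩
  by_cases hlN : l ∈ normalizer (Q : Set X)
  · have : l * q * l⁻¹ ∈ Q := (mem_normalizer_iff.mp hlN q).mp hq
    exact le_normalizer this
  · apply mem_normalizer_of_comm
    intro a ha
    have h := (XDiag.comm_conj hC hlN).1 a ha q hq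
    have h2 : (l * q * l⁻¹) * a = a * (l * q * l⁻¹) := h.symm
    rw [h2]
    group

/-- Three distinct `L`-conjugates. -/
theorem exists_third {L Q : Subgroup X} (hP : PT 2 ↥L) {l : X} (hl : l ∈ L)
    (hlN : l ∉ normalizer (Q : Set X)) :
    ∃ a ∈ L, a ∉ normalizer (Q : Set X) ∧ a⁻¹ * l ∉ normalizer (Q : Set X) := by
  by_contra hcon
  push Not at hcon
  have hcon' : ∀ a ∈ L, a ∉ normalizer (Q : Set X) → a⁻¹ * l ∈ normalizer (Q : Set X) := hcon
  set M : Subgroup ↥L := (normalizer (Q : Set X)).subgroupOf L with hM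
  have hmem : ∀ b : ↥L, b ∈ M ↔ (b : X) ∈ normalizer (Q : Set X) := fun b => mem_subgroupOf
  have hidx : M.index = 2 := by
    rw [Subgroup.index_eq_two_iff]
    refine ⟨⟨l, hl⟩, fun b => ?_⟩
    rw [hmem, hmem]
    show Xor ((b : X) * l ∈ _) _
    by_cases hb : (b : X) ∈ normalizer (Q : Set X)
    · right
      refine ⟨hb, ?_⟩
      intro hbl
      apply hlN
      have := mul_mem (inv_mem hb) hbl
      simpa using this
    · left
      refine ⟨?_, hb⟩
      have hb' : (b : X)⁻¹ ∉ normalizer (Q : Set X) := fun h => hb (by simpa using inv_mem h)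
      have := hcon' _ (inv_mem b.2) hb'
      simpa using this
  haveI hMn : M.Normal := Subgroup.normal_of_index_eq_two hidx
  have hcard : Nat.card (↥L ⧸ M) = 2 := hidx
  haveI : IsCyclic (↥L ⧸ M) := isCyclic_of_prime_card (p := 2) hcard
  have hcomm : ∀ a b : ↥L ⧸ M, a * b = b * a := fun a b =>
    (IsCyclic.commGroup (α := ↥L ⧸ M)).mul_comm a b
  have hk := Cfsg.Agent.Lib.PCStage.Basic.hom_mem_ker_of_perfect hcomm (QuotientGroup.mk' M)
    (PT.commutator_eq_top hP) ⟨l, hl⟩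
  rw [QuotientGroup.ker_mk'] at hk
  exact hlN ((hmem _).mp hk)

end Aux

/-- **Lemma O.** `t` normalizes `Q` nontrivially, `L` a 2-component of `C(t)`: `L` normalizes `Q`.
Proof: `E` = join of the `L`-conjugates of `Q`, `W = E ⊓ C(t)`, `L ≤ N(W)`.
`BpBalance.Main.dich` in `C(t)`: `L ≤ W` (then `L ≤ E ≤ N(Q)`) or `[L,W] ≤ O(C(t))`. In the second
case, if `L` moves `Q`, `L` perfect gives at least 3 conjugates; take `l,a ∈ L` with
`Q, lQl⁻¹, aQa⁻¹` distinct, `u` from `flip`, `g = u * (l u l⁻¹) ∈ W` (`z` central, `l` commutes `t`);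
`c = a g a⁻¹ g⁻¹` has odd order `m`, `c = b * f` with `b = a u a⁻¹`, `f` in the join `R` of the
other conjugates, commuting with `b`: `b ^ m = f ^ (-m) ∈ aQa⁻¹ ⊓ R ≤ Z(aQa⁻¹) = {1,z}`,
but `b` has order 4. -/
theorem comp_normalizes {Q L : Subgroup X} {z t : X} (hC : CompZ Q z) (ht : t * t = 1)
    (hn : t ∈ normalizer (Q : Set X)) (hnt : ∃ j ∈ Q, t * j * t⁻¹ ≠ j)
    (hL : SN L (CC t)) (hPT : PT 2 ↥L) : L ≤ normalizer (Q : Set X) := by
  by_contra hcon
  obtain ⟨l, hl, hlN⟩ := Set.not_subset.mp hcon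
  obtain ⟨a, ha, haN, halN⟩ := Aux.exists_third hPT hl hlN
  have hLle : L ≤ CC t := hL.le
  -- the dichotomy
  have hcomp : IsPComponentOf 2 L (CC t) := isPComponentOf_iff.mpr ⟨hL, hPT⟩
  have hmapJ : (L.subgroupOf (CC t)).map (CC t).subtype = L :=
    map_subgroupOf_eq_of_le hLle
  have hd := Cfsg.Agent.Lib.BpBalance.Main.dichX (p := 2) (C := CC t) (J := L.subgroupOf (CC t))
    hcomp.2 (D := Aux.EE L Q ⊓ CC t) inf_le_right
    (by rw [hmapJ]; exact Aux.le_normalizer_WW hLle)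
  rw [hmapJ] at hd
  rcases hd with hd | hd
  · exact hcon fun y hy => Aux.EE_le_normalizer hC (hd hy).1
  -- second case
  obtain ⟨u, hu, hut, huu⟩ := Flip.flip hC ht hn hnt
  have hz1 : z ≠ 1 := by
    intro h
    have h2 := hC.qt.ord
    have h3 : (⟨z, hC.mem⟩ : ↥Q) = 1 := Subtype.ext h
    rw [h3, orderOf_one] at h2
    omega
  have hzz : z * z = 1 := by
    have h2 := hC.qt.ord
    have h3 := pow_orderOf_eq_one (⟨z, hC.mem⟩ : ↥Q)
    rw [h2, pow_two] at h3
    exact congrArg Subtype.val h3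
  have hzc := hC.cen
  have htinv : t⁻¹ = t := inv_eq_of_mul_eq_one_left ht
  -- `t` flips `u`
  have hut' : u * t = t * z * u := by
    rw [← hut]; group
  have htu : t * u * t⁻¹ = u * z := by
    calc t * u * t⁻¹ = t * (u * t) := by rw [htinv, mul_assoc]
      _ = t * (t * z * u) := by rw [hut']
      _ = (t * t) * z * u := by group
      _ = z * u := by rw [ht, one_mul]
      _ = u * z := (hzc u).symm
  have hlt : l * t = t * l := mem_CC.mp (hLle hl)
  have htlu : t * (l * u * l⁻¹) * t⁻¹ = (l * u * l⁻¹) * z := by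
    have h1 : t * (l * u * l⁻¹) * t⁻¹ = (t * l) * u * (t * l)⁻¹ := by group
    have h2 : (t * l) * u * (t * l)⁻¹ = l * (t * u * t⁻¹) * l⁻¹ := by
      rw [← hlt]; group
    rw [h1, h2, htu]
    have h3 : l * (u * z) * l⁻¹ = (l * u) * (z * l⁻¹) := by group
    rw [h3, ← hzc l⁻¹]
    group
  set g : X := u * (l * u * l⁻¹) with hg
  have hgE : g ∈ Aux.EE L Q := by
    refine mul_mem (subset_closure ⟨1, one_mem _, u, hu, by group⟩)
      (subset_closure ⟨l, hl, u, hu, rfl⟩)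
  have hgt : g ∈ CC t := by
    rw [mem_CC]
    have h1 : t * g * t⁻¹ = g := by
      have h2 : t * g * t⁻¹ = (t * u * t⁻¹) * (t * (l * u * l⁻¹) * t⁻¹) := by
        rw [hg]; group
      rw [h2, htu, htlu]
      have h3 : u * z * (l * u * l⁻¹ * z) = u * (z * (l * u * l⁻¹)) * z := by group
      rw [h3, ← hzc (l * u * l⁻¹)]
      have h4 : u * (l * u * l⁻¹ * z) * z = u * (l * u * l⁻¹) * (z * z) := by group
      rw [h4, hzz, mul_one]
    have h2 : t * g = g * t := by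
      calc t * g = (t * g * t⁻¹) * t := by group
        _ = g * t := by rw [h1]
    exact h2.symm
  -- the commutator has odd order
  have hcmem : ⁅a, g⁆ ∈ (pPrimeCore 2 ↥(CC t)).map (CC t).subtype :=
    hd (commutator_mem_commutator ha ⟨hgE, hgt⟩)
  obtain ⟨c0, hc0, hc0e⟩ := hcmem
  set m : ℕ := Nat.card (pPrimeCore 2 ↥(CC t)) with hm
  have hmodd : Odd m := by
    have h1 : m.Coprime 2 := Cfsg.Agent.Lib.Core.Basic.pPrimeCore_coprime
    exact Nat.Coprime.odd_of_right h1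
  have hcm : ⁅a, g⁆ ^ m = 1 := by
    have h1 : (⟨c0, hc0⟩ : pPrimeCore 2 ↥(CC t)) ^ m = 1 := pow_card_eq_one'
    have h2 := congrArg (fun w : pPrimeCore 2 ↥(CC t) => (((w : ↥(CC t)) : X))) h1
    simp only [SubmonoidClass.coe_pow, OneMemClass.coe_one] at h2
    rw [← hc0e]
    simpa using h2
  -- factorize
  set b : X := a * u * a⁻¹ with hb
  set f : X := (a * l) * u * (a * l)⁻¹ * (l * u⁻¹ * l⁻¹) * ((1 : X) * u⁻¹ * (1 : X)⁻¹) with hf
  have hcf : ⁅a, g⁆ = b * f := by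
    rw [commutatorElement_def, hg, hb, hf]; group
  have hcomf : ∀ q ∈ Q, (a * q * a⁻¹) * f = f * (a * q * a⁻¹) := by
    intro q hq
    have h1 : Commute (a * q * a⁻¹) ((a * l) * u * (a * l)⁻¹) :=
      Aux.conj_comm hC (x := a) (y := a * l) (by simpa using hlN) hq hu
    have h2 : Commute (a * q * a⁻¹) (l * u⁻¹ * l⁻¹) :=
      Aux.conj_comm hC (x := a) (y := l) halN hq (inv_mem hu)
    have h3 : Commute (a * q * a⁻¹) ((1 : X) * u⁻¹ * (1 : X)⁻¹) :=
      Aux.conj_comm hC (x := a) (y := 1)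
        (fun h => haN (by simpa using (Subgroup.inv_mem _ (by simpa using h : a⁻¹ ∈ normalizer (Q : Set X))))) hq (inv_mem hu)
    exact ((h1.mul_right h2).mul_right h3)
  have hbf : Commute b f := hcomf u hu
  have h1 : b ^ m * f ^ m = 1 := by
    rw [← hbf.mul_pow, ← hcf, hcm]
  have hbm : b ^ m = (f ^ m)⁻¹ := eq_inv_of_mul_eq_one_left h1
  have hbpow : b ^ m = a * u ^ m * a⁻¹ := by
    rw [hb, conj_pow]
  have hcen : ∀ q ∈ Q, q * u ^ m = u ^ m * q := by
    intro q hq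
    have h2 : Commute (a * q * a⁻¹) f := hcomf q hq
    have h3 : Commute (a * q * a⁻¹) (b ^ m) := by
      rw [hbm]
      exact (h2.pow_right m).inv_right
    rw [hbpow] at h3
    have h4 : (a * q * a⁻¹) * (a * u ^ m * a⁻¹) = a * (q * u ^ m) * a⁻¹ := by group
    have h5 : (a * u ^ m * a⁻¹) * (a * q * a⁻¹) = a * (u ^ m * q) * a⁻¹ := by group
    have h6 : a * (q * u ^ m) * a⁻¹ = a * (u ^ m * q) * a⁻¹ := by
      rw [← h4, ← h5]; exact h3
    exact mul_left_cancel (mul_right_cancel h6)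
  have hum : u ^ m ∈ Q := pow_mem hu m
  have hcenter : (⟨u ^ m, hum⟩ : ↥Q) ∈ center ↥Q := by
    rw [Subgroup.mem_center_iff]
    intro q
    exact Subtype.ext (hcen q q.2)
  have hsq : u ^ m * u ^ m = 1 := by
    rcases (hC.qt.center_iff _).mp hcenter with h | h
    · have : u ^ m = 1 := congrArg Subtype.val h
      rw [this, one_mul]
    · have : u ^ m = z := congrArg Subtype.val h
      rw [this, hzz]
  have hzm : z ^ m = z := by
    obtain ⟨k, hk⟩ := hmodd
    rw [hk, pow_succ, pow_mul, pow_two, hzz, one_pow, one_mul]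
  have : z = 1 := by
    rw [← hzm, ← huu]
    have hcu : Commute u u := Commute.refl u
    rw [hcu.mul_pow]
    exact hsq
  exact hz1 this

end Cfsg.Agent.Lib.IntrSL.XO
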