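/-
S1315 X-level. Consequences of Lemma O. See PLAN.md.
-/
import Cfsg.Agent.Lib.IntrSL.XO

set_option autoImplicit false
set_option linter.style.haveILetI false
set_option linter.unusedSectionVars false

namespace Cfsg.Agent.Lib.IntrSL.XO2

open Subgroup Cfsg Cfsg.Agent.Lib.BpBalance.Basic Cfsg.Agent.Lib.Subnormal.Basic
  Cfsg.Agent.Lib.PTerm.Rel Cfsg.Agent.Lib.PTerm.Dict Cfsg.Agent.Lib.IntrSL.Defs
  Cfsg.Agent.Lib.Components.Basic Cfsg.Agent.Lib.Core.Basic
open scoped commutatorElement Pointwise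

universe u

variable {X : Type u} [Group X] [Finite X]

/-- Conjugation by an element of `N(Q)` as an automorphism of `Q`. -/
def actG {Q : Subgroup X} (g : X) (hg : g ∈ normalizer (Q : Set X)) : MulAut ↥Q where
  toFun j := ⟨g * j * g⁻¹, (mem_normalizer_iff.mp hg _).mp j.2⟩
  invFun j := ⟨g⁻¹ * j * g, by
    have h := (mem_normalizer_iff.mp hg (g⁻¹ * j * g))
    apply h.mpr
    have : g * (g⁻¹ * (j : X) * g) * g⁻¹ = j := by group
    rw [this]; exact j.2⟩
  left_inv j := by apply Subtype.ext; simp only; group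
  right_inv j := by apply Subtype.ext; simp only; group
  map_mul' a b := by apply Subtype.ext; simp only [MulMemClass.coe_mul]; group

theorem actG_apply {Q : Subgroup X} (g : X) (hg : g ∈ normalizer (Q : Set X)) (j : ↥Q) :
    ((actG g hg j : ↥Q) : X) = g * j * g⁻¹ := rfl

/-- The conjugation action of `L ≤ N(Q)` on `Q`. -/
def act {Q L : Subgroup X} (hle : L ≤ normalizer (Q : Set X)) : ↥L →* MulAut ↥Q where
  toFun l := actG (l : X) (hle l.2)
  map_one' := by
    ext j
    simp [actG_apply]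
  map_mul' a b := by
    ext j
    simp only [MulAut.mul_apply, actG_apply, MulMemClass.coe_mul]
    group

theorem act_apply {Q L : Subgroup X} (hle : L ≤ normalizer (Q : Set X)) (l : ↥L) (j : ↥Q) :
    ((act hle l j : ↥Q) : X) = l * j * (l : X)⁻¹ := rfl

/-- The range of a perfect group is perfect. -/
theorem perfect_range {H K : Type*} [Group H] [Group K] (f : H →* K) (hH : commutator H = ⊤) :
    commutator ↥f.range = ⊤ := by
  have h := congrArg (Subgroup.map f.rangeRestrict) hH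
  rw [_root_.commutator_def, Subgroup.map_commutator,
    Subgroup.map_top_of_surjective _ f.rangeRestrict_surjective] at h
  rw [_root_.commutator_def]
  exact h

theorem comm_iff_of_act {Q L : Subgroup X} (hle : L ≤ normalizer (Q : Set X)) (l : ↥L)
    (h : act hle l = 1) : ∀ j ∈ Q, (l : X) * j * (l : X)⁻¹ = j := by
  intro j hj
  have := congrArg (fun β : MulAut ↥Q => ((β ⟨j, hj⟩ : ↥Q) : X)) h
  simpa [act_apply] using this

theorem act_eq_one_of {Q L : Subgroup X} (hle : L ≤ normalizer (Q : Set X)) (l : ↥L)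
    (h : ∀ j ∈ Q, (l : X) * j * (l : X)⁻¹ = j) : act hle l = 1 := by
  ext j
  simp only [act_apply, MulAut.one_apply]
  exact h _ j.2

/-- If moreover `L/O(L)` is simple of order `|Q|/2`, `L` centralizes `Q`.
`L ≤ N(Q)` by Lemma O; the image `A` of `L` in `Aut Q` is perfect so lies in `Inn Q` (`aut_inner`).
If `A ≠ 1`, the kernel lies in `O(L)` (`PT`: no proper odd-index normal subgroup) so `|A| ≥ |Q|/2`,
`A = Inn Q`; `t` commutes with `L` so `[t,Q] ≤ Z(Q)`, `Q` perfect gives `t` trivial on `Q`. -/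
theorem comp_centralizes {Q L : Subgroup X} {z t : X} (hC : CompZ Q z) (ht : t * t = 1)
    (hn : t ∈ normalizer (Q : Set X)) (hnt : ∃ j ∈ Q, t * j * t⁻¹ ≠ j)
    (hL : SN L (CC t)) (hPT : PT 2 ↥L) (hs : IsSimpleGroup (↥L ⧸ oddCore ↥L))
    (hcard : Nat.card (↥L ⧸ oddCore ↥L) * 2 = Nat.card Q) :
    ∀ l ∈ L, ∀ j ∈ Q, l * j * l⁻¹ = j := by
  have hLN : L ≤ normalizer (Q : Set X) := XO.comp_normalizes hC ht hn hnt hL hPT
  have hq := hC.qt
  have hLt : L ≤ CC t := hL.le
  by_contra hcon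
  have hne : act hLN ≠ 1 := by
    intro h
    apply hcon
    intro l hl j hj
    have h1 : act hLN ⟨l, hl⟩ = 1 := by rw [h]; rfl
    exact comm_iff_of_act hLN ⟨l, hl⟩ h1 j hj
  -- kernel is proper
  have hker_ne : (act hLN).ker ≠ ⊤ := by
    intro h
    apply hne
    ext l : 1
    have : l ∈ (act hLN).ker := by rw [h]; trivial
    exact this
  -- the kernel lies in `O(L)`
  have hcop : (Nat.card ↥(oddCore ↥L)).Coprime 2 := pPrimeCore_coprime
  have hK : (act hLN).ker ≤ oddCore ↥L := by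
    have hn1 : ((act hLN).ker.map (QuotientGroup.mk' (oddCore ↥L))).Normal :=
      Subgroup.Normal.map inferInstance _ (QuotientGroup.mk'_surjective _)
    rcases hn1.eq_bot_or_eq_top with h | h
    · intro k hk
      have h1 : QuotientGroup.mk' (oddCore ↥L) k ∈
          (act hLN).ker.map (QuotientGroup.mk' (oddCore ↥L)) := ⟨k, hk, rfl⟩
      rw [h, mem_bot] at h1
      exact (QuotientGroup.eq_one_iff k).mp h1
    · exfalso
      apply hker_ne
      apply hPT.2 _ inferInstance
      have hsup : oddCore ↥L ⊔ (act hLN).ker = ⊤ := by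
        rw [eq_top_iff]
        intro g _
        have h1 : QuotientGroup.mk' (oddCore ↥L) g ∈
            (act hLN).ker.map (QuotientGroup.mk' (oddCore ↥L)) := by rw [h]; trivial
        obtain ⟨k, hk, hkg⟩ := h1
        have h2 : k⁻¹ * g ∈ oddCore ↥L := by
          exact (QuotientGroup.eq).mp hkg
        have h4 : g = k * (k⁻¹ * g) := by group
        rw [h4]
        exact mul_mem (mem_sup_right hk) (mem_sup_left h2)
      have h1 : (act hLN).ker.relIndex (oddCore ↥L ⊔ (act hLN).ker) =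
          (act hLN).ker.relIndex (oddCore ↥L) := Subgroup.relIndex_sup_right _ _
      rw [hsup, Subgroup.relIndex_top_right] at h1
      have h2 : (act hLN).ker.index ∣ Nat.card ↥(oddCore ↥L) := by
        rw [h1]; exact Subgroup.relIndex_dvd_card _ _
      intro h3
      have h4 := Nat.Coprime.coprime_dvd_left (h3.trans h2) hcop
      simp at h4
  -- inner automorphisms
  let A : Subgroup (MulAut ↥Q) := (act hLN).range
  have hA : commutator ↥A = ⊤ := perfect_range _ (PT.commutator_eq_top hPT)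
  have hAinn : A ≤ (MulAut.conj : ↥Q →* MulAut ↥Q).range := by
    intro α hα
    obtain ⟨q, hq'⟩ := hq.aut_inner A hA α hα
    exact ⟨q, hq'.symm⟩
  -- cardinalities
  have hz1 : (⟨z, hC.mem⟩ : ↥Q) ≠ 1 := by
    intro h1
    have := hq.ord
    rw [h1, orderOf_one] at this
    omega
  have hcen2 : 2 ≤ Nat.card ↥(center ↥Q) := by
    have hmem : (⟨z, hC.mem⟩ : ↥Q) ∈ center ↥Q := (hq.center_iff _).mpr (Or.inr rfl)
    have : center ↥Q ≠ ⊥ := by
      intro h
      rw [h, mem_bot] at hmem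
      exact hz1 hmem
    exact (Subgroup.one_lt_card_iff_ne_bot _).mpr this
  have hker_conj : (MulAut.conj : ↥Q →* MulAut ↥Q).ker = center ↥Q := by
    ext a
    rw [MonoidHom.mem_ker, Subgroup.mem_center_iff]
    constructor
    · intro h g
      have h1 := congrArg (fun β : MulAut ↥Q => β g) h
      simp only [MulAut.conj_apply, MulAut.one_apply] at h1
      rw [mul_inv_eq_iff_eq_mul] at h1
      exact h1.symm
    · intro h
      ext g
      have h1 : a * g * a⁻¹ = g := by rw [mul_inv_eq_iff_eq_mul, h g]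
      simp only [MulAut.conj_apply, MulAut.one_apply]
      rw [h1]
  have hcardInn : Nat.card ↥(MulAut.conj : ↥Q →* MulAut ↥Q).range * 2 ≤ Nat.card ↥Q := by
    have h1 := Subgroup.index_ker (MulAut.conj : ↥Q →* MulAut ↥Q)
    rw [hker_conj] at h1
    have h2 := Subgroup.card_mul_index (center ↥Q)
    rw [h1] at h2
    rw [← h2, mul_comm]
    exact Nat.mul_le_mul_right _ hcen2
  have hdvd : (oddCore ↥L).index ∣ Nat.card ↥A := by
    have := Subgroup.index_dvd_of_le hK
    rwa [Subgroup.index_ker] at this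
  have hApos : 0 < Nat.card ↥A := Nat.card_pos
  have hcardA : Nat.card ↥(MulAut.conj : ↥Q →* MulAut ↥Q).range ≤ Nat.card ↥A := by
    have h1 : (oddCore ↥L).index ≤ Nat.card ↥A := Nat.le_of_dvd hApos hdvd
    have h2 : Nat.card (↥L ⧸ oddCore ↥L) = (oddCore ↥L).index := rfl
    omega
  have hAeq : A = (MulAut.conj : ↥Q →* MulAut ↥Q).range :=
    Subgroup.eq_of_le_of_card_ge hAinn hcardA
  -- `t` acts on `Q` with central commutators
  have hcentral : ∀ j : ↥Q, (⟨(j : X)⁻¹ * (t * j * t⁻¹), mul_mem (inv_mem j.2)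
      ((mem_normalizer_iff.mp hn _).mp j.2)⟩ : ↥Q) ∈ center ↥Q := by
    intro j
    have h1 : (MulAut.conj j : MulAut ↥Q) ∈ A := by
      rw [hAeq]; exact ⟨j, rfl⟩
    obtain ⟨l, hl⟩ := h1
    have hl2 : ∀ a : ↥Q, (l : X) * a * (l : X)⁻¹ = j * a * (j : X)⁻¹ := by
      intro a
      have := congrArg (fun β : MulAut ↥Q => ((β a : ↥Q) : X)) hl
      simpa [act_apply] using this
    have hlt : (l : X) * t = t * l := mem_CC.mp (hLt l.2)
    rw [Subgroup.mem_center_iff]
    intro b
    apply Subtype.ext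
    simp only [MulMemClass.coe_mul]
    -- `a = t⁻¹ b t`
    have ht' : t⁻¹ = t := inv_eq_of_mul_eq_one_left ht
    have hamem : t * b * t⁻¹ ∈ Q := (mem_normalizer_iff.mp hn _).mp b.2
    have h2 := hl2 ⟨t * b * t⁻¹, hamem⟩
    simp only at h2
    -- conj by `t`
    have h3 : t * ((l : X) * (t * b * t⁻¹) * (l : X)⁻¹) * t⁻¹ = (l : X) * b * (l : X)⁻¹ := by
      have e : t * ((l : X) * (t * b * t⁻¹) * (l : X)⁻¹) * t⁻¹
          = (t * l) * (t * b * t⁻¹) * (t * l)⁻¹ := by
        have : t * (l : X) = (l : X) * t := hlt.symm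
        simp only [mul_inv_rev]
        group
      rw [e, ← hlt]
      have e2 : (l : X) * t * (t * b * t⁻¹) * ((l : X) * t)⁻¹
          = (l : X) * (t * t) * b * (t⁻¹ * t⁻¹) * (l : X)⁻¹ := by group
      rw [e2, ht, ht', ht]
      simp
    rw [h2, hl2 b] at h3
    -- `t j t⁻¹ (t b t⁻¹)... `
    have h4 : t * ((j : X) * (t * b * t⁻¹) * (j : X)⁻¹) * t⁻¹
        = (t * j * t⁻¹) * (t * (t * b * t⁻¹) * t⁻¹) * (t * j * t⁻¹)⁻¹ := by group
    have h5 : t * (t * (b : X) * t⁻¹) * t⁻¹ = b := by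
      have : t * (t * (b : X) * t⁻¹) * t⁻¹ = (t * t) * b * (t⁻¹ * t⁻¹) := by group
      rw [this, ht, ht', ht]; simp
    rw [h4, h5] at h3
    -- `(t j t⁻¹) b (t j t⁻¹)⁻¹ = j b j⁻¹`
    have h6 : (b : X) * ((j : X)⁻¹ * (t * j * t⁻¹)) = ((j : X)⁻¹ * (t * j * t⁻¹)) * b := by
      have h7 : (t * j * t⁻¹) * (b : X) = j * b * (j : X)⁻¹ * (t * j * t⁻¹) := by
        rw [← h3]; group
      calc (b : X) * ((j : X)⁻¹ * (t * j * t⁻¹))
          = (j : X)⁻¹ * (j * b * (j : X)⁻¹ * (t * j * t⁻¹)) := by group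
        _ = (j : X)⁻¹ * ((t * j * t⁻¹) * (b : X)) := by rw [h7]
        _ = _ := by group
    exact h6
  -- the homomorphism `j ↦ j⁻¹ (t j t⁻¹)` is trivial
  obtain ⟨j₀, hj₀, hne₀⟩ := hnt
  apply hne₀
  let ψ : ↥Q →* ↥Q :=
    { toFun := fun j => ⟨(j : X)⁻¹ * (t * j * t⁻¹), mul_mem (inv_mem j.2)
        ((mem_normalizer_iff.mp hn _).mp j.2)⟩
      map_one' := by apply Subtype.ext; simp
      map_mul' := by
        intro a b
        apply Subtype.ext
        have hc := Subgroup.mem_center_iff.mp (hcentral a) b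
        have hc' : (b : X) * ((a : X)⁻¹ * (t * a * t⁻¹)) = ((a : X)⁻¹ * (t * a * t⁻¹)) * b :=
          congrArg Subtype.val hc
        simp only [MulMemClass.coe_mul]
        calc ((a : X) * b)⁻¹ * (t * (a * b) * t⁻¹)
            = (b : X)⁻¹ * (((a : X)⁻¹ * (t * a * t⁻¹)) * (t * b * t⁻¹)) := by group
          _ = (b : X)⁻¹ * (((a : X)⁻¹ * (t * a * t⁻¹)) * b * ((b : X)⁻¹ * (t * b * t⁻¹))) := by group
          _ = (b : X)⁻¹ * ((b : X) * ((a : X)⁻¹ * (t * a * t⁻¹)) * ((b : X)⁻¹ * (t * b * t⁻¹))) := by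
              rw [hc']
          _ = _ := by group }
  have hψ : ∀ j, ψ j ∈ center ↥Q := hcentral
  have hP : commutator ↥Q = ⊤ := quasisimple_perfect hq.qs
  have hle : commutator ↥Q ≤ ψ.ker := by
    rw [_root_.commutator_def, Subgroup.commutator_le]
    intro a _ b _
    rw [MonoidHom.mem_ker, map_commutatorElement, commutatorElement_eq_one_iff_commute]
    exact (Subgroup.mem_center_iff.mp (hψ b)) (ψ a)
  have h1 : (⟨j₀, hj₀⟩ : ↥Q) ∈ ψ.ker := hle (by rw [hP]; trivial)
  have h2 : (j₀ : X)⁻¹ * (t * j₀ * t⁻¹) = 1 := congrArg Subtype.val (MonoidHom.mem_ker.mp h1)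
  rw [inv_mul_eq_one] at h2
  exact h2.symm

/-- `t` acts nontrivially and normalizes: `t ∉ L`. `L ≤ N(Q)`; image perfect so `≤ Inn Q`;
`t` acts as `r`, `r * r = z` (else central); the image of `L` centralizes `inn r` so lies in the image
of `N_Q(⟨r⟩)`, solvable (`nzr_solv`): trivial, contradiction. -/
theorem not_mem_of_nontrivial {Q L : Subgroup X} {z t : X} (hC : CompZ Q z) (ht : t * t = 1)
    (hn : t ∈ normalizer (Q : Set X)) (hnt : ∃ j ∈ Q, t * j * t⁻¹ ≠ j)
    (hL : SN L (CC t)) (hPT : PT 2 ↥L) : t ∉ L := by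
  intro htL
  have hLN : L ≤ normalizer (Q : Set X) := XO.comp_normalizes hC ht hn hnt hL hPT
  have hq := hC.qt
  have hLt : L ≤ CC t := hL.le
  let A : Subgroup (MulAut ↥Q) := (act hLN).range
  have hA : commutator ↥A = ⊤ := perfect_range _ (PT.commutator_eq_top hPT)
  -- `t` acts as `r`
  obtain ⟨r, hr⟩ := hq.aut_inner A hA (act hLN ⟨t, htL⟩) ⟨_, rfl⟩
  have hact : ∀ a : ↥Q, t * a * t⁻¹ = r * a * (r : X)⁻¹ := by
    intro a
    have := congrArg (fun β : MulAut ↥Q => ((β a : ↥Q) : X)) hr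
    simpa [act_apply] using this
  have hz2 : (⟨z, hC.mem⟩ : ↥Q) * ⟨z, hC.mem⟩ = 1 := by
    have := pow_orderOf_eq_one (⟨z, hC.mem⟩ : ↥Q)
    rw [hq.ord, pow_two] at this
    exact this
  have hr1 : r * r ∈ center ↥Q := by
    rw [Subgroup.mem_center_iff]
    intro g
    apply Subtype.ext
    have h1 := hact g
    have h2 := hact ⟨t * g * t⁻¹, (mem_normalizer_iff.mp hn _).mp g.2⟩
    simp only at h2
    have h3 : t * (t * (g : X) * t⁻¹) * t⁻¹ = g := by
      have : t * (t * (g : X) * t⁻¹) * t⁻¹ = (t * t) * g * (t⁻¹ * t⁻¹) := by group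
      have ht' : t⁻¹ = t := inv_eq_of_mul_eq_one_left ht
      rw [this, ht, ht', ht]; simp
    rw [h3, h1] at h2
    simp only [MulMemClass.coe_mul]
    have h4 : (g : X) * ((r : X) * r) = ((r : X) * r) * g := by
      have h5 : ((r : X) * r) * g * ((r : X) * r)⁻¹ = g := by
        calc ((r : X) * r) * g * ((r : X) * r)⁻¹ = (r : X) * ((r : X) * g * (r : X)⁻¹) * (r : X)⁻¹ := by
              group
          _ = g := h2.symm
      rw [mul_inv_eq_iff_eq_mul] at h5
      exact h5.symm
    exact h4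
  have hr2 : r * r = ⟨z, hC.mem⟩ := by
    rcases (hq.center_iff _).mp hr1 with h | h
    · exfalso
      obtain ⟨j, hj, hne⟩ := hnt
      -- r = 1 or z, so central
      have hcen : r ∈ center ↥Q := by
        rw [hq.center_iff]
        by_cases h1 : r = 1
        · exact Or.inl h1
        · right
          apply hq.uniq
          apply orderOf_eq_prime
          · rw [pow_two]; exact h
          · exact h1
      apply hne
      rw [hact ⟨j, hj⟩]
      have := Subgroup.mem_center_iff.mp hcen ⟨j, hj⟩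
      have h2 : j * (r : X) = r * j := congrArg Subtype.val this
      simp only
      rw [← h2]
      group
    · exact h
  -- image of `L` lies in the image of `N_Q(⟨r⟩)`
  haveI hsolv := hq.nzr_solv r hr2
  let NN : Subgroup ↥Q := normalizer ((zpowers r : Subgroup ↥Q) : Set ↥Q)
  let B : Subgroup (MulAut ↥Q) := NN.map (MulAut.conj : ↥Q →* MulAut ↥Q)
  have hAB : A ≤ B := by
    intro α hα
    obtain ⟨q, hq'⟩ := hq.aut_inner A hA α hα
    obtain ⟨l, hl⟩ := hα
    have hl2 : ∀ a : ↥Q, (l : X) * a * (l : X)⁻¹ = q * a * (q : X)⁻¹ := by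
      intro a
      have h0 : act hLN l = MulAut.conj q := hl.trans hq'
      have := congrArg (fun β : MulAut ↥Q => ((β a : ↥Q) : X)) h0
      simpa [act_apply] using this
    have hlt : (l : X) * t = t * l := mem_CC.mp (hLt l.2)
    have hlt' : (t : X)⁻¹ * (l : X)⁻¹ = (l : X)⁻¹ * t⁻¹ := by
      rw [← mul_inv_rev, ← mul_inv_rev, hlt]
    have hkey : ∀ g : ↥Q, (q * r) * g * (q * r)⁻¹ = (r * q) * g * (r * q)⁻¹ := by
      intro g
      apply Subtype.ext
      simp only [MulMemClass.coe_mul, InvMemClass.coe_inv]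
      have hmem1 : t * (g : X) * t⁻¹ ∈ Q := (mem_normalizer_iff.mp hn _).mp g.2
      have e1 := hl2 ⟨t * g * t⁻¹, hmem1⟩
      simp only at e1
      have e2 := hact g
      have e3 := hl2 g
      have e4 := hact (q * g * q⁻¹)
      simp only [MulMemClass.coe_mul, InvMemClass.coe_inv] at e4
      calc (q : X) * r * g * ((q : X) * r)⁻¹ = q * ((r : X) * g * (r : X)⁻¹) * (q : X)⁻¹ := by group
        _ = q * (t * g * t⁻¹) * (q : X)⁻¹ := by rw [e2]
        _ = (l : X) * (t * g * t⁻¹) * (l : X)⁻¹ := e1.symm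
        _ = ((l : X) * t) * g * (t⁻¹ * (l : X)⁻¹) := by group
        _ = (t * l) * g * ((l : X)⁻¹ * t⁻¹) := by rw [hlt, hlt']
        _ = t * ((l : X) * g * (l : X)⁻¹) * t⁻¹ := by group
        _ = t * ((q : X) * g * (q : X)⁻¹) * t⁻¹ := by rw [e3]
        _ = r * ((q : X) * g * (q : X)⁻¹) * (r : X)⁻¹ := e4
        _ = _ := by group
    let c : ↥Q := (r * q)⁻¹ * (q * r)
    have hc : c ∈ center ↥Q := by
      rw [Subgroup.mem_center_iff]
      intro g
      have h1 := hkey g
      have h2 : (q * r) * g = (r * q) * g * (r * q)⁻¹ * (q * r) := by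
        rw [← h1]; group
      change g * ((r * q)⁻¹ * (q * r)) = (r * q)⁻¹ * (q * r) * g
      rw [mul_assoc (r * q)⁻¹, h2]
      group
    have hcr : q * r = r * q * c := by
      change q * r = r * q * ((r * q)⁻¹ * (q * r))
      group
    have hconj : q * r * q⁻¹ = r ∨ q * r * q⁻¹ = r⁻¹ := by
      rcases (hq.center_iff _).mp hc with h | h
      · left
        rw [hcr, h]; group
      · right
        have hzc : (⟨z, hC.mem⟩ : ↥Q) ∈ center ↥Q := (hq.center_iff _).mpr (Or.inr rfl)
        have hzq := Subgroup.mem_center_iff.mp hzc q⁻¹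
        have h1 : q * r * q⁻¹ = r * ⟨z, hC.mem⟩ := by
          rw [hcr, h, mul_assoc, ← hzq]
          group
        rw [h1, eq_inv_iff_mul_eq_one, ← hr2]
        have h2 : r * (r * r) * r = (r * r) * (r * r) := by group
        rw [h2, hr2, hz2]
    have hqN : q ∈ NN := by
      change q ∈ normalizer ((zpowers r : Subgroup ↥Q) : Set ↥Q)
      rw [Subgroup.mem_normalizer_iff_map_conj_eq, MonoidHom.map_zpowers]
      rcases hconj with h | h
      · have : ((MulAut.conj q : MulAut ↥Q) : ↥Q →* ↥Q) r = r := by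
          change q * r * q⁻¹ = r
          exact h
        rw [this]
      · have : ((MulAut.conj q : MulAut ↥Q) : ↥Q →* ↥Q) r = r⁻¹ := by
          change q * r * q⁻¹ = r⁻¹
          exact h
        rw [this, zpowers_inv]
    exact ⟨q, hqN, hq'.symm⟩
  -- `A` is solvable and perfect, so trivial
  haveI hNNs : Group.IsSolvable ↥NN := hsolv
  haveI hBs : Group.IsSolvable ↥B :=
    solvable_of_surjective (MonoidHom.subgroupMap_surjective (MulAut.conj : ↥Q →* MulAut ↥Q) NN)
  haveI hAs : Group.IsSolvable ↥A :=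
    solvable_of_solvable_injective (Subgroup.inclusion_injective hAB)
  have hAtriv : Subsingleton ↥A := by
    by_contra hns
    rw [not_subsingleton_iff_nontrivial] at hns
    have := Group.IsSolvable.commutator_lt_top_of_nontrivial ↥A
    rw [hA] at this
    exact lt_irrefl _ this
  have h1 : act hLN ⟨t, htL⟩ = 1 := by
    have : (⟨act hLN ⟨t, htL⟩, ⟨_, rfl⟩⟩ : ↥A) = 1 := Subsingleton.elim _ _
    exact congrArg Subtype.val this
  obtain ⟨j, hj, hne⟩ := hnt
  exact hne (comm_iff_of_act hLN ⟨t, htL⟩ h1 j hj)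

end Cfsg.Agent.Lib.IntrSL.XO2
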