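/-
S1315 G-level. Lemma A. See PLAN.md.
-/
import Cfsg.Agent.Lib.IntrSL.Transport
import Cfsg.Agent.Lib.IntrSL.XO2
import Cfsg.Agent.Lib.IntrSL.XMoved

set_option autoImplicit false
set_option linter.style.haveILetI false
set_option linter.unusedSectionVars false

namespace Cfsg.Agent.Lib.IntrSL.GA

open Subgroup Cfsg Cfsg.Agent.Lib.BpBalance.Basic Cfsg.Agent.Lib.Subnormal.Basic
  Cfsg.Agent.Lib.PTerm.Rel Cfsg.Agent.Lib.PTerm.Dict Cfsg.Agent.Lib.IntrSL.Defs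
  Cfsg.Agent.Lib.PCStage.Basic Cfsg.Agent.Lib.Core.Basic
open scoped commutatorElement Pointwise

universe u

variable {G : Type u} [Group G] [Finite G]

/-- **cover.** `x` normalizes `K`, trivial on `K/O(K)`: `K₃ = O^{2'}(K ⊓ C(x))`
(`PTerm.Cover.layerData` with `R = ⟨x⟩`, it gives `pLayerOf`, `le_of_PT`, covering) is a 2-component of `C(x) ⊓ C(y)`,
contains all 2-elements of `K ⊓ C(x)`. `SN.inf` for subnormality. -/
theorem cover {K : Subgroup G} {x y : G} (hK : SLComp K y) (hx : x * x = 1) (hc : x * y = y * x)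
    (hn : x ∈ normalizer (K : Set G)) (ht : ∀ k ∈ K, x * k * x⁻¹ * k⁻¹ ∈ OC 2 K) :
    ∃ K₃ : Subgroup G, SN K₃ (CC x ⊓ CC y) ∧ PT 2 ↥K₃ ∧ K₃ ≤ K ∧ y ∈ K₃ ∧
      ∀ s ∈ K, s * x = x * s → IsPGroup 2 ↥(zpowers s) → s ∈ K₃ := by
  haveI : Fact (Nat.Prime 2) := ⟨Nat.prime_two⟩
  have hx2 : x ^ 2 = 1 := by rw [pow_two]; exact hx
  have hR : IsPGroup 2 ↥(zpowers x) := by
    have h1 : orderOf x ∣ 2 ^ 1 := orderOf_dvd_of_pow_eq_one (by simpa using hx2)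
    obtain ⟨m, -, hm⟩ := (Nat.dvd_prime_pow Nat.prime_two).mp h1
    exact IsPGroup.of_card (n := m) (by rw [Nat.card_zpowers, hm])
  have hmem : ∀ r ∈ zpowers x, r = 1 ∨ r = x := by
    intro r hr
    obtain ⟨n, rfl⟩ := mem_zpowers_iff.mp hr
    rcases Int.even_or_odd' n with ⟨k, rfl | rfl⟩
    · left
      rw [zpow_mul, zpow_ofNat, hx2, one_zpow]
    · right
      rw [zpow_add, zpow_mul, zpow_ofNat, hx2, one_zpow, one_mul, zpow_one]
  have hRN : ∀ r ∈ zpowers x, ∀ k ∈ K, r * k * r⁻¹ ∈ K := by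
    intro r hr k hk
    rcases hmem r hr with rfl | rfl
    · simpa using hk
    · exact (mem_normalizer_iff.mp hn k).mp hk
  have hRO : ∀ r ∈ zpowers x, ∀ k ∈ K, r * k * r⁻¹ * k⁻¹ ∈ OC 2 K := by
    intro r hr k hk
    rcases hmem r hr with rfl | rfl
    · have : (1 : G) * k * (1 : G)⁻¹ * k⁻¹ = 1 := by group
      rw [this]
      exact (OC 2 K).one_mem
    · exact ht k hk
  have hdata := Cfsg.Agent.Lib.PTerm.Cover.layerData hK.pt hR hRN hRO
  rw [← Cfsg.Agent.Lib.PTerm.Balance.centralizer_singleton_eq] at hdata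
  set B := K ⊓ CC x with hB
  set I := pLayerOf 2 B with hI
  have hBsn : SN B (CC y ⊓ CC x) := hK.sn.inf (CC x)
  have hIsn : SN I (CC x ⊓ CC y) := by
    rw [inf_comm]
    exact hdata.sn.trans hBsn
  have hIB : I ≤ B := hdata.sn.le
  -- normality of `I` in `B`
  have hInorm : ∀ b ∈ B, ∀ a ∈ I, b * a * b⁻¹ ∈ I := by
    intro b hb a ha
    obtain ⟨a', ha', rfl⟩ := ha
    haveI : (pLayer 2 ↥B).Normal := Cfsg.Agent.Lib.ExtLayer.Basic.pLayer_normal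
    exact ⟨⟨b, hb⟩ * a' * (⟨b, hb⟩ : ↥B)⁻¹, (inferInstance : (pLayer 2 ↥B).Normal).conj_mem a' ha' _, rfl⟩
  have h2el : ∀ s ∈ K, s * x = x * s → IsPGroup 2 ↥(zpowers s) → s ∈ I := by
    intro s hs hsx hs2
    have hsB : s ∈ B := ⟨hs, mem_CC.mpr hsx⟩
    obtain ⟨i, hi, o, ho, e⟩ := hdata.covB s hsB
    have hoB : o ∈ B := OC_le B ho
    have hoodd := Cfsg.Agent.Lib.IntrSL.Transport.odd_order_of_mem_OC B ho
    have h1 : s ^ orderOf o ∈ I := by
      have hon : o ∈ normalizer (I : Set G) := by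
        rw [mem_normalizer_iff]
        intro a
        constructor
        · exact hInorm o hoB a
        · intro ha
          have := hInorm o⁻¹ (B.inv_mem hoB) _ ha
          have e2 : o⁻¹ * (o * a * o⁻¹) * o⁻¹⁻¹ = a := by group
          rwa [e2] at this
      have h2 := Cfsg.Agent.Lib.BpBalance.Main.pow_mul_inv_mem hi hon (orderOf o)
      rw [pow_orderOf_eq_one, inv_one, mul_one, ← e] at h2
      exact h2
    by_cases hs1 : s = 1
    · rw [hs1]; exact I.one_mem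
    obtain ⟨n, hn⟩ := IsPGroup.iff_card.mp hs2
    rw [Nat.card_zpowers] at hn
    have hco : (orderOf o).Coprime (orderOf s) := by
      rw [hn]
      exact Nat.Coprime.pow_right n (Nat.coprime_two_right.mpr hoodd)
    have hord : 1 < orderOf s := by
      apply Nat.one_lt_iff_ne_zero_and_ne_one.mpr
      exact ⟨(orderOf_pos s).ne', fun h => hs1 (orderOf_eq_one_iff.mp h)⟩
    obtain ⟨u, -, hu⟩ := Nat.exists_mul_mod_eq_one_of_coprime hco hord
    have h3 : (s ^ orderOf o) ^ u = s := by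
      rw [← pow_mul, ← pow_mod_orderOf, hu, pow_one]
    rw [← h3]
    exact I.pow_mem h1 u
  refine ⟨I, hIsn, hdata.pt, hIB.trans inf_le_left, ?_, h2el⟩
  apply h2el y hK.mem hc.symm
  have hy2 : y ^ 2 = 1 := by
    have := pow_orderOf_eq_one y
    rwa [hK.ord] at this
  exact IsPGroup.of_card (n := 1) (by rw [Nat.card_zpowers, hK.ord, pow_one])

/-- **Lemma A.** `t = ȳ`, `L = img x K₃` in `Bar x`; `t ∈ L` so `XMoved.not_mem_of_moved`,
`XO2.not_mem_of_nontrivial` say `t` normalizes `J̄` trivially; `Transport.cent_iff`. -/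
theorem lemmaA {J K : Subgroup G} {x y : G} (hJ : SLComp J x) (hK : SLComp K y) (hxy : x ≠ y)
    (hc : x * y = y * x) (hn : x ∈ normalizer (K : Set G))
    (ht : ∀ k ∈ K, x * k * x⁻¹ * k⁻¹ ∈ OC 2 K) :
    y ∈ normalizer (J : Set G) ∧ ∀ j ∈ J, y * j * y⁻¹ * j⁻¹ ∈ OC 2 J := by
  haveI : Fact (Nat.Prime 2) := ⟨Nat.prime_two⟩
  have hx2 : x * x = 1 := by
    have := pow_orderOf_eq_one x
    rwa [hJ.ord, pow_two] at this
  have hy2 : y * y = 1 := by
    have := pow_orderOf_eq_one y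
    rwa [hK.ord, pow_two] at this
  obtain ⟨K₃, h1, h2, h3, h4, h5⟩ := cover hK hx2 hc hn ht
  have hyx : y ∈ CC x := mem_CC.mpr hc.symm
  have hK₃x : K₃ ≤ CC x := h1.le.trans inf_le_left
  have hL := Cfsg.Agent.Lib.IntrSL.Transport.img_SN hyx hy2 h1
  have hPT := Cfsg.Agent.Lib.IntrSL.Transport.img_PT hK₃x h2
  have htL : bar x ⟨y, hyx⟩ ∈ img x K₃ := ⟨⟨y, hyx⟩, mem_subgroupOf.mpr h4, rfl⟩
  have hC := Cfsg.Agent.Lib.IntrSL.Transport.compZ_img hJ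
  have ht2 : bar x ⟨y, hyx⟩ * bar x ⟨y, hyx⟩ = 1 := by
    rw [← map_mul]
    have : (⟨y, hyx⟩ : ↥(CC x)) * ⟨y, hyx⟩ = 1 := Subtype.ext hy2
    rw [this, map_one]
  have hN : bar x ⟨y, hyx⟩ ∈ normalizer ((img x J : Subgroup (Bar x)) : Set (Bar x)) := by
    by_contra h
    exact Cfsg.Agent.Lib.IntrSL.XMoved.not_mem_of_moved hC ht2 h hL hPT htL
  have hT : ∀ j ∈ img x J, bar x ⟨y, hyx⟩ * j * (bar x ⟨y, hyx⟩)⁻¹ = j := by
    by_contra h
    push Not at h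
    obtain ⟨j, hj, hne⟩ := h
    exact Cfsg.Agent.Lib.IntrSL.XO2.not_mem_of_nontrivial hC ht2 hN ⟨j, hj, hne⟩ hL hPT htL
  have := (Cfsg.Agent.Lib.IntrSL.Transport.cent_iff hJ ⟨y, hyx⟩).mp (by
    intro q hq
    have h6 := hT q hq
    rw [mul_inv_eq_iff_eq_mul] at h6
    exact h6)
  exact this

/-- From `lemmaA`: in the situation of `cover`, if `x` is trivial on `K` and `y` is trivial on `J` then all
2-elements of `K ⊓ C(x)` normalize `J` (`XMoved.comm_of_trivial` in `Bar x`, `t = ȳ ∈ L = img x K₃`). -/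
theorem normalizes_of_trivial {J K : Subgroup G} {x y : G} (hJ : SLComp J x) (hK : SLComp K y)
    (hxy : x ≠ y) (hc : x * y = y * x) (hn : x ∈ normalizer (K : Set G))
    (ht : ∀ k ∈ K, x * k * x⁻¹ * k⁻¹ ∈ OC 2 K)
    {s : G} (hs : s ∈ K) (hsx : s * x = x * s) (hs2 : IsPGroup 2 ↥(zpowers s)) :
    s ∈ normalizer (J : Set G) := by
  haveI : Fact (Nat.Prime 2) := ⟨Nat.prime_two⟩
  have hx2 : x * x = 1 := by
    have := pow_orderOf_eq_one x
    rwa [hJ.ord, pow_two] at this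
  have hy2 : y * y = 1 := by
    have := pow_orderOf_eq_one y
    rwa [hK.ord, pow_two] at this
  obtain ⟨hyN, hyT⟩ := lemmaA hJ hK hxy hc hn ht
  obtain ⟨K₃, h1, h2, h3, h4, h5⟩ := cover hK hx2 hc hn ht
  have hyx : y ∈ CC x := mem_CC.mpr hc.symm
  have hK₃x : K₃ ≤ CC x := h1.le.trans inf_le_left
  have hL := Cfsg.Agent.Lib.IntrSL.Transport.img_SN hyx hy2 h1
  have hPT := Cfsg.Agent.Lib.IntrSL.Transport.img_PT hK₃x h2
  have htL : bar x ⟨y, hyx⟩ ∈ img x K₃ := ⟨⟨y, hyx⟩, mem_subgroupOf.mpr h4, rfl⟩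
  have hC := Cfsg.Agent.Lib.IntrSL.Transport.compZ_img hJ
  have ht2 : bar x ⟨y, hyx⟩ * bar x ⟨y, hyx⟩ = 1 := by
    rw [← map_mul]
    have : (⟨y, hyx⟩ : ↥(CC x)) * ⟨y, hyx⟩ = 1 := Subtype.ext hy2
    rw [this, map_one]
  have hne := Cfsg.Agent.Lib.IntrSL.Transport.bar_ne hyx hJ.ord hK.ord hxy
  have hcen := (Cfsg.Agent.Lib.IntrSL.Transport.cent_iff hJ ⟨y, hyx⟩).mpr ⟨hyN, hyT⟩
  have hT := Cfsg.Agent.Lib.IntrSL.XMoved.comm_of_trivial hC ht2 hne.1 hne.2 (by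
    intro q hq
    rw [hcen q hq]
    group) hL hPT htL
  have hsC : s ∈ CC x := mem_CC.mpr hsx
  have hsK₃ := h5 s hs hsx hs2
  have hsL : bar x ⟨s, hsC⟩ ∈ img x K₃ := ⟨⟨s, hsC⟩, mem_subgroupOf.mpr hsK₃, rfl⟩
  have := (Cfsg.Agent.Lib.IntrSL.Transport.cent_iff hJ ⟨s, hsC⟩).mp (by
    intro q hq
    have h6 := hT _ hsL q hq
    rw [mul_inv_eq_iff_eq_mul] at h6
    exact h6)
  exact this.1

end Cfsg.Agent.Lib.IntrSL.GA
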