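/-
S1315 G-level. The element g. See PLAN.md.
-/
import Cfsg.Agent.Lib.IntrSL.Transport
import Cfsg.Agent.Lib.IntrSL.XDiag

set_option autoImplicit false
set_option linter.style.haveILetI false
set_option linter.unusedSectionVars false

namespace Cfsg.Agent.Lib.IntrSL.GBg

open Subgroup Cfsg Cfsg.Agent.Lib.BpBalance.Basic Cfsg.Agent.Lib.Subnormal.Basic
  Cfsg.Agent.Lib.PTerm.Rel Cfsg.Agent.Lib.PTerm.Dict Cfsg.Agent.Lib.IntrSL.Defs
  Cfsg.Agent.Lib.IntrSL.Transport Cfsg.Agent.Lib.IntrSL.XDiag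
open scoped commutatorElement Pointwise

universe u

/-- Elements of `2`-power order. -/
def TwoEl {A : Type u} [Group A] (a : A) : Prop := ∃ k : ℕ, a ^ (2 ^ k) = 1

theorem TwoEl.of_isPGroup {A : Type u} [Group A] {a : A} (h : IsPGroup 2 ↥(zpowers a)) : TwoEl a := by
  obtain ⟨k, hk⟩ := h ⟨a, mem_zpowers a⟩
  exact ⟨k, by simpa using congrArg Subtype.val hk⟩

theorem TwoEl.mul {A : Type u} [Group A] {a b : A} (h : Commute a b) (ha : TwoEl a) (hb : TwoEl b) :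
    TwoEl (a * b) := by
  obtain ⟨k, hk⟩ := ha
  obtain ⟨l, hl⟩ := hb
  refine ⟨k + l, ?_⟩
  rw [h.mul_pow, pow_add]
  rw [pow_mul, hk, one_pow, one_mul, mul_comm, pow_mul, hl, one_pow]

theorem TwoEl.inv {A : Type u} [Group A] {a : A} (ha : TwoEl a) : TwoEl a⁻¹ := by
  obtain ⟨k, hk⟩ := ha
  exact ⟨k, by rw [inv_pow, hk, inv_one]⟩

theorem TwoEl.map {A B : Type u} [Group A] [Group B] (f : A →* B) {a : A} (ha : TwoEl a) :
    TwoEl (f a) := by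
  obtain ⟨k, hk⟩ := ha
  exact ⟨k, by rw [← map_pow, hk, map_one]⟩

theorem TwoEl.conj {A : Type u} [Group A] (g : A) {a : A} (ha : TwoEl a) : TwoEl (g * a * g⁻¹) := by
  obtain ⟨k, hk⟩ := ha
  exact ⟨k, by rw [conj_pow, hk]; group⟩

theorem TwoEl.eq_one_of_odd {A : Type u} [Group A] {a : A} (ha : TwoEl a) (h : Odd (orderOf a)) :
    a = 1 := by
  obtain ⟨k, hk⟩ := ha
  have h1 : orderOf a ∣ 2 ^ k := orderOf_dvd_of_pow_eq_one hk
  have h2 : (orderOf a).Coprime (2 ^ k) := Nat.Coprime.pow_right k (Nat.coprime_two_right.mpr h)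
  exact orderOf_eq_one_iff.mp (Nat.Coprime.eq_one_of_dvd h2 h1)

theorem odd_map {A B : Type u} [Group A] [Group B] (f : A →* B) {a : A} (h : Odd (orderOf a)) :
    Odd (orderOf (f a)) :=
  Odd.of_dvd_nat h (orderOf_map_dvd f a)

variable {G : Type u} [Group G] [Finite G]

theorem odd_bar {x a : G} (ha : a ∈ CC x) (h : Odd (orderOf a)) : Odd (orderOf (bar x ⟨a, ha⟩)) := by
  apply odd_map
  rwa [Subgroup.orderOf_mk]

/-- **bg.** See PLAN.md. `C = g⁻¹ s g s⁻¹`, whose image in `Bar x` is a nontrivial 2-element of `J̄`.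
Conclusions: `g ∉ N(K)`, `s * s = y`, `C ≡ x` modulo `O(C(y))`. -/
theorem bg {J K : Subgroup G} {x y g s : G} (hJ : SLComp J x) (hK : SLComp K y) (hxy : x ≠ y)
    (hc : x * y = y * x) (hyJ : y ∈ normalizer (J : Set G)) (hgx : g ∈ CC x) (hgy : g ∈ CC y)
    (hs : s ∈ K) (hsx : s * x = x * s) (hs2 : IsPGroup 2 ↥(zpowers s))
    (hsJ : s ∉ normalizer (J : Set G))
    (hCx : g⁻¹ * (s * g * s⁻¹) ∈ CC x)
    (hC1 : bar x ⟨g⁻¹ * (s * g * s⁻¹), hCx⟩ ∈ img x J)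
    (hC2 : IsPGroup 2 ↥(zpowers (bar x ⟨g⁻¹ * (s * g * s⁻¹), hCx⟩)))
    (hC3 : bar x ⟨g⁻¹ * (s * g * s⁻¹), hCx⟩ ≠ 1) :
    g ∉ normalizer (K : Set G) ∧ s * s = y ∧ (g⁻¹ * (s * g * s⁻¹)) * x⁻¹ ∈ OC 2 (CC y) := by
  haveI : Fact (Nat.Prime 2) := ⟨Nat.prime_two⟩
  have hyx : y ∈ CC x := mem_CC.mpr hc.symm
  have hxCy : x ∈ CC y := mem_CC.mpr hc
  have hyK : y ∈ K := hK.mem
  have hyy : y ^ 2 = 1 := by
    have := pow_orderOf_eq_one y
    rwa [hK.ord] at this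
  have hxx : x ^ 2 = 1 := by
    have := pow_orderOf_eq_one x
    rwa [hJ.ord] at this
  have hsy : s * y = y * s := by
    have h1 : s * y * s⁻¹ ∈ K := mul_mem (mul_mem hs hyK) (inv_mem hs)
    have h2 : orderOf (s * y * s⁻¹) = 2 := by
      have h3 := (MulAut.conj s).orderOf_eq y
      rw [MulAut.conj_apply] at h3
      rw [h3, hK.ord]
    have h4 := hK.uniq _ h1 h2
    rw [mul_inv_eq_iff_eq_mul] at h4
    exact h4
  have hsCx : s ∈ CC x := mem_CC.mpr hsx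
  have hsCy : s ∈ CC y := mem_CC.mpr hsy
  set C : G := g⁻¹ * (s * g * s⁻¹) with hCdef
  have hCy : C ∈ CC y := mul_mem (inv_mem hgy) (mul_mem (mul_mem hsCy hgy) (inv_mem hsCy))
  have hc2 : TwoEl (bar x ⟨C, hCx⟩) := TwoEl.of_isPGroup hC2
  have hs2' : TwoEl s := TwoEl.of_isPGroup hs2
  have hbne := bar_ne hyx hJ.ord hK.ord hxy
  -- Step 1
  have hgK : g ∉ normalizer (K : Set G) := by
    intro hg
    have hCK : C ∈ K := by
      have h1 := (mem_normalizer_iff.mp (inv_mem hg) s).mp hs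
      rw [inv_inv] at h1
      have h2 : C = (g⁻¹ * s * g) * s⁻¹ := by rw [hCdef]; group
      rw [h2]
      exact mul_mem h1 (inv_mem hs)
    have hCodd : ¬ Odd (orderOf C) := by
      intro h
      exact hC3 (hc2.eq_one_of_odd (odd_bar hCx h))
    have heven : 2 ∣ orderOf C := even_iff_two_dvd.mp (Nat.not_odd_iff_even.mp hCodd)
    have h1 : orderOf (C ^ (orderOf C / 2)) = 2 :=
      orderOf_pow_orderOf_div (orderOf_pos C).ne' heven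
    have h2 : C ^ (orderOf C / 2) = y := hK.uniq _ (pow_mem hCK _) h1
    have h3 : (⟨y, hyx⟩ : ↥(CC x)) = (⟨C, hCx⟩ : ↥(CC x)) ^ (orderOf C / 2) :=
      Subtype.ext (by simp [h2])
    have h4 : bar x ⟨y, hyx⟩ ∈ img x J := by
      rw [h3, map_pow]
      exact pow_mem hC1 _
    have h5 : orderOf (⟨bar x ⟨y, hyx⟩, h4⟩ : ↥(img x J)) = 2 := by
      rw [Subgroup.orderOf_mk]
      apply orderOf_eq_prime _ hbne.1
      rw [← map_pow]
      have : (⟨y, hyx⟩ : ↥(CC x)) ^ 2 = 1 := Subtype.ext (by simpa using hyy)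
      rw [this, map_one]
    have h6 := (compZ_img hJ).qt.uniq _ h5
    exact hbne.2 (congrArg Subtype.val h6)
  -- Step 2
  have hcz := compZ_img hK
  have hinvg : (g⁻¹ : G) ∉ normalizer (K : Set G) := fun h => hgK (by simpa using inv_mem h)
  have hgbar : (bar y ⟨g, hgy⟩)⁻¹ ∉ normalizer ((img y K : Subgroup (Bar y)) : Set (Bar y)) := by
    intro h
    rw [← map_inv] at h
    exact hinvg ((mem_norm_iff hK _).mp h)
  obtain ⟨hcom, hcen⟩ := comm_conj hcz hgbar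
  have hsimg : bar y ⟨s, hsCy⟩ ∈ img y K := mem_img_iff.mpr ⟨⟨s, hsCy⟩, hs, rfl⟩
  set sh : Bar y := bar y ⟨s, hsCy⟩ with hsh
  set gh : Bar y := bar y ⟨g, hgy⟩ with hgh
  have hCh : bar y ⟨C, hCy⟩ = gh⁻¹ * sh * gh * sh⁻¹ := by
    have h1 : (⟨C, hCy⟩ : ↥(CC y)) = (⟨g, hgy⟩ : ↥(CC y))⁻¹ * ⟨s, hsCy⟩ * ⟨g, hgy⟩ * (⟨s, hsCy⟩ : ↥(CC y))⁻¹ :=
      Subtype.ext (by simp [hCdef, mul_assoc])
    rw [h1]
    simp only [map_mul, map_inv]
    rfl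
  have hcomm : Commute sh (gh⁻¹ * sh * gh) := by
    have h1 := hcom sh hsimg sh hsimg
    rw [inv_inv] at h1
    exact h1
  -- Step 3
  have heCy : s * C * s⁻¹ * C⁻¹ ∈ CC y :=
    mul_mem (mul_mem (mul_mem hsCy hCy) (inv_mem hsCy)) (inv_mem hCy)
  have heO : s * C * s⁻¹ * C⁻¹ ∈ OC 2 (CC y) := by
    have h1 : bar y ⟨s * C * s⁻¹ * C⁻¹, heCy⟩ = 1 := by
      have h2 : (⟨s * C * s⁻¹ * C⁻¹, heCy⟩ : ↥(CC y)) =
          (⟨s, hsCy⟩ : ↥(CC y)) * ⟨C, hCy⟩ * (⟨s, hsCy⟩ : ↥(CC y))⁻¹ * (⟨C, hCy⟩ : ↥(CC y))⁻¹ :=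
        Subtype.ext (by simp)
      rw [h2]
      simp only [map_mul, map_inv]
      rw [hCh]
      have key : ∀ a b : Bar y, a * b = b * a → a * (b * a⁻¹) * a⁻¹ * (b * a⁻¹)⁻¹ = 1 := by
        intro a b hab
        have h5 : a * (b * a⁻¹) * a⁻¹ * (b * a⁻¹)⁻¹ = (a * b) * a⁻¹ * b⁻¹ := by group
        rw [h5, hab]
        group
      exact key sh _ hcomm
    exact (mk_eq_one_iff (p := 2) _).mp h1
  have heOdd : Odd (orderOf (s * C * s⁻¹ * C⁻¹)) := odd_order_of_mem_OC _ heO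
  -- Step 4
  have heCx : s * C * s⁻¹ * C⁻¹ ∈ CC x :=
    mul_mem (mul_mem (mul_mem hsCx hCx) (inv_mem hsCx)) (inv_mem hCx)
  have hz := compZ_img hJ
  have hsbar : bar x ⟨s, hsCx⟩ ∉ normalizer ((img x J : Subgroup (Bar x)) : Set (Bar x)) := by
    intro h
    exact hsJ ((mem_norm_iff hJ _).mp h)
  obtain ⟨hcom2, hcen2⟩ := comm_conj hz hsbar
  set sb : Bar x := bar x ⟨s, hsCx⟩ with hsb
  set cb : Bar x := bar x ⟨C, hCx⟩ with hcb
  have he2 : bar x ⟨s * C * s⁻¹ * C⁻¹, heCx⟩ = (sb * cb * sb⁻¹) * cb⁻¹ := by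
    have h2 : (⟨s * C * s⁻¹ * C⁻¹, heCx⟩ : ↥(CC x)) =
        (⟨s, hsCx⟩ : ↥(CC x)) * ⟨C, hCx⟩ * (⟨s, hsCx⟩ : ↥(CC x))⁻¹ * (⟨C, hCx⟩ : ↥(CC x))⁻¹ :=
      Subtype.ext (by simp)
    rw [h2]
    simp only [map_mul, map_inv]
    rfl
  have hcc : cb = barz x := by
    have h1 : Commute (sb * cb * sb⁻¹) cb⁻¹ := by
      have h5 : Commute cb (sb * cb * sb⁻¹) := hcom2 cb hC1 cb hC1
      exact h5.symm.inv_right
    have h2 : TwoEl ((sb * cb * sb⁻¹) * cb⁻¹) := TwoEl.mul h1 (hc2.conj sb) hc2.inv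
    have h3 : Odd (orderOf ((sb * cb * sb⁻¹) * cb⁻¹)) := by
      rw [← he2]
      exact odd_bar heCx heOdd
    have h4 := h2.eq_one_of_odd h3
    rw [mul_inv_eq_one] at h4
    rcases hcen2 cb hC1 cb hC1 h4.symm with h5 | h5
    · exact absurd h5 hC3
    · exact h5
  have hCxO : C * x⁻¹ ∈ OC 2 (CC x) :=
    (bar_eq_iff (⟨C, hCx⟩ : ↥(CC x)) ⟨x, self_mem_CC x⟩).mp hcc
  have hCxOdd : Odd (orderOf (C * x⁻¹)) := odd_order_of_mem_OC _ hCxO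
  -- Step 5
  have hCxCy : C * x⁻¹ ∈ CC y := mul_mem hCy (inv_mem hxCy)
  have hxh : TwoEl (bar y ⟨x, hxCy⟩) := by
    refine ⟨1, ?_⟩
    rw [pow_one, ← map_pow]
    have : (⟨x, hxCy⟩ : ↥(CC y)) ^ 2 = 1 := Subtype.ext (by simpa using hxx)
    rw [this, map_one]
  have hsh2 : TwoEl sh := by
    have h1 : TwoEl (⟨s, hsCy⟩ : ↥(CC y)) := by
      obtain ⟨k, hk⟩ := hs2'
      exact ⟨k, Subtype.ext (by simpa using hk)⟩
    exact h1.map (bar y)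
  have hs''2 : TwoEl (gh⁻¹ * sh * gh) := by
    have := hsh2.conj gh⁻¹
    rwa [inv_inv] at this
  have hCh2 : TwoEl (bar y ⟨C, hCy⟩) := by
    rw [hCh]
    exact TwoEl.mul hcomm.symm.inv_right hs''2 hsh2.inv
  have hCcomm : Commute (bar y ⟨C, hCy⟩) (bar y ⟨x, hxCy⟩) := by
    have h1 : (⟨C, hCy⟩ : ↥(CC y)) * ⟨x, hxCy⟩ = ⟨x, hxCy⟩ * ⟨C, hCy⟩ :=
      Subtype.ext (mem_CC.mp hCx)
    have h2 := congrArg (bar y) h1
    rwa [map_mul, map_mul] at h2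
  have hCeq : bar y ⟨C * x⁻¹, hCxCy⟩ = 1 := by
    have h1 : bar y ⟨C * x⁻¹, hCxCy⟩ = bar y ⟨C, hCy⟩ * (bar y ⟨x, hxCy⟩)⁻¹ := by
      rw [← map_inv, ← map_mul]
      rfl
    have h2 : TwoEl (bar y ⟨C * x⁻¹, hCxCy⟩) := by
      rw [h1]
      exact TwoEl.mul hCcomm.inv_right hCh2 hxh.inv
    exact h2.eq_one_of_odd (odd_bar hCxCy hCxOdd)
  have hthird : C * x⁻¹ ∈ OC 2 (CC y) := (mk_eq_one_iff (p := 2) _).mp hCeq
  refine ⟨hgK, ?_, hthird⟩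
  -- Step 6
  have hCx1 : bar y ⟨C, hCy⟩ = bar y ⟨x, hxCy⟩ := (bar_eq_iff _ _).mpr hthird
  have hCsq : bar y ⟨C, hCy⟩ ^ 2 = 1 := by
    rw [hCx1, ← map_pow]
    have : (⟨x, hxCy⟩ : ↥(CC y)) ^ 2 = 1 := Subtype.ext (by simpa using hxx)
    rw [this, map_one]
  have hsqsq : sh * sh = gh⁻¹ * (sh * sh) * gh := by
    rw [hCh] at hCsq
    have h3 : (gh⁻¹ * sh * gh) * sh = sh * (gh⁻¹ * sh * gh) := hcomm.symm
    have h4 : (gh⁻¹ * sh * gh * sh⁻¹) ^ 2 =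
        (gh⁻¹ * sh * gh) ^ 2 * (sh⁻¹) ^ 2 := by
      rw [(show Commute (gh⁻¹ * sh * gh) sh⁻¹ from hcomm.symm.inv_right).mul_pow]
    rw [h4] at hCsq
    have h5 : (gh⁻¹ * sh * gh) ^ 2 = gh⁻¹ * (sh * sh) * gh := by
      rw [sq]; group
    rw [h5, inv_pow, mul_inv_eq_one, sq] at hCsq
    exact hCsq.symm
  have hsimg2 : sh * sh ∈ img y K := mul_mem hsimg hsimg
  have hdich := hcen _ hsimg2 _ hsimg2 (by rw [inv_inv]; exact hsqsq)
  have hssCy : s * s ∈ CC y := mul_mem hsCy hsCy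
  have hss2 : TwoEl (s * s) := TwoEl.mul (Commute.refl s) hs2' hs2'
  have hshs : sh * sh = bar y ⟨s * s, hssCy⟩ := by
    rw [hsh, ← map_mul]
    rfl
  rcases hdich with h1 | h1
  · exfalso
    rw [hshs] at h1
    have h2 : s * s ∈ OC 2 (CC y) := (mk_eq_one_iff (p := 2) _).mp h1
    have h3 := hss2.eq_one_of_odd (odd_order_of_mem_OC _ h2)
    by_cases h4 : s = 1
    · apply hsJ
      rw [h4]
      exact one_mem _
    · have h5 : orderOf s = 2 := orderOf_eq_prime (by rw [sq]; exact h3) h4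
      have h6 := hK.uniq s hs h5
      rw [h6] at hsJ
      exact hsJ hyJ
  · rw [hshs] at h1
    have h2 : (s * s) * y⁻¹ ∈ OC 2 (CC y) :=
      (bar_eq_iff (⟨s * s, hssCy⟩ : ↥(CC y)) ⟨y, self_mem_CC y⟩).mp h1
    have h3 : TwoEl ((s * s) * y⁻¹) := by
      refine TwoEl.mul ?_ hss2 ?_
      · have h4 : Commute s y := hsy
        exact ((h4.mul_left h4)).inv_right
      · exact TwoEl.inv ⟨1, by rw [pow_one]; exact hyy⟩
    have h5 := h3.eq_one_of_odd (odd_order_of_mem_OC _ h2)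
    exact mul_inv_eq_one.mp h5

end Cfsg.Agent.Lib.IntrSL.GBg
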