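/-
S1315: lifting lemmas modulo an odd normal subgroup. See PLAN.md.
-/
import Cfsg.Agent.Lib.IntrSL.Defs

set_option autoImplicit false
set_option linter.style.haveILetI false
set_option linter.unusedSectionVars false

namespace Cfsg.Agent.Lib.IntrSL.Lift

open Subgroup Cfsg Cfsg.Agent.Lib.BpBalance.Basic Cfsg.Agent.Lib.Subnormal.Basic
  Cfsg.Agent.Lib.PTerm.Rel Cfsg.Agent.Lib.PTerm.Dict Cfsg.Agent.Lib.IntrSL.Defs
open scoped commutatorElement Pointwise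

universe u


variable {G : Type u} [Group G] [Finite G]

/-- Fixed point of a twisted action of a 2-group on a coset of an odd subgroup. -/
theorem core {R O : Subgroup G} (hR : IsPGroup 2 ↥R) (hcop : (Nat.card O).Coprime 2) (φ : G → G)
    (hφ1 : φ 1 = 1) (hφm : ∀ r ∈ R, ∀ s ∈ R, φ (r * s) = φ r * φ s) (g : G)
    (hmem : ∀ r ∈ R, ∀ c : G, c * g⁻¹ ∈ O → φ r * c * r⁻¹ * g⁻¹ ∈ O) :
    ∃ o ∈ O, ∀ r ∈ R, φ r * (o * g) * r⁻¹ = o * g := by
  classical
  haveI : Fact (Nat.Prime 2) := ⟨Nat.prime_two⟩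
  let T := {c : G // c * g⁻¹ ∈ O}
  letI : MulAction R T :=
    { smul := fun r c => ⟨φ r * c.1 * (r : G)⁻¹, hmem r r.2 c.1 c.2⟩
      one_smul := fun c => Subtype.ext (by
        show φ ((1 : R) : G) * c.1 * ((1 : R) : G)⁻¹ = c.1
        simp [hφ1])
      mul_smul := fun a b c => Subtype.ext (by
        show φ ((a * b : R) : G) * c.1 * ((a * b : R) : G)⁻¹ =
          φ (a : G) * (φ (b : G) * c.1 * (b : G)⁻¹) * (a : G)⁻¹
        rw [Subgroup.coe_mul, hφm _ a.2 _ b.2]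
        group) }
  have hmod := hR.card_modEq_card_fixedPoints T
  have hcard : Nat.card T = Nat.card O := by
    refine Nat.card_congr ⟨fun c => ⟨c.1 * g⁻¹, c.2⟩, fun o => ⟨o.1 * g, by simp⟩, ?_, ?_⟩
    · intro c; apply Subtype.ext; simp
    · intro o; apply Subtype.ext; simp
  by_cases h0 : Nonempty (MulAction.fixedPoints R T)
  · obtain ⟨⟨c, hc⟩⟩ := h0
    refine ⟨c.1 * g⁻¹, c.2, ?_⟩
    intro r hr
    have e : φ r * c.1 * r⁻¹ = c.1 := congrArg Subtype.val (hc ⟨r, hr⟩)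
    simpa using e
  · exfalso
    rw [not_nonempty_iff] at h0
    have h1 : Nat.card (MulAction.fixedPoints R T) = 0 := by
      rw [Nat.card_eq_zero]; left; exact h0
    rw [h1, hcard] at hmod
    have h2 : 2 ∣ Nat.card O := (Nat.modEq_zero_iff_dvd).mp hmod
    have h3 := Nat.Coprime.coprime_dvd_left h2 hcop
    exact Nat.one_lt_two.ne' (by simpa using h3)

/-- `E ⊓ O = 1`. -/
theorem eq_one_of_mem {E O : Subgroup G} (hE2 : IsPGroup 2 ↥E) (hcop : (Nat.card O).Coprime 2) {a : G}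
    (ha : a ∈ E) (hb : a ∈ O) : a = 1 := by
  haveI : Fact (Nat.Prime 2) := ⟨Nat.prime_two⟩
  obtain ⟨n, hn⟩ := IsPGroup.iff_card.mp hE2
  have h1 : orderOf a ∣ 2 ^ n := by
    have := orderOf_dvd_natCard (⟨a, ha⟩ : ↥E)
    rwa [Subgroup.orderOf_mk, hn] at this
  have h2 : orderOf a ∣ Nat.card O := by
    have := orderOf_dvd_natCard (⟨a, hb⟩ : ↥O)
    rwa [Subgroup.orderOf_mk] at this
  have h3 : (Nat.card O).Coprime (2 ^ n) := Nat.Coprime.pow_right n hcop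
  have h4 := Nat.eq_one_of_dvd_coprimes h3 h2 h1
  rwa [orderOf_eq_one_iff] at h4

/-- `E` a 2-subgroup of `H`, `O` odd normal in `H`; `g ∈ H` maps `E` into itself modulo `O` via `φ`.
Then `o * g` conjugates exactly via `φ`, some `o ∈ O`. -/
theorem lift_action {H O E : Subgroup G} (hO : O ≤ H)
    (hnO : ∀ h ∈ H, ∀ a ∈ O, h * a * h⁻¹ ∈ O) (hcop : (Nat.card O).Coprime 2) (hE : E ≤ H)
    (hE2 : IsPGroup 2 ↥E) {g : G} (hg : g ∈ H) (φ : G → G)
    (hφ : ∀ e ∈ E, φ e ∈ E ∧ (g * e * g⁻¹) * (φ e)⁻¹ ∈ O) :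
    ∃ o ∈ O, ∀ e ∈ E, (o * g) * e * (o * g)⁻¹ = φ e := by
  have hφ1 : φ 1 = 1 := by
    obtain ⟨h1, h2⟩ := hφ 1 E.one_mem
    apply eq_one_of_mem hE2 hcop h1
    have : (g * 1 * g⁻¹) * (φ 1)⁻¹ = (φ 1)⁻¹ := by group
    rw [this] at h2
    simpa using O.inv_mem h2
  have hφm : ∀ r ∈ E, ∀ s ∈ E, φ (r * s) = φ r * φ s := by
    intro r hr s hs
    obtain ⟨h1, h2⟩ := hφ r hr
    obtain ⟨h3, h4⟩ := hφ s hs
    obtain ⟨h5, h6⟩ := hφ (r * s) (E.mul_mem hr hs)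
    have h7 : φ (r * s) * (φ r * φ s)⁻¹ = 1 := by
      apply eq_one_of_mem hE2 hcop (E.mul_mem h5 (E.inv_mem (E.mul_mem h1 h3)))
      have e : φ (r * s) * (φ r * φ s)⁻¹ =
          ((g * (r * s) * g⁻¹) * (φ (r * s))⁻¹)⁻¹ *
            ((g * r * g⁻¹) * (φ r)⁻¹) * (φ r * ((g * s * g⁻¹) * (φ s)⁻¹) * (φ r)⁻¹) := by
        group
      rw [e]
      exact O.mul_mem (O.mul_mem (O.inv_mem h6) h2) (hnO _ (hE h1) _ h4)
    exact mul_inv_eq_one.mp h7
  obtain ⟨o, ho, h⟩ := core hE2 hcop φ hφ1 hφm g (by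
    intro r hr c hc
    obtain ⟨h1, h2⟩ := hφ r hr
    have e : φ r * c * r⁻¹ * g⁻¹ = (φ r * (c * g⁻¹) * (φ r)⁻¹) * ((g * r * g⁻¹) * (φ r)⁻¹)⁻¹ := by
      group
    rw [e]
    exact O.mul_mem (hnO _ (hE h1) _ hc) (O.inv_mem h2))
  refine ⟨o, ho, fun e he => ?_⟩
  have h1 := h e he
  have h2 : φ e * (o * g) = (o * g) * e := mul_inv_eq_iff_eq_mul.mp h1
  calc (o * g) * e * (o * g)⁻¹ = (φ e * (o * g)) * (o * g)⁻¹ := by rw [h2]
    _ = φ e := by group

/-- Two involutions congruent mod an odd normal subgroup are conjugate under it. -/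
theorem conj_involutions {H O : Subgroup G} (hO : O ≤ H)
    (hnO : ∀ h ∈ H, ∀ a ∈ O, h * a * h⁻¹ ∈ O) (hcop : (Nat.card O).Coprime 2) {a b : G} (ha : a ∈ H)
    (hb : b ∈ H) (haa : a * a = 1) (hbb : b * b = 1) (hab : a * b⁻¹ ∈ O) :
    ∃ o ∈ O, o * a * o⁻¹ = b := by
  classical
  haveI : Fact (Nat.Prime 2) := ⟨Nat.prime_two⟩
  have ha2 : a ^ 2 = 1 := by rw [pow_two]; exact haa
  have hR : IsPGroup 2 ↥(zpowers a) := by
    apply IsPGroup.of_card (n := Nat.factorization (orderOf a) 2)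
    rw [Nat.card_zpowers]
    have h1 : orderOf a ∣ 2 ^ 1 := by simpa using orderOf_dvd_of_pow_eq_one ha2
    obtain ⟨m, -, hm⟩ := (Nat.dvd_prime_pow Nat.prime_two).mp h1
    rw [hm]
    simp [Nat.Prime.factorization_self Nat.prime_two]
  have hmem : ∀ r ∈ zpowers a, r = 1 ∨ r = a := by
    intro r hr
    obtain ⟨n, rfl⟩ := mem_zpowers_iff.mp hr
    rcases Int.even_or_odd' n with ⟨k, rfl | rfl⟩
    · left
      rw [zpow_mul, zpow_ofNat, ha2, one_zpow]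
    · right
      rw [zpow_add, zpow_mul, zpow_ofNat, ha2, one_zpow, one_mul, zpow_one]
  by_cases ha1 : a = 1
  · subst ha1
    have h1 : b⁻¹ ∈ O := by simpa using hab
    have h2 : b ∈ O := by simpa using O.inv_mem h1
    have h3 : b = 1 := by
      have h4 : orderOf b ∣ Nat.card O := by
        have := orderOf_dvd_natCard (⟨b, h2⟩ : ↥O)
        rwa [Subgroup.orderOf_mk] at this
      have h5 : orderOf b ∣ 2 := orderOf_dvd_of_pow_eq_one (by rw [pow_two]; exact hbb)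
      have h6 := Nat.eq_one_of_dvd_coprimes hcop h4 h5
      rwa [orderOf_eq_one_iff] at h6
    exact ⟨1, O.one_mem, by rw [h3]; group⟩
  let φ : G → G := fun r => if r = 1 then 1 else b
  have hφ1 : φ 1 = 1 := by simp [φ]
  have hφa : φ a = b := by simp [φ, ha1]
  have hφm : ∀ r ∈ zpowers a, ∀ s ∈ zpowers a, φ (r * s) = φ r * φ s := by
    intro r hr s hs
    rcases hmem r hr with h1 | h1 <;> rcases hmem s hs with h2 | h2 <;> rw [h1, h2]
    · simp [hφ1]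
    · simp [hφ1]
    · simp [hφ1]
    · rw [haa, hφ1, hφa, hbb]
  obtain ⟨o, ho, h⟩ := core hR hcop φ hφ1 hφm 1 (by
    intro r hr c hc
    rcases hmem r hr with h1 | h1 <;> rw [h1]
    · simpa [hφ1] using hc
    · rw [hφa]
      have hc' : c ∈ O := by simpa using hc
      have e : b * c * a⁻¹ * 1⁻¹ = (b * c * b⁻¹) * (a * b⁻¹)⁻¹ := by group
      rw [e]
      exact O.mul_mem (hnO _ hb _ hc') (O.inv_mem hab))
  refine ⟨o, ho, ?_⟩
  have h1 := h a (mem_zpowers a)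
  rw [hφa, mul_one] at h1
  calc o * a * o⁻¹ = (b * o * a⁻¹) * a * o⁻¹ := by rw [h1]
    _ = b := by group

end Cfsg.Agent.Lib.IntrSL.Lift
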