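/-
S1315 X-level. See PLAN.md.
-/
import Cfsg.Agent.Lib.IntrSL.Flip
import Cfsg.Agent.Lib.IntrSL.XDiag

set_option autoImplicit false
set_option linter.style.haveILetI false
set_option linter.unusedSectionVars false

namespace Cfsg.Agent.Lib.IntrSL.XGel

open Subgroup Cfsg Cfsg.Agent.Lib.BpBalance.Basic Cfsg.Agent.Lib.Subnormal.Basic
  Cfsg.Agent.Lib.PTerm.Rel Cfsg.Agent.Lib.PTerm.Dict Cfsg.Agent.Lib.IntrSL.Defs
open scoped commutatorElement Pointwise

universe u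

variable {X : Type u} [Group X] [Finite X]

theorem zz_eq {Q : Subgroup X} {z : X} (hC : CompZ Q z) : z * z = 1 := by
  have h := hC.qt.ord
  have h1 : (⟨z, hC.mem⟩ : ↥Q) ^ 2 = 1 := by rw [← h]; exact pow_orderOf_eq_one _
  have h2 := congrArg (Subtype.val) h1
  simpa [pow_two] using h2

theorem z_ne_one {Q : Subgroup X} {z : X} (hC : CompZ Q z) : z ≠ 1 := by
  intro h
  have h0 := hC.qt.ord
  have h1 : (⟨z, hC.mem⟩ : ↥Q) = 1 := Subtype.ext h
  rw [h1, orderOf_one] at h0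
  omega

theorem z_inv {Q : Subgroup X} {z : X} (hC : CompZ Q z) : z⁻¹ = z :=
  inv_eq_of_mul_eq_one_left (zz_eq hC)

/-- The subgroup of elements normalizing `Q`, and sending `t` to `t` or `t * z`. -/
def W {Q : Subgroup X} {z : X} (hC : CompZ Q z) (t : X) : Subgroup X where
  carrier := {w | w ∈ normalizer (Q : Set X) ∧ (w * t * w⁻¹ = t ∨ w * t * w⁻¹ = t * z)}
  mul_mem' := by
    rintro a b ⟨ha1, ha2⟩ ⟨hb1, hb2⟩
    refine ⟨mul_mem ha1 hb1, ?_⟩
    have e : a * b * t * (a * b)⁻¹ = a * (b * t * b⁻¹) * a⁻¹ := by group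
    rw [e]
    rcases hb2 with h | h <;> rw [h]
    · exact ha2
    · have e2 : a * (t * z) * a⁻¹ = (a * t * a⁻¹) * z := by
        have := hC.cen a
        calc a * (t * z) * a⁻¹ = a * t * (z * a⁻¹) := by group
          _ = a * t * (a⁻¹ * z) := by rw [show z * a⁻¹ = a⁻¹ * z from (hC.cen a⁻¹).symm]
          _ = _ := by group
      rw [e2]
      rcases ha2 with h' | h' <;> rw [h']
      · right; rfl
      · left
        rw [mul_assoc, zz_eq hC, mul_one]
  one_mem' := ⟨one_mem _, Or.inl (by simp)⟩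
  inv_mem' := by
    rintro a ⟨ha1, ha2⟩
    refine ⟨inv_mem ha1, ?_⟩
    rcases ha2 with h | h
    · left
      rw [inv_inv]
      calc a⁻¹ * t * a = a⁻¹ * (a * t * a⁻¹) * a := by rw [h]
        _ = t := by group
    · right
      rw [inv_inv]
      calc a⁻¹ * t * a = a⁻¹ * (t * z * z) * a := by rw [mul_assoc t z z, zz_eq hC, mul_one]
        _ = a⁻¹ * ((a * t * a⁻¹) * z) * a := by rw [h]
        _ = (a⁻¹ * (a * t * a⁻¹) * a) * z := by
            calc a⁻¹ * ((a * t * a⁻¹) * z) * a = a⁻¹ * (a * t * a⁻¹) * (z * a) := by group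
              _ = a⁻¹ * (a * t * a⁻¹) * (a * z) := by rw [hC.cen a]
              _ = _ := by group
        _ = t * z := by
            congr 1
            group

/-- The conjugate of `u` under `g ∈ W` still flips `t`. -/
theorem flip_conj {Q : Subgroup X} {z t u g : X} (hC : CompZ Q z) (hg : g ∈ W hC t)
    (hu : u * t * u⁻¹ = t * z) : (g * u * g⁻¹) * t * (g * u * g⁻¹)⁻¹ = t * z := by
  have hcen : ∀ a : X, a * z = z * a := hC.cen
  have hzz := zz_eq hC
  have key : ∀ ε : X, ε * ε = 1 → (∀ a : X, a * ε = ε * a) → g * t * g⁻¹ = t * ε →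
      (g * u * g⁻¹) * t * (g * u * g⁻¹)⁻¹ = t * z := by
    intro ε hε hεc he
    have h1 : g⁻¹ * t * g = t * ε := by
      have : t = g⁻¹ * (t * ε) * g := by rw [← he]; group
      calc g⁻¹ * t * g = g⁻¹ * (t * ε) * g * ε := by
            rw [mul_assoc (g⁻¹ * (t * ε)) g ε, hεc g]
            have : g⁻¹ * (t * ε) * (ε * g) = g⁻¹ * t * (ε * ε) * g := by group
            rw [this, hε]; group
        _ = t * ε := by rw [← this]
    have h2 : u * (t * ε) * u⁻¹ = t * z * ε := by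
      calc u * (t * ε) * u⁻¹ = u * t * (ε * u⁻¹) := by group
        _ = u * t * (u⁻¹ * ε) := by rw [hεc u⁻¹]
        _ = (u * t * u⁻¹) * ε := by group
        _ = _ := by rw [hu]
    calc (g * u * g⁻¹) * t * (g * u * g⁻¹)⁻¹ = g * (u * (g⁻¹ * t * g) * u⁻¹) * g⁻¹ := by group
      _ = g * (t * z * ε) * g⁻¹ := by rw [h1, h2]
      _ = (g * t * g⁻¹) * (z * ε) := by
          have : g * (t * z * ε) * g⁻¹ = g * t * (z * ε * g⁻¹) := by group
          have e9 : z * ε * g⁻¹ = g⁻¹ * (z * ε) := by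
            calc z * ε * g⁻¹ = z * (ε * g⁻¹) := by group
              _ = z * (g⁻¹ * ε) := by rw [hεc g⁻¹]
              _ = (z * g⁻¹) * ε := by group
              _ = (g⁻¹ * z) * ε := by rw [hcen g⁻¹]
              _ = _ := by group
          rw [this, e9]
          group
      _ = t * z := by
          rw [he]
          have e1 : t * ε * (z * ε) = t * (ε * z) * ε := by group
          rw [e1, ← hεc z]
          have e2 : t * (z * ε) * ε = t * z * (ε * ε) := by group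
          rw [e2, hε, mul_one]
  rcases hg.2 with h | h
  · exact key 1 (by simp) (by simp) (by simpa using h)
  · exact key z hzz hcen h

theorem mem_of_conj_mem {Q : Subgroup X} {g a : X} (hg : g ∈ normalizer (Q : Set X)) (ha : a ∈ Q) :
    g * a * g⁻¹ ∈ Q := (mem_normalizer_iff.mp hg a).mp ha

/-- Main part of `gel`: a good `v`. -/
theorem exists_good_v {Q : Subgroup X} {z t s : X} (hC : CompZ Q z) (ht : t * t = 1)
    (hn : t ∈ normalizer (Q : Set X)) (hnt : ∃ j ∈ Q, t * j * t⁻¹ ≠ j) (hst : s * t = t * s)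
    (hs2 : IsPGroup 2 ↥(zpowers s)) (hss : s * s ∈ normalizer (Q : Set X))
    (hts : t ∈ zpowers (s * s)) :
    ∃ v ∈ Q, v * t * v⁻¹ = t * z ∧
      (v⁻¹ * ((s * s) * v * (s * s)⁻¹)) ∈ Q ∧
      IsPGroup 2 ↥(zpowers (v⁻¹ * ((s * s) * v * (s * s)⁻¹))) ∧
      v⁻¹ * ((s * s) * v * (s * s)⁻¹) ≠ 1 := by
  classical
  obtain ⟨u, huQ, hut, huu⟩ := Flip.flip hC ht hn hnt
  haveI : Fact (Nat.Prime 2) := ⟨Nat.prime_two⟩
  have hzz := zz_eq hC
  -- `a = s * s ∈ W`
  have hat : (s * s) * t * (s * s)⁻¹ = t := by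
    have : (s * s) * t = t * (s * s) := by
      rw [mul_assoc, hst, ← mul_assoc, hst, mul_assoc]
    rw [this]; group
  have haW : s * s ∈ W hC t := ⟨hss, Or.inl hat⟩
  have huW : u ∈ W hC t := ⟨Subgroup.le_normalizer huQ, Or.inr hut⟩
  let a' : ↥(W hC t) := ⟨s * s, haW⟩
  let u' : ↥(W hC t) := ⟨u, huW⟩
  -- `a'` and `u'` have `2`-power order
  have ha_ord : ∃ k, orderOf a' = 2 ^ k := by
    obtain ⟨k, hk⟩ := (IsPGroup.iff_orderOf.mp hs2)
      ⟨s * s, by rw [← pow_two]; exact pow_mem (mem_zpowers s) 2⟩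
    refine ⟨k, ?_⟩
    rw [← Subgroup.orderOf_coe] at hk ⊢
    exact hk
  have hu_ord : ∃ k, orderOf u' = 2 ^ k := by
    refine ⟨2, ?_⟩
    have h1 : u ^ (2 ^ 2) = 1 := by
      have : u ^ (2 ^ 2) = (u * u) * (u * u) := by
        rw [show (2 ^ 2 : ℕ) = 2 + 2 from rfl, pow_add, pow_two]
      rw [this, huu, hzz]
    have h2 : u ^ 2 ≠ 1 := by
      rw [pow_two, huu]; exact z_ne_one hC
    rw [← Subgroup.orderOf_coe]
    exact orderOf_eq_prime_pow (p := 2) (n := 1) (by simpa using h2) (by simpa using h1)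
  have hpa : IsPGroup 2 ↥(zpowers a') := by
    obtain ⟨k, hk⟩ := ha_ord
    exact IsPGroup.of_card (n := k) (by rw [Nat.card_zpowers, hk])
  have hpu : IsPGroup 2 ↥(zpowers u') := by
    obtain ⟨k, hk⟩ := hu_ord
    exact IsPGroup.of_card (n := k) (by rw [Nat.card_zpowers, hk])
  obtain ⟨T, hT⟩ := hpa.exists_le_sylow
  obtain ⟨T', hT'⟩ := hpu.exists_le_sylow
  obtain ⟨g, hg⟩ := MulAction.exists_smul_eq ↥(W hC t) T' T
  have hu'T' : u' ∈ T' := hT' (mem_zpowers u')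
  have hv'T : g * u' * g⁻¹ ∈ T := by
    rw [← hg]
    have e : ((g • T' : Sylow 2 ↥(W hC t)) : Subgroup ↥(W hC t)) =
        (T' : Subgroup ↥(W hC t)).map (MulAut.conj g).toMonoidHom := by
      rw [Sylow.smul_def, Sylow.pointwise_smul_def]
      rfl
    show g * u' * g⁻¹ ∈ ((g • T' : Sylow 2 ↥(W hC t)) : Subgroup ↥(W hC t))
    rw [e]
    exact ⟨u', hu'T', rfl⟩
  have ha'T : a' ∈ T := hT (mem_zpowers a')
  set v' : ↥(W hC t) := g * u' * g⁻¹ with hv'
  have hvval : (v' : X) = (g : X) * u * (g : X)⁻¹ := rfl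
  have hvQ : (v' : X) ∈ Q := by
    rw [hvval]
    exact mem_of_conj_mem g.2.1 huQ
  have hvt : (v' : X) * t * (v' : X)⁻¹ = t * z := by
    rw [hvval]
    exact flip_conj hC g.2 hut
  have hc'T : v'⁻¹ * (a' * v' * a'⁻¹) ∈ T :=
    mul_mem (inv_mem hv'T) (mul_mem (mul_mem ha'T hv'T) (inv_mem ha'T))
  have hcval : ((v'⁻¹ * (a' * v' * a'⁻¹) : ↥(W hC t)) : X) =
      (v' : X)⁻¹ * ((s * s) * (v' : X) * (s * s)⁻¹) := rfl
  refine ⟨(v' : X), hvQ, hvt, ?_, ?_, ?_⟩
  · exact mul_mem (inv_mem hvQ) (mem_of_conj_mem hss hvQ)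
  · rw [← hcval]
    obtain ⟨k, hk⟩ := (IsPGroup.iff_orderOf.mp T.isPGroup') ⟨_, hc'T⟩
    refine IsPGroup.of_card (n := k) ?_
    rw [Nat.card_zpowers, Subgroup.orderOf_coe]
    rw [Subgroup.orderOf_mk] at hk
    exact hk
  · intro h1
    have h2 : (s * s) * (v' : X) * (s * s)⁻¹ = (v' : X) := by
      have := h1
      rw [inv_mul_eq_one] at this
      exact this.symm
    have h3 : t * (v' : X) * t⁻¹ = (v' : X) := by
      obtain ⟨n, hn⟩ := mem_zpowers_iff.mp hts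
      have hcomm : Commute (s * s) (v' : X) := by
        rw [commute_iff_eq]
        calc (s * s) * (v' : X) = (s * s) * (v' : X) * (s * s)⁻¹ * (s * s) := by group
          _ = _ := by rw [h2]
      have h30 : t * (v' : X) = (v' : X) * t := by
        have := hcomm.zpow_left n
        rw [hn, commute_iff_eq] at this
        exact this
      rw [h30]
      group
    -- then `v` commutes with `t`, so `t * z = t`
    have h4 : (v' : X) * t * (v' : X)⁻¹ = t := by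
      have h5 : t * (v' : X) = (v' : X) * t := by
        calc t * (v' : X) = t * (v' : X) * t⁻¹ * t := by group
          _ = _ := by rw [h3]
      rw [← h5]
      group
    rw [hvt] at h4
    exact z_ne_one hC (by simpa using h4)

/-- `v` conjugated by `t`. -/
theorem t_conj_v {z t v : X} (hcen : ∀ a : X, a * z = z * a) (hzz : z * z = 1) (ht : t * t = 1)
    (hv : v * t * v⁻¹ = t * z) : t * v * t⁻¹ = z * v := by
  have ht' : t⁻¹ = t := inv_eq_of_mul_eq_one_left ht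
  have h1 : v * t = t * z * v := by rw [← hv]; group
  calc t * v * t⁻¹ = t * v * t := by rw [ht']
    _ = t * (t * z * v) := by rw [mul_assoc, h1]
    _ = (t * t) * (z * v) := by group
    _ = z * v := by rw [ht, one_mul]

/-- `s` commutes with `t`, `s` a 2-element, `s² ∈ N(Q)`, `s ∉ N(Q)`, `t ∈ ⟨s²⟩`.
`B = {j ∈ Q | t j t⁻¹ j⁻¹ ∈ {1,z}}` is `s²`-invariant; `C_Q(t)` has index 2 in it (`flip`); pick a
`⟨s²⟩`-invariant Sylow 2-subgroup `P` of `B` (`exists_fixed_of_pGroup`), `v ∈ P \ C_Q(t)`: `c = v⁻¹ * (s² v s⁻²) ∈ P`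
is a 2-element, `c ≠ 1` since `t ∈ ⟨s²⟩` does not commute with `v`.
`g = v * (s v s⁻¹)`: computation using `comm_conj`. -/
theorem gel {Q : Subgroup X} {z t s : X} (hC : CompZ Q z) (ht : t * t = 1)
    (hn : t ∈ normalizer (Q : Set X)) (hnt : ∃ j ∈ Q, t * j * t⁻¹ ≠ j) (hst : s * t = t * s)
    (hs2 : IsPGroup 2 ↥(zpowers s)) (hss : s * s ∈ normalizer (Q : Set X))
    (hsN : s ∉ normalizer (Q : Set X)) (hts : t ∈ zpowers (s * s)) :
    ∃ v ∈ Q, v * t * v⁻¹ = t * z ∧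
      (v⁻¹ * ((s * s) * v * (s * s)⁻¹)) ∈ Q ∧
      IsPGroup 2 ↥(zpowers (v⁻¹ * ((s * s) * v * (s * s)⁻¹))) ∧
      v⁻¹ * ((s * s) * v * (s * s)⁻¹) ≠ 1 ∧
      (v * (s * v * s⁻¹)) * t = t * (v * (s * v * s⁻¹)) ∧
      (v * (s * v * s⁻¹))⁻¹ * (s * (v * (s * v * s⁻¹)) * s⁻¹) = v⁻¹ * ((s * s) * v * (s * s)⁻¹) := by
  obtain ⟨v, hvQ, hvt, hc1, hc2, hc3⟩ := exists_good_v hC ht hn hnt hst hs2 hss hts
  refine ⟨v, hvQ, hvt, hc1, hc2, hc3, ?_, ?_⟩
  · have hcen : ∀ a : X, a * z = z * a := hC.cen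
    have h1 := t_conj_v hcen (zz_eq hC) ht hvt
    have h2 : t * (s * v * s⁻¹) * t⁻¹ = z * (s * v * s⁻¹) := by
      have hts' : t * s = s * t := hst.symm
      have hts'' : s⁻¹ * t⁻¹ = t⁻¹ * s⁻¹ := by
        rw [← mul_inv_rev, ← mul_inv_rev, hst]
      calc t * (s * v * s⁻¹) * t⁻¹ = (t * s) * v * (s⁻¹ * t⁻¹) := by group
        _ = s * (t * v * t⁻¹) * s⁻¹ := by rw [hts', hts'']; group
        _ = s * (z * v) * s⁻¹ := by rw [h1]
        _ = (s * z) * v * s⁻¹ := by group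
        _ = z * (s * v * s⁻¹) := by rw [hcen s]; group
    have h3 : t * (v * (s * v * s⁻¹)) * t⁻¹ = v * (s * v * s⁻¹) := by
      calc t * (v * (s * v * s⁻¹)) * t⁻¹
          = (t * v * t⁻¹) * (t * (s * v * s⁻¹) * t⁻¹) := by group
        _ = (z * v) * (z * (s * v * s⁻¹)) := by rw [h1, h2]
        _ = z * (v * z) * (s * v * s⁻¹) := by group
        _ = (z * z) * v * (s * v * s⁻¹) := by rw [hcen v]; group
        _ = _ := by rw [zz_eq hC]; group
    calc (v * (s * v * s⁻¹)) * t = t * (v * (s * v * s⁻¹)) * t⁻¹ * t := by rw [h3]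
      _ = _ := by group
  · have hcomm := (XDiag.comm_conj hC hsN).1 v⁻¹ (inv_mem hvQ) v hvQ
    calc (v * (s * v * s⁻¹))⁻¹ * (s * (v * (s * v * s⁻¹)) * s⁻¹)
        = (s * v * s⁻¹)⁻¹ * (v⁻¹ * (s * v * s⁻¹)) * ((s * s) * v * (s * s)⁻¹) := by group
      _ = (s * v * s⁻¹)⁻¹ * ((s * v * s⁻¹) * v⁻¹) * ((s * s) * v * (s * s)⁻¹) := by rw [hcomm]
      _ = _ := by group

/-- The case `s * s = t`: use the `v` of `flip` directly. `g = v * (s v s⁻¹)` -/
theorem gel4 {Q : Subgroup X} {z t s : X} (hC : CompZ Q z) (ht : t * t = 1)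
    (hn : t ∈ normalizer (Q : Set X)) (hnt : ∃ j ∈ Q, t * j * t⁻¹ ≠ j) (hst : s * s = t)
    (hsN : s ∉ normalizer (Q : Set X)) :
    ∃ v ∈ Q, v * v = z ∧ v * t * v⁻¹ = t * z ∧
      (v * (s * v * s⁻¹)) * t = t * (v * (s * v * s⁻¹)) ∧
      (v * (s * v * s⁻¹))⁻¹ * (s * (v * (s * v * s⁻¹)) * s⁻¹) = z ∧
      v * s * v⁻¹ = s * (v * (s * v * s⁻¹)) := by
  obtain ⟨v, hvQ, hvt, hvv⟩ := Flip.flip hC ht hn hnt
  have hcen : ∀ a : X, a * z = z * a := hC.cen
  have hzz := zz_eq hC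
  have hzi := z_inv hC
  have h1 := t_conj_v hcen hzz ht hvt
  have hst' : s * t = t * s := by rw [← hst, mul_assoc]
  have h2 : t * (s * v * s⁻¹) * t⁻¹ = z * (s * v * s⁻¹) := by
    have hts' : t * s = s * t := hst'.symm
    have hts'' : s⁻¹ * t⁻¹ = t⁻¹ * s⁻¹ := by
      rw [← mul_inv_rev, ← mul_inv_rev, hst']
    calc t * (s * v * s⁻¹) * t⁻¹ = (t * s) * v * (s⁻¹ * t⁻¹) := by group
      _ = s * (t * v * t⁻¹) * s⁻¹ := by rw [hts', hts'']; group
      _ = s * (z * v) * s⁻¹ := by rw [h1]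
      _ = (s * z) * v * s⁻¹ := by group
      _ = z * (s * v * s⁻¹) := by rw [hcen s]; group
  have h3 : t * (v * (s * v * s⁻¹)) * t⁻¹ = v * (s * v * s⁻¹) := by
    calc t * (v * (s * v * s⁻¹)) * t⁻¹
        = (t * v * t⁻¹) * (t * (s * v * s⁻¹) * t⁻¹) := by group
      _ = (z * v) * (z * (s * v * s⁻¹)) := by rw [h1, h2]
      _ = z * (v * z) * (s * v * s⁻¹) := by group
      _ = (z * z) * v * (s * v * s⁻¹) := by rw [hcen v]; group
      _ = _ := by rw [hzz]; group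
  have hcomm := (XDiag.comm_conj hC hsN).1 v⁻¹ (inv_mem hvQ) v hvQ
  have hcomm' := (XDiag.comm_conj hC hsN).1 v hvQ v hvQ
  have hss2 : (s * s) * v * (s * s)⁻¹ = z * v := by rw [hst, h1]
  refine ⟨v, hvQ, hvv, hvt, ?_, ?_, ?_⟩
  · calc (v * (s * v * s⁻¹)) * t = t * (v * (s * v * s⁻¹)) * t⁻¹ * t := by rw [h3]
      _ = _ := by group
  · calc (v * (s * v * s⁻¹))⁻¹ * (s * (v * (s * v * s⁻¹)) * s⁻¹)
        = (s * v * s⁻¹)⁻¹ * (v⁻¹ * (s * v * s⁻¹)) * ((s * s) * v * (s * s)⁻¹) := by group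
      _ = (s * v * s⁻¹)⁻¹ * ((s * v * s⁻¹) * v⁻¹) * (z * v) := by rw [hcomm, hss2]
      _ = v⁻¹ * (z * v) := by group
      _ = v⁻¹ * (v * z) := by rw [hcen v]
      _ = z := by group
  · -- `s⁻¹ * v * s = z * (s * v * s⁻¹)`
    have h4 : s⁻¹ * v * s = z * (s * v * s⁻¹) := by
      have hs' : s⁻¹ = s * t⁻¹ := by
        rw [← hst]; group
      have hs'' : s = t * s⁻¹ := by
        rw [← hst]; group
      have ht' : t⁻¹ = t := inv_eq_of_mul_eq_one_left ht
      calc s⁻¹ * v * s = (s * t⁻¹) * v * s := by rw [← hs']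
        _ = (s * t⁻¹) * v * (t * s⁻¹) := by rw [← hs'']
        _ = s * (t⁻¹ * v * t) * s⁻¹ := by group
        _ = s * (t * v * t⁻¹) * s⁻¹ := by rw [ht']
        _ = s * (z * v) * s⁻¹ := by rw [h1]
        _ = (s * z) * v * s⁻¹ := by group
        _ = z * (s * v * s⁻¹) := by rw [hcen s]; group
    calc v * s * v⁻¹ = s * (s⁻¹ * v * s) * v⁻¹ := by group
      _ = s * (z * (s * v * s⁻¹)) * v⁻¹ := by rw [h4]
      _ = s * (z * ((s * v * s⁻¹) * v⁻¹)) := by group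
      _ = s * (z * (v⁻¹ * (s * v * s⁻¹))) := by rw [hcomm]
      _ = s * ((z * v⁻¹) * (s * v * s⁻¹)) := by group
      _ = s * (v * (s * v * s⁻¹)) := by
          have h5 : z * v⁻¹ = v := by rw [← hvv]; group
          rw [h5]

end Cfsg.Agent.Lib.IntrSL.XGel
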