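/-
S1315 G-level. The case s * s = y, first part. See PLAN.md.
-/
import Cfsg.Agent.Lib.IntrSL.GBg
import Cfsg.Agent.Lib.IntrSL.XGel
import Cfsg.Agent.Lib.IntrSL.Lift

set_option autoImplicit false
set_option linter.style.haveILetI false
set_option linter.unusedSectionVars false

namespace Cfsg.Agent.Lib.IntrSL.GB4a

open Subgroup Cfsg Cfsg.Agent.Lib.BpBalance.Basic Cfsg.Agent.Lib.Subnormal.Basic
  Cfsg.Agent.Lib.PTerm.Rel Cfsg.Agent.Lib.PTerm.Dict Cfsg.Agent.Lib.IntrSL.Defs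
  Cfsg.Agent.Lib.IntrSL.Transport
open scoped commutatorElement Pointwise

universe u

variable {G : Type u} [Group G] [Finite G]

/-- Four-group. -/
def four (a b : G) (haa : a * a = 1) (hbb : b * b = 1) (hab : a * b = b * a) : Subgroup G where
  carrier := {e | e = 1 ∨ e = a ∨ e = b ∨ e = b * a}
  one_mem' := Or.inl rfl
  mul_mem' := by
    have e1 : ∀ u : G, u * u = 1 → ∀ v : G, u * (u * v) = v := fun u hu v => by
      rw [← mul_assoc, hu, one_mul]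
    have h1 : a * (b * a) = b := by rw [← mul_assoc, hab, mul_assoc, haa, mul_one]
    have h2 : b * (b * a) = a := e1 b hbb a
    have h3 : b * a * a = b := by rw [mul_assoc, haa, mul_one]
    have h4 : b * a * b = a := by rw [← hab, mul_assoc, hbb, mul_one]
    have h5 : b * a * (b * a) = 1 := by
      rw [← mul_assoc, h4, haa]
    rintro u v (rfl | rfl | rfl | rfl) (rfl | rfl | rfl | rfl) <;>
      simp [haa, hbb, hab, h1, h2, h3, h4, h5]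
  inv_mem' := by
    have h5 : b * a * (b * a) = 1 := by
      rw [← mul_assoc]
      have h4 : b * a * b = a := by rw [← hab, mul_assoc, hbb, mul_one]
      rw [h4, haa]
    rintro u (rfl | rfl | rfl | rfl)
    · simp
    · right; left; exact inv_eq_of_mul_eq_one_left haa
    · right; right; left; exact inv_eq_of_mul_eq_one_left hbb
    · right; right; right; exact inv_eq_of_mul_eq_one_left h5

/-- Lift of an action on a four-group fixing `a` and sending `b` to `b * a`. -/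
theorem lift_flip {H O : Subgroup G} (hO : O ≤ H)
    (hnO : ∀ h ∈ H, ∀ a ∈ O, h * a * h⁻¹ ∈ O) (hcop : (Nat.card O).Coprime 2) {a b g : G}
    (haH : a ∈ H) (hbH : b ∈ H) (haa : a * a = 1) (hbb : b * b = 1) (hab : a * b = b * a)
    (hne : a ≠ b) (ha1 : a ≠ 1) (hb1 : b ≠ 1) (hg : g ∈ H) (h1 : (g * a * g⁻¹) * a⁻¹ ∈ O)
    (h2 : (g * b * g⁻¹) * (b * a)⁻¹ ∈ O) :
    ∃ o ∈ O, (o * g) * a * (o * g)⁻¹ = a ∧ (o * g) * b * (o * g)⁻¹ = b * a := by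
  classical
  haveI : Fact (Nat.Prime 2) := ⟨Nat.prime_two⟩
  let E := four a b haa hbb hab
  have hmemE : ∀ e, e ∈ E ↔ e = 1 ∨ e = a ∨ e = b ∨ e = b * a := fun e => Iff.rfl
  have hE : E ≤ H := by
    intro e he
    rcases (hmemE e).mp he with rfl | rfl | rfl | rfl
    · exact H.one_mem
    · exact haH
    · exact hbH
    · exact H.mul_mem hbH haH
  have hsq : ∀ e ∈ E, e * e = 1 := by
    intro e he
    rcases (hmemE e).mp he with rfl | rfl | rfl | rfl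
    · simp
    · exact haa
    · exact hbb
    · calc b * a * (b * a) = b * (a * b) * a := by group
        _ = b * (b * a) * a := by rw [hab]
        _ = (b * b) * (a * a) := by group
        _ = 1 := by rw [haa, hbb, one_mul]
  have hE2 : IsPGroup 2 ↥E := by
    intro e
    refine ⟨1, ?_⟩
    apply Subtype.ext
    show (e : G) ^ (2 ^ 1) = 1
    rw [pow_one, sq]
    exact hsq e e.2
  have hba1 : b * a ≠ 1 := by
    intro h
    apply hne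
    have : a = b⁻¹ := eq_inv_of_mul_eq_one_right h
    rw [this]
    exact inv_eq_of_mul_eq_one_left hbb
  have hbaa : b * a ≠ a := fun h => hb1 (by simpa using h)
  have hbab : b * a ≠ b := fun h => ha1 (by simpa using h)
  let φ : G → G := fun e => if e = 1 then 1 else if e = a then a else if e = b then b * a else b
  have hφ1 : φ 1 = 1 := by simp [φ]
  have hφa : φ a = a := by simp [φ, ha1]
  have hφb : φ b = b * a := by simp [φ, hb1, hne.symm]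
  have hφc : φ (b * a) = b := by simp [φ, hba1, hbaa, hbab]
  obtain ⟨o, ho, h⟩ := Cfsg.Agent.Lib.IntrSL.Lift.lift_action hO hnO hcop hE hE2 hg φ (by
    intro e he
    rcases (hmemE e).mp he with he' | he' | he' | he' <;> rw [he']
    · rw [hφ1]
      refine ⟨E.one_mem, ?_⟩
      have : g * 1 * g⁻¹ * (1 : G)⁻¹ = 1 := by group
      rw [this]; exact O.one_mem
    · rw [hφa]
      exact ⟨(hmemE a).mpr (Or.inr (Or.inl rfl)), h1⟩
    · rw [hφb]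
      exact ⟨(hmemE _).mpr (Or.inr (Or.inr (Or.inr rfl))), h2⟩
    · rw [hφc]
      refine ⟨(hmemE b).mpr (Or.inr (Or.inr (Or.inl rfl))), ?_⟩
      have hainv : a⁻¹ = a := inv_eq_of_mul_eq_one_left haa
      have e2 : g * (b * a) * g⁻¹ * b⁻¹ =
          ((g * b * g⁻¹) * (b * a)⁻¹) * ((b * a) * ((g * a * g⁻¹) * a⁻¹) * (b * a)⁻¹) *
            ((b * a) * a * b⁻¹) := by group
      have e3 : (b * a) * a * b⁻¹ = 1 := by
        rw [mul_assoc b a a, haa]; group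
      rw [e2, e3, mul_one]
      exact O.mul_mem h2 (hnO _ (H.mul_mem hbH haH) _ h1))
  exact ⟨o, ho, by rw [h a ((hmemE a).mpr (Or.inr (Or.inl rfl))), hφa],
    by rw [h b ((hmemE b).mpr (Or.inr (Or.inr (Or.inl rfl)))), hφb]⟩

/-- The conjugate of an element of `C(x) ⊓ C(y)` by an element swapping `x` and `x * y`. -/
theorem conj_mem_N {x y w a : G} (hc : x * y = y * x) (hyy : y * y = 1)
    (hwx : w * x * w⁻¹ = x * y) (hwy : w * y * w⁻¹ = y) (ha : a ∈ CC x ⊓ CC y) :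
    w * a * w⁻¹ ∈ CC x ⊓ CC y := by
  obtain ⟨hax, hay⟩ := ha
  have hax' : a * x = x * a := mem_CC.mp hax
  have hay' : a * y = y * a := mem_CC.mp hay
  have h1 : (w * a * w⁻¹) * y = y * (w * a * w⁻¹) := by
    calc (w * a * w⁻¹) * y = (w * a * w⁻¹) * (w * y * w⁻¹) := by rw [hwy]
      _ = w * (a * y) * w⁻¹ := by group
      _ = w * (y * a) * w⁻¹ := by rw [hay']
      _ = (w * y * w⁻¹) * (w * a * w⁻¹) := by group
      _ = y * (w * a * w⁻¹) := by rw [hwy]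
  have h2 : (w * a * w⁻¹) * (x * y) = (x * y) * (w * a * w⁻¹) := by
    calc (w * a * w⁻¹) * (x * y) = (w * a * w⁻¹) * (w * x * w⁻¹) := by rw [hwx]
      _ = w * (a * x) * w⁻¹ := by group
      _ = w * (x * a) * w⁻¹ := by rw [hax']
      _ = (w * x * w⁻¹) * (w * a * w⁻¹) := by group
      _ = (x * y) * (w * a * w⁻¹) := by rw [hwx]
  refine ⟨mem_CC.mpr ?_, mem_CC.mpr h1⟩
  have h3 : (w * a * w⁻¹) * x * y = x * (w * a * w⁻¹) * y := by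
    calc (w * a * w⁻¹) * x * y = (w * a * w⁻¹) * (x * y) := by group
      _ = (x * y) * (w * a * w⁻¹) := h2
      _ = x * (y * (w * a * w⁻¹)) := by group
      _ = x * ((w * a * w⁻¹) * y) := by rw [h1]
      _ = x * (w * a * w⁻¹) * y := by group
  exact mul_right_cancel h3

theorem pg_of_pow {A : Type*} [Group A] {a : A} (k : ℕ) (h : a ^ (2 ^ k) = 1) :
    IsPGroup 2 ↥(zpowers a) := by
  rintro ⟨c, hc⟩
  obtain ⟨n, rfl⟩ := mem_zpowers_iff.mp hc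
  refine ⟨k, ?_⟩
  apply Subtype.ext
  show (a ^ n) ^ (2 ^ k) = 1
  rw [← zpow_natCast, ← zpow_mul, mul_comm, zpow_mul, zpow_natCast, h, one_zpow]

theorem mem_OC_of_left {x y a : G} (ha : a ∈ OC 2 (CC x)) (hy : a ∈ CC y) :
    a ∈ OC 2 (CC x ⊓ CC y) := OC_inf x y ⟨ha, hy⟩

theorem mem_OC_of_right {x y a : G} (ha : a ∈ OC 2 (CC y)) (hx : a ∈ CC x) :
    a ∈ OC 2 (CC x ⊓ CC y) := by
  have := OC_inf y x ⟨ha, hx⟩
  rwa [inf_comm] at this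

/-- **B4a.** See PLAN.md. There is a second `SLComp` at `x` containing `ρ ∈ C(x) ⊓ C(y)` with
`ρ s ρ⁻¹ s⁻¹ ≡ x y` modulo `O(C(x) ⊓ C(y))`. -/
theorem b4_rho {J K : Subgroup G} {x y s : G} (hJ : SLComp J x) (hK : SLComp K y) (hxy : x ≠ y)
    (hc : x * y = y * x) (hn : x ∈ normalizer (K : Set G)) (hs : s ∈ K) (hsx : s * x = x * s)
    (hss : s * s = y) (hsJ : s ∉ normalizer (J : Set G)) (hyJ : y ∈ normalizer (J : Set G))
    (hyn : ¬ ∀ j ∈ J, y * j * y⁻¹ * j⁻¹ ∈ OC 2 J) :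
    ∃ (K' : Subgroup G) (ρ : G), SLComp K' x ∧ qcard K' = qcard K ∧ ρ ∈ K' ∧ ρ ∈ CC x ⊓ CC y ∧
      (ρ * s * ρ⁻¹ * s⁻¹) * (x * y)⁻¹ ∈ OC 2 (CC x ⊓ CC y) := by
  classical
  haveI : Fact (Nat.Prime 2) := ⟨Nat.prime_two⟩
  have hxx : x * x = 1 := by
    have := pow_orderOf_eq_one x
    rwa [hJ.ord, sq] at this
  have hyy : y * y = 1 := by
    have := pow_orderOf_eq_one y
    rwa [hK.ord, sq] at this
  have hxinv : x⁻¹ = x := inv_eq_of_mul_eq_one_left hxx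
  have hyinv : y⁻¹ = y := inv_eq_of_mul_eq_one_left hyy
  have hx1 : x ≠ 1 := by
    intro h
    have := hJ.ord
    rw [h, orderOf_one] at this
    omega
  have hy1 : y ≠ 1 := by
    intro h
    have := hK.ord
    rw [h, orderOf_one] at this
    omega
  have hyx : y ∈ CC x := mem_CC.mpr hc.symm
  have hxy' : x ∈ CC y := mem_CC.mpr hc
  have hsxC : s ∈ CC x := mem_CC.mpr hsx
  have hsy : s * y = y * s := by rw [← hss]; group
  have hsyC : s ∈ CC y := mem_CC.mpr hsy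
  have hs2 : IsPGroup 2 ↥(zpowers s) := by
    apply pg_of_pow 2
    calc s ^ (2 ^ 2) = (s * s) * (s * s) := by norm_num [pow_succ, mul_assoc]
      _ = 1 := by rw [hss, hyy]
  -- In `Bar x`.
  have hC := compZ_img hJ
  have htt : bar x ⟨y, hyx⟩ * bar x ⟨y, hyx⟩ = 1 := by
    rw [← map_mul]
    have : (⟨y, hyx⟩ * ⟨y, hyx⟩ : ↥(CC x)) = 1 := Subtype.ext hyy
    rw [this, map_one]
  have hnT : bar x ⟨y, hyx⟩ ∈ normalizer ((img x J : Subgroup (Bar x)) : Set (Bar x)) :=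
    (mem_norm_iff hJ ⟨y, hyx⟩).mpr hyJ
  have hnt : ∃ j ∈ img x J, bar x ⟨y, hyx⟩ * j * (bar x ⟨y, hyx⟩)⁻¹ ≠ j := by
    by_contra hcon
    push Not at hcon
    apply hyn
    refine ((cent_iff hJ ⟨y, hyx⟩).mp ?_).2
    intro q hq
    have := hcon q hq
    calc bar x ⟨y, hyx⟩ * q = (bar x ⟨y, hyx⟩ * q * (bar x ⟨y, hyx⟩)⁻¹) * bar x ⟨y, hyx⟩ := by group
      _ = q * bar x ⟨y, hyx⟩ := by rw [this]
  have hst : bar x ⟨s, hsxC⟩ * bar x ⟨s, hsxC⟩ = bar x ⟨y, hyx⟩ := by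
    rw [← map_mul]
    congr 1
    exact Subtype.ext hss
  have hsN : bar x ⟨s, hsxC⟩ ∉ normalizer ((img x J : Subgroup (Bar x)) : Set (Bar x)) :=
    fun h => hsJ ((mem_norm_iff hJ _).mp h)
  obtain ⟨v, hv, hvv, hvt, hgt, hgz, hvs⟩ := XGel.gel4 hC htt hnT hnt hst hsN
  obtain ⟨g₀, hg₀y, hg₀⟩ := lift_centralizer hyx hyy hgt
  -- `C`
  have hCx : (g₀ : G)⁻¹ * (s * g₀ * s⁻¹) ∈ CC x :=
    (CC x).mul_mem ((CC x).inv_mem g₀.2) ((CC x).mul_mem ((CC x).mul_mem hsxC g₀.2) ((CC x).inv_mem hsxC))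
  have hbarC : bar x ⟨(g₀ : G)⁻¹ * (s * g₀ * s⁻¹), hCx⟩ = barz x := by
    have e : (⟨(g₀ : G)⁻¹ * (s * g₀ * s⁻¹), hCx⟩ : ↥(CC x)) =
        g₀⁻¹ * (⟨s, hsxC⟩ * g₀ * (⟨s, hsxC⟩ : ↥(CC x))⁻¹) := rfl
    rw [e, map_mul, map_inv, map_mul, map_mul, map_inv, hg₀]
    exact hgz
  have hz : barz x * barz x = 1 := by
    rw [← map_mul]
    have : (⟨x, self_mem_CC x⟩ * ⟨x, self_mem_CC x⟩ : ↥(CC x)) = 1 := Subtype.ext hxx
    rw [this, map_one]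
  have hz1 : barz x ≠ 1 := by
    have h := hC.qt.ord
    intro hh
    have : (⟨barz x, hC.mem⟩ : ↥(img x J)) = 1 := Subtype.ext hh
    rw [this, orderOf_one] at h
    omega
  obtain ⟨hg₀K, -, hCO⟩ := GBg.bg hJ hK hxy hc hyJ g₀.2 hg₀y hs hsx hs2 hsJ hCx
    (by rw [hbarC]; exact hC.mem)
    (by
      rw [hbarC]
      apply pg_of_pow 1
      rw [pow_one, sq]
      exact hz)
    (by rw [hbarC]; exact hz1)
  -- In `Bar y`.
  have hD := compZ_img hK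
  have hgbN : (bar y ⟨g₀, hg₀y⟩)⁻¹ ∉ normalizer ((img y K : Subgroup (Bar y)) : Set (Bar y)) := by
    intro h
    apply hg₀K
    apply (mem_norm_iff hK ⟨g₀, hg₀y⟩).mp
    have := (normalizer ((img y K : Subgroup (Bar y)) : Set (Bar y))).inv_mem h
    rwa [inv_inv] at this
  have hshK : bar y ⟨s, hsyC⟩ ∈ img y K := mem_img_iff.mpr ⟨⟨s, hsyC⟩, hs, rfl⟩
  have hCy : (g₀ : G)⁻¹ * (s * g₀ * s⁻¹) ∈ CC y :=
    (CC y).mul_mem ((CC y).inv_mem hg₀y) ((CC y).mul_mem ((CC y).mul_mem hsyC hg₀y) ((CC y).inv_mem hsyC))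
  have hbarCy : bar y ⟨(g₀ : G)⁻¹ * (s * g₀ * s⁻¹), hCy⟩ = bar y ⟨x, hxy'⟩ :=
    (bar_eq_iff _ _).mpr hCO
  have hCy2 : (bar y ⟨g₀, hg₀y⟩)⁻¹ * (bar y ⟨s, hsyC⟩ * bar y ⟨g₀, hg₀y⟩ * (bar y ⟨s, hsyC⟩)⁻¹) =
      bar y ⟨x, hxy'⟩ := by
    rw [← hbarCy]
    have e : (⟨(g₀ : G)⁻¹ * (s * g₀ * s⁻¹), hCy⟩ : ↥(CC y)) =
        (⟨g₀, hg₀y⟩ : ↥(CC y))⁻¹ * (⟨s, hsyC⟩ * ⟨g₀, hg₀y⟩ * (⟨s, hsyC⟩ : ↥(CC y))⁻¹) := rfl
    rw [e, map_mul, map_inv, map_mul, map_mul, map_inv]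
  have hconj2 : (bar y ⟨g₀, hg₀y⟩)⁻¹ * bar y ⟨s, hsyC⟩ * (bar y ⟨g₀, hg₀y⟩)⁻¹⁻¹ =
      bar y ⟨x, hxy'⟩ * bar y ⟨s, hsyC⟩ := by
    rw [← hCy2]
    group
  have hcomm : ∀ a ∈ img y K, a * (bar y ⟨x, hxy'⟩ * bar y ⟨s, hsyC⟩) =
      (bar y ⟨x, hxy'⟩ * bar y ⟨s, hsyC⟩) * a := by
    intro a ha
    have := (XDiag.comm_conj hD hgbN).1 a ha _ hshK
    rwa [hconj2] at this
  have hxhs : bar y ⟨x, hxy'⟩ * bar y ⟨s, hsyC⟩ = bar y ⟨s, hsyC⟩ * bar y ⟨x, hxy'⟩ := by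
    rw [← map_mul, ← map_mul]
    congr 1
    exact Subtype.ext hsx.symm
  have hxhN : bar y ⟨x, hxy'⟩ ∈ normalizer ((img y K : Subgroup (Bar y)) : Set (Bar y)) :=
    (mem_norm_iff hK ⟨x, hxy'⟩).mpr hn
  have hxhxh : bar y ⟨x, hxy'⟩ * bar y ⟨x, hxy'⟩ = 1 := by
    rw [← map_mul]
    have : (⟨x, hxy'⟩ * ⟨x, hxy'⟩ : ↥(CC y)) = 1 := Subtype.ext hxx
    rw [this, map_one]
  have hyh : barz y * barz y = 1 := by
    rw [← map_mul]
    have : (⟨y, self_mem_CC y⟩ * ⟨y, self_mem_CC y⟩ : ↥(CC y)) = 1 := Subtype.ext hyy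
    rw [this, map_one]
  have hyh1 : barz y ≠ 1 := by
    have h := hD.qt.ord
    intro hh
    have : (⟨barz y, hD.mem⟩ : ↥(img y K)) = 1 := Subtype.ext hh
    rw [this, orderOf_one] at h
    omega
  have hshsh : bar y ⟨s, hsyC⟩ * bar y ⟨s, hsyC⟩ = barz y := by
    rw [← map_mul]
    congr 1
    exact Subtype.ext hss
  have hnt2 : ∃ j ∈ img y K, bar y ⟨x, hxy'⟩ * j * (bar y ⟨x, hxy'⟩)⁻¹ ≠ j := by
    by_contra hcon
    push Not at hcon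
    have hcen : (⟨bar y ⟨s, hsyC⟩, hshK⟩ : ↥(img y K)) ∈ Subgroup.center ↥(img y K) := by
      rw [Subgroup.mem_center_iff]
      rintro ⟨a, ha⟩
      apply Subtype.ext
      show a * bar y ⟨s, hsyC⟩ = bar y ⟨s, hsyC⟩ * a
      have h1 := hcomm a ha
      have h2 := hcon a ha
      have h3 : bar y ⟨x, hxy'⟩ * a = a * bar y ⟨x, hxy'⟩ := by
        calc bar y ⟨x, hxy'⟩ * a = (bar y ⟨x, hxy'⟩ * a * (bar y ⟨x, hxy'⟩)⁻¹) * bar y ⟨x, hxy'⟩ := by group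
          _ = a * bar y ⟨x, hxy'⟩ := by rw [h2]
      have h4 : bar y ⟨x, hxy'⟩ * (a * bar y ⟨s, hsyC⟩) = bar y ⟨x, hxy'⟩ * (bar y ⟨s, hsyC⟩ * a) := by
        calc bar y ⟨x, hxy'⟩ * (a * bar y ⟨s, hsyC⟩) = (bar y ⟨x, hxy'⟩ * a) * bar y ⟨s, hsyC⟩ := by group
          _ = (a * bar y ⟨x, hxy'⟩) * bar y ⟨s, hsyC⟩ := by rw [h3]
          _ = a * (bar y ⟨x, hxy'⟩ * bar y ⟨s, hsyC⟩) := by group
          _ = (bar y ⟨x, hxy'⟩ * bar y ⟨s, hsyC⟩) * a := h1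
          _ = bar y ⟨x, hxy'⟩ * (bar y ⟨s, hsyC⟩ * a) := by group
      exact mul_left_cancel h4
    rcases (hD.qt.center_iff _).mp hcen with h | h
    · have h5 : bar y ⟨s, hsyC⟩ = 1 := congrArg Subtype.val h
      rw [h5, one_mul] at hshsh
      exact hyh1 hshsh.symm
    · have h5 : bar y ⟨s, hsyC⟩ = barz y := congrArg Subtype.val h
      rw [h5, hyh] at hshsh
      exact hyh1 hshsh.symm
  obtain ⟨u, hu, hux, huu⟩ := Flip.flip hD hxhxh hxhN hnt2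
  have hsinv : barz y * bar y ⟨s, hsyC⟩ = (bar y ⟨s, hsyC⟩)⁻¹ := by
    apply eq_inv_of_mul_eq_one_left
    rw [mul_assoc, hshsh, hyh]
  have hus : u * bar y ⟨s, hsyC⟩ * u⁻¹ = (bar y ⟨s, hsyC⟩)⁻¹ := by
    have h1 := hcomm u hu
    have h2 : (u * bar y ⟨x, hxy'⟩ * u⁻¹) * (u * bar y ⟨s, hsyC⟩ * u⁻¹) =
        bar y ⟨x, hxy'⟩ * bar y ⟨s, hsyC⟩ := by
      calc (u * bar y ⟨x, hxy'⟩ * u⁻¹) * (u * bar y ⟨s, hsyC⟩ * u⁻¹)
          = (u * (bar y ⟨x, hxy'⟩ * bar y ⟨s, hsyC⟩)) * u⁻¹ := by group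
        _ = ((bar y ⟨x, hxy'⟩ * bar y ⟨s, hsyC⟩) * u) * u⁻¹ := by rw [h1]
        _ = _ := by group
    rw [hux, mul_assoc] at h2
    have h3 := mul_left_cancel h2
    rw [← hsinv]
    calc u * bar y ⟨s, hsyC⟩ * u⁻¹ = barz y * (barz y * (u * bar y ⟨s, hsyC⟩ * u⁻¹)) := by
          rw [← mul_assoc, hyh, one_mul]
      _ = barz y * bar y ⟨s, hsyC⟩ := by rw [h3]
  -- Lifts.
  obtain ⟨h₀, -, hh₀⟩ := mem_img_iff.mp hv
  obtain ⟨w₀, -, hw₀⟩ := mem_img_iff.mp hu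
  have hOx : ∀ h ∈ CC x, ∀ a ∈ OC 2 (CC x), h * a * h⁻¹ ∈ OC 2 (CC x) := fun h hh a ha => conj_mem_OC hh ha
  have hOy : ∀ h ∈ CC y, ∀ a ∈ OC 2 (CC y), h * a * h⁻¹ ∈ OC 2 (CC y) := fun h hh a ha => conj_mem_OC hh ha
  obtain ⟨o, ho, hhx, hhy⟩ := lift_flip (H := CC x) (O := OC 2 (CC x)) (OC_le _) hOx (OC_coprime _)
    (self_mem_CC x) hyx hxx hyy hc hxy hx1 hy1 h₀.2
    (by
      have : (h₀ : G) * x * (h₀ : G)⁻¹ * x⁻¹ = 1 := by
        rw [show (h₀ : G) * x = x * h₀ from mem_CC.mp h₀.2]; group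
      rw [this]; exact (OC 2 (CC x)).one_mem)
    (by
      have hmem : (h₀ : G) * y * (h₀ : G)⁻¹ ∈ CC x :=
        (CC x).mul_mem ((CC x).mul_mem h₀.2 hyx) ((CC x).inv_mem h₀.2)
      have hmem2 : y * x ∈ CC x := (CC x).mul_mem hyx (self_mem_CC x)
      refine (bar_eq_iff ⟨_, hmem⟩ ⟨_, hmem2⟩).mp ?_
      have e1 : (⟨(h₀ : G) * y * (h₀ : G)⁻¹, hmem⟩ : ↥(CC x)) = h₀ * ⟨y, hyx⟩ * h₀⁻¹ := rfl
      have e2 : (⟨y * x, hmem2⟩ : ↥(CC x)) = ⟨y, hyx⟩ * ⟨x, self_mem_CC x⟩ := rfl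
      rw [e1, e2, map_mul, map_mul, map_inv, map_mul, hh₀]
      exact hvt)
  obtain ⟨o', ho', hwy, hwx⟩ := lift_flip (H := CC y) (O := OC 2 (CC y)) (OC_le _) hOy (OC_coprime _)
    (self_mem_CC y) hxy' hyy hxx hc.symm hxy.symm hy1 hx1 w₀.2
    (by
      have : (w₀ : G) * y * (w₀ : G)⁻¹ * y⁻¹ = 1 := by
        rw [show (w₀ : G) * y = y * w₀ from mem_CC.mp w₀.2]; group
      rw [this]; exact (OC 2 (CC y)).one_mem)
    (by
      have hmem : (w₀ : G) * x * (w₀ : G)⁻¹ ∈ CC y :=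
        (CC y).mul_mem ((CC y).mul_mem w₀.2 hxy') ((CC y).inv_mem w₀.2)
      have hmem2 : x * y ∈ CC y := (CC y).mul_mem hxy' (self_mem_CC y)
      refine (bar_eq_iff ⟨_, hmem⟩ ⟨_, hmem2⟩).mp ?_
      have e1 : (⟨(w₀ : G) * x * (w₀ : G)⁻¹, hmem⟩ : ↥(CC y)) = w₀ * ⟨x, hxy'⟩ * w₀⁻¹ := rfl
      have e2 : (⟨x * y, hmem2⟩ : ↥(CC y)) = ⟨x, hxy'⟩ * ⟨y, self_mem_CC y⟩ := rfl
      rw [e1, e2, map_mul, map_mul, map_inv, map_mul, hw₀]
      exact hux)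
  -- `h`, `w`.
  obtain ⟨h, hhdef⟩ : ∃ h, h = o * (h₀ : G) := ⟨_, rfl⟩
  obtain ⟨w, hwdef⟩ : ∃ w, w = o' * (w₀ : G) := ⟨_, rfl⟩
  rw [← hhdef] at hhx hhy
  rw [← hwdef] at hwy hwx
  have hhC : h ∈ CC x := by
    rw [hhdef]
    exact (CC x).mul_mem (OC_le _ ho) h₀.2
  have hwC : w ∈ CC y := by
    rw [hwdef]
    exact (CC y).mul_mem (OC_le _ ho') w₀.2
  have hbarh : bar x ⟨h, hhC⟩ = v := by
    rw [← hh₀]
    apply (bar_eq_iff _ _).mpr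
    show h * (h₀ : G)⁻¹ ∈ _
    rw [hhdef]
    simpa using ho
  have hbarw : bar y ⟨w, hwC⟩ = u := by
    rw [← hw₀]
    apply (bar_eq_iff _ _).mpr
    show w * (w₀ : G)⁻¹ ∈ _
    rw [hwdef]
    simpa using ho'
  -- `w⁻¹` on `x` and `y`.
  have hwy' : w⁻¹ * y * w⁻¹⁻¹ = y := by
    rw [inv_inv]
    calc w⁻¹ * y * w = w⁻¹ * (w * y * w⁻¹) * w := by rw [hwy]
      _ = y := by group
  have hwx' : w⁻¹ * x * w⁻¹⁻¹ = x * y := by
    rw [inv_inv]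
    have h1 : x = (w⁻¹ * x * w) * y := by
      calc x = w⁻¹ * (w * x * w⁻¹) * w := by group
        _ = w⁻¹ * (x * y) * w := by rw [hwx]
        _ = (w⁻¹ * x * w) * (w⁻¹ * y * w) := by group
        _ = (w⁻¹ * x * w) * y := by
          have : w⁻¹ * y * w = y := by simpa using hwy'
          rw [this]
    calc w⁻¹ * x * w = (w⁻¹ * x * w) * y * y := by rw [mul_assoc _ y y, hyy, mul_one]
      _ = x * y := by rw [← h1]
  have hNw : Kc w⁻¹ (CC x ⊓ CC y) = CC x ⊓ CC y := by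
    apply le_antisymm
    · intro a ha
      have h1 := mem_Kc.mp ha
      have h2 := conj_mem_N hc hyy hwx' hwy' h1
      have e : w⁻¹ * (w⁻¹⁻¹ * a * w⁻¹) * w⁻¹⁻¹ = a := by group
      rwa [e] at h2
    · intro a ha
      apply mem_Kc.mpr
      have := conj_mem_N hc hyy hwx hwy ha
      simpa using this
  have hYw : Kc w⁻¹ (CC y) = CC y := by
    rw [Kc_CC, hwy']
  have hOw : ∀ a ∈ OC 2 (CC x ⊓ CC y), w⁻¹ * a * w ∈ OC 2 (CC x ⊓ CC y) := by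
    intro a ha
    have := conj_mem_OC_Kc w⁻¹ ha
    rw [hNw, inv_inv] at this
    exact this
  have hOYw : ∀ a ∈ OC 2 (CC y), w⁻¹ * a * w ∈ OC 2 (CC y) := by
    intro a ha
    have := conj_mem_OC_Kc w⁻¹ ha
    rw [hYw, inv_inv] at this
    exact this
  have hconjN : ∀ a ∈ CC x ⊓ CC y, w⁻¹ * a * w ∈ CC x ⊓ CC y := by
    intro a ha
    have := conj_mem_N hc hyy hwx' hwy' ha
    rwa [inv_inv] at this
  -- Elements of `N`.
  have hsN' : s ∈ CC x ⊓ CC y := ⟨hsxC, hsyC⟩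
  have hg₀N : (g₀ : G) ∈ CC x ⊓ CC y := ⟨g₀.2, hg₀y⟩
  have hσN : h * s * h⁻¹ ∈ CC x ⊓ CC y := by
    refine ⟨(CC x).mul_mem ((CC x).mul_mem hhC hsxC) ((CC x).inv_mem hhC), ?_⟩
    have h1 : (h * s * h⁻¹) * (y * x) = (y * x) * (h * s * h⁻¹) := by
      calc (h * s * h⁻¹) * (y * x) = (h * s * h⁻¹) * (h * y * h⁻¹) := by rw [hhy]
        _ = h * (s * y) * h⁻¹ := by group
        _ = h * (y * s) * h⁻¹ := by rw [hsy]
        _ = (h * y * h⁻¹) * (h * s * h⁻¹) := by group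
        _ = (y * x) * (h * s * h⁻¹) := by rw [hhy]
    have h2 : (h * s * h⁻¹) * x = x * (h * s * h⁻¹) :=
      mem_CC.mp ((CC x).mul_mem ((CC x).mul_mem hhC hsxC) ((CC x).inv_mem hhC))
    apply mem_CC.mpr
    have h3 : (h * s * h⁻¹) * y * x = y * (h * s * h⁻¹) * x := by
      calc (h * s * h⁻¹) * y * x = (h * s * h⁻¹) * (y * x) := by group
        _ = (y * x) * (h * s * h⁻¹) := h1
        _ = y * (x * (h * s * h⁻¹)) := by group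
        _ = y * ((h * s * h⁻¹) * x) := by rw [h2]
        _ = y * (h * s * h⁻¹) * x := by group
    exact mul_right_cancel h3
  have hτN : w⁻¹ * s * w ∈ CC x ⊓ CC y := hconjN _ hsN'
  have hfN : w⁻¹ * g₀ * w ∈ CC x ⊓ CC y := hconjN _ hg₀N
  have hρN : w⁻¹ * (h * s * h⁻¹) * w ∈ CC x ⊓ CC y := hconjN _ hσN
  have hxyN : x * y ∈ CC x ⊓ CC y :=
    ⟨(CC x).mul_mem (self_mem_CC x) hyx, (CC y).mul_mem hxy' (self_mem_CC y)⟩
  -- (A)
  have hA : (h * s * h⁻¹) * (s * g₀)⁻¹ ∈ OC 2 (CC x ⊓ CC y) := by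
    apply mem_OC_of_left
    · have hm1 : h * s * h⁻¹ ∈ CC x := hσN.1
      have hm2 : s * (g₀ : G) ∈ CC x := (CC x).mul_mem hsxC g₀.2
      refine (bar_eq_iff ⟨_, hm1⟩ ⟨_, hm2⟩).mp ?_
      have e1 : (⟨h * s * h⁻¹, hm1⟩ : ↥(CC x)) = ⟨h, hhC⟩ * ⟨s, hsxC⟩ * (⟨h, hhC⟩ : ↥(CC x))⁻¹ := rfl
      have e2 : (⟨s * (g₀ : G), hm2⟩ : ↥(CC x)) = ⟨s, hsxC⟩ * g₀ := rfl
      rw [e1, e2, map_mul, map_mul, map_inv, map_mul, hbarh, hg₀]
      exact hvs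
    · exact (CC y).mul_mem hσN.2 ((CC y).inv_mem ((CC y).mul_mem hsyC hg₀y))
  -- (B)
  have hB : (w⁻¹ * s * w) * s ∈ OC 2 (CC x ⊓ CC y) := by
    apply mem_OC_of_right
    · have hm1 : w⁻¹ * s * w ∈ CC y := hτN.2
      have hm2 : s⁻¹ ∈ CC y := (CC y).inv_mem hsyC
      have := (bar_eq_iff ⟨_, hm1⟩ ⟨_, hm2⟩).mp ?_
      · simpa using this
      · have e1 : (⟨w⁻¹ * s * w, hm1⟩ : ↥(CC y)) = (⟨w, hwC⟩ : ↥(CC y))⁻¹ * ⟨s, hsyC⟩ * ⟨w, hwC⟩ := rfl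
        have e2 : (⟨s⁻¹, hm2⟩ : ↥(CC y)) = (⟨s, hsyC⟩ : ↥(CC y))⁻¹ := rfl
        rw [e1, e2, map_mul, map_mul, map_inv, map_inv, hbarw]
        have h1 : bar y ⟨s, hsyC⟩ = u * (bar y ⟨s, hsyC⟩)⁻¹ * u⁻¹ := by
          have := congrArg (fun a => a⁻¹) hus
          simp only [mul_inv_rev, inv_inv, mul_assoc] at this
          rw [mul_assoc, this]
        calc u⁻¹ * bar y ⟨s, hsyC⟩ * u = u⁻¹ * (u * (bar y ⟨s, hsyC⟩)⁻¹ * u⁻¹) * u := by rw [← h1]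
          _ = (bar y ⟨s, hsyC⟩)⁻¹ := by group
    · exact ((CC x ⊓ CC y).mul_mem hτN hsN').1
  -- (C)
  have hC' : (w⁻¹ * g₀ * w)⁻¹ * ((w⁻¹ * s * w) * (w⁻¹ * g₀ * w) * (w⁻¹ * s * w)⁻¹) * (x * y)⁻¹ ∈
      OC 2 (CC x ⊓ CC y) := by
    apply mem_OC_of_right
    · have h1 := hOYw _ hCO
      have e : w⁻¹ * ((g₀ : G)⁻¹ * (s * g₀ * s⁻¹) * x⁻¹) * w =
          (w⁻¹ * g₀ * w)⁻¹ * ((w⁻¹ * s * w) * (w⁻¹ * g₀ * w) * (w⁻¹ * s * w)⁻¹) * (w⁻¹ * x * w)⁻¹ := by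
        group
      have hwx'' : w⁻¹ * x * w = x * y := by simpa using hwx'
      rwa [e, hwx''] at h1
    · exact ((CC x ⊓ CC y).mul_mem ((CC x ⊓ CC y).mul_mem ((CC x ⊓ CC y).inv_mem hfN)
        ((CC x ⊓ CC y).mul_mem ((CC x ⊓ CC y).mul_mem hτN hfN) ((CC x ⊓ CC y).inv_mem hτN)))
        ((CC x ⊓ CC y).inv_mem hxyN)).1
  -- The conclusion.
  refine ⟨Kc w⁻¹ (Kc h K), w⁻¹ * (h * s * h⁻¹) * w, ?_, ?_, ?_, hρN, ?_⟩
  · have h1 := (hK.conj h).conj w⁻¹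
    have e : w⁻¹ * (h * y * h⁻¹) * w⁻¹⁻¹ = x := by
      rw [hhy, ← hc, inv_inv, ← hwx]
      group
    rwa [e] at h1
  · rw [qcard_conj, qcard_conj]
  · have := conj_mem_Kc w⁻¹ (conj_mem_Kc h hs)
    rwa [inv_inv] at this
  · -- quotient computation in `N`
    let π : ↥(CC x ⊓ CC y) →* ↥(CC x ⊓ CC y) ⧸ oddCore ↥(CC x ⊓ CC y) :=
      QuotientGroup.mk' (oddCore ↥(CC x ⊓ CC y))
    have hπ : ∀ a : ↥(CC x ⊓ CC y), π a = 1 ↔ (a : G) ∈ OC 2 (CC x ⊓ CC y) := fun a => mk_eq_one_iff a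
    let ρ' : ↥(CC x ⊓ CC y) := ⟨_, hρN⟩
    let τ' : ↥(CC x ⊓ CC y) := ⟨_, hτN⟩
    let f' : ↥(CC x ⊓ CC y) := ⟨_, hfN⟩
    let s' : ↥(CC x ⊓ CC y) := ⟨_, hsN'⟩
    let z' : ↥(CC x ⊓ CC y) := ⟨_, hxyN⟩
    have r1 : π ρ' = π τ' * π f' := by
      have h1 : π (ρ' * (τ' * f')⁻¹) = 1 := by
        apply (hπ _).mpr
        have h2 := hOw _ hA
        have e : w⁻¹ * ((h * s * h⁻¹) * (s * g₀)⁻¹) * w =
            (w⁻¹ * (h * s * h⁻¹) * w) * ((w⁻¹ * s * w) * (w⁻¹ * g₀ * w))⁻¹ := by group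
        rw [e] at h2
        exact h2
      rw [map_mul, map_inv, mul_inv_eq_one, map_mul] at h1
      exact h1
    have r2 : π τ' = (π s')⁻¹ := by
      have h1 : π (τ' * s') = 1 := (hπ _).mpr hB
      rw [map_mul] at h1
      exact eq_inv_of_mul_eq_one_left h1
    have r3 : (π f')⁻¹ * (π τ' * π f' * (π τ')⁻¹) = π z' := by
      have h1 : π (f'⁻¹ * (τ' * f' * τ'⁻¹) * z'⁻¹) = 1 := (hπ _).mpr hC'
      rw [map_mul, map_inv (π) z', mul_inv_eq_one] at h1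
      simpa only [map_mul, map_inv] using h1
    have r4 : π f' * π z' = π z' * π f' := by
      rw [← map_mul, ← map_mul]
      congr 1
      apply Subtype.ext
      show (w⁻¹ * g₀ * w) * (x * y) = (x * y) * (w⁻¹ * g₀ * w)
      have h1 : (w⁻¹ * g₀ * w) * x = x * (w⁻¹ * g₀ * w) := mem_CC.mp hfN.1
      have h2 : (w⁻¹ * g₀ * w) * y = y * (w⁻¹ * g₀ * w) := mem_CC.mp hfN.2
      calc (w⁻¹ * g₀ * w) * (x * y) = ((w⁻¹ * g₀ * w) * x) * y := by group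
        _ = (x * (w⁻¹ * g₀ * w)) * y := by rw [h1]
        _ = x * ((w⁻¹ * g₀ * w) * y) := by group
        _ = x * (y * (w⁻¹ * g₀ * w)) := by rw [h2]
        _ = (x * y) * (w⁻¹ * g₀ * w) := by group
    apply (hπ (ρ' * s' * ρ'⁻¹ * s'⁻¹ * z'⁻¹)).mp
    rw [map_mul, map_inv π z', mul_inv_eq_one]
    simp only [map_mul, map_inv]
    rw [r1, r2]
    rw [r2] at r3
    generalize π s' = P at r3 ⊢
    generalize π f' = F at r3 r4 ⊢
    generalize π z' = Z at r3 r4 ⊢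
    have e1 : P⁻¹ * F * P * (P⁻¹ * F)⁻¹ * P⁻¹ = F * Z * F⁻¹ := by
      rw [← r3]
      group
    rw [e1, r4]
    group

end Cfsg.Agent.Lib.IntrSL.GB4a
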