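/-
S1315 X-level. See PLAN.md.
-/
import Cfsg.Agent.Lib.IntrSL.Flip
import Cfsg.Agent.Lib.IntrSL.XDiag

set_option autoImplicit false
set_option linter.style.haveILetI false
set_option linter.unusedSectionVars false

namespace Cfsg.Agent.Lib.IntrSL.XHur

open Subgroup Cfsg Cfsg.Agent.Lib.BpBalance.Basic Cfsg.Agent.Lib.Subnormal.Basic
  Cfsg.Agent.Lib.PTerm.Rel Cfsg.Agent.Lib.PTerm.Dict Cfsg.Agent.Lib.IntrSL.Defs
open scoped commutatorElement Pointwise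

universe u

variable {X : Type u} [Group X] [Finite X]

theorem zz_eq {Q : Subgroup X} {z : X} (hC : CompZ Q z) : z * z = 1 := by
  have h := hC.qt.ord
  have h1 : (⟨z, hC.mem⟩ : ↥Q) ^ 2 = 1 := by rw [← h]; exact pow_orderOf_eq_one _
  have h2 := congrArg (Subtype.val) h1
  simpa [pow_two] using h2

theorem z_ne_one {Q : Subgroup X} {z : X} (hC : CompZ Q z) : z ≠ 1 := by
  intro h
  have h0 := hC.qt.ord
  have h1 : (⟨z, hC.mem⟩ : ↥Q) = 1 := Subtype.ext h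
  rw [h1, orderOf_one] at h0
  omega

/-- A "`CompZ`" subgroup is a component. -/
theorem isComp {Q : Subgroup X} {z : X} (hC : CompZ Q z) :
    IsComponent Q := ⟨hC.sn, hC.qt.qs⟩

/-- An element of `Q` squaring to `1` is `1` or `z`. -/
theorem eq_of_sq {Q : Subgroup X} {z a : X} (hC : CompZ Q z) (ha : a ∈ Q) (haa : a * a = 1) :
    a = 1 ∨ a = z := by
  by_cases h1 : a = 1
  · exact Or.inl h1
  · right
    have h2 : orderOf (⟨a, ha⟩ : ↥Q) = 2 := by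
      apply orderOf_eq_prime
      · apply Subtype.ext
        simpa [pow_two] using haa
      · intro h3
        exact h1 (congrArg Subtype.val h3)
    have := hC.qt.uniq _ h2
    exact congrArg Subtype.val this

/-- The key identity in `hur`. -/
theorem hur_key {z t s r e c : X} (hcen : ∀ a : X, a * z = z * a) (hzz : z * z = 1)
    (hss : s * s = t) (ht : t * t = 1) (hcene : ∀ a : X, a * e = e * a)
    (hc : c * r * c⁻¹ = r * z) (htc : t * c * t⁻¹ = r * c * r⁻¹)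
    (hcc : c⁻¹ * (s * c * s⁻¹) = (s * c * s⁻¹) * c⁻¹) :
    (c * (s * c * s⁻¹) * e) * t = t * (c * (s * c * s⁻¹) * e) ∧
      (c * (s * c * s⁻¹) * e)⁻¹ * (s * (c * (s * c * s⁻¹) * e) * s⁻¹) = z := by
  have hst : s * t = t * s := by rw [← hss, mul_assoc]
  have hrc : r * c * r⁻¹ = z * c := by
    have h1 : c * r = r * z * c := by rw [← hc]; group
    have h2 : r * z * c * c⁻¹ = c * r * c⁻¹ := by rw [h1]
    -- from `c r c⁻¹ = r z` : `r c⁻¹ r⁻¹ = c⁻¹ z`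
    have h3 : r * c⁻¹ * r⁻¹ = c⁻¹ * z := by
      calc r * c⁻¹ * r⁻¹ = c⁻¹ * (c * r * c⁻¹) * r⁻¹ := by group
        _ = c⁻¹ * (r * z) * r⁻¹ := by rw [hc]
        _ = c⁻¹ * (r * z * r⁻¹) := by group
        _ = c⁻¹ * (z * (r * r⁻¹)) := by rw [hcen r]; group
        _ = _ := by group
    have h4 := congrArg (fun a => a⁻¹) h3
    simp only [mul_inv_rev, inv_inv] at h4
    have hzi : z⁻¹ = z := inv_eq_of_mul_eq_one_left hzz
    rw [hzi] at h4
    rw [← h4]; group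
  have h1 : t * c * t⁻¹ = z * c := by rw [htc, hrc]
  have h2 : t * (s * c * s⁻¹) * t⁻¹ = z * (s * c * s⁻¹) := by
    have hts' : t * s = s * t := hst.symm
    have hts'' : s⁻¹ * t⁻¹ = t⁻¹ * s⁻¹ := by
      rw [← mul_inv_rev, ← mul_inv_rev, hst]
    calc t * (s * c * s⁻¹) * t⁻¹ = (t * s) * c * (s⁻¹ * t⁻¹) := by group
      _ = s * (t * c * t⁻¹) * s⁻¹ := by rw [hts', hts'']; group
      _ = s * (z * c) * s⁻¹ := by rw [h1]
      _ = (s * z) * c * s⁻¹ := by group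
      _ = z * (s * c * s⁻¹) := by rw [hcen s]; group
  have h3 : t * (c * (s * c * s⁻¹)) * t⁻¹ = c * (s * c * s⁻¹) := by
    calc t * (c * (s * c * s⁻¹)) * t⁻¹
        = (t * c * t⁻¹) * (t * (s * c * s⁻¹) * t⁻¹) := by group
      _ = (z * c) * (z * (s * c * s⁻¹)) := by rw [h1, h2]
      _ = z * (c * z) * (s * c * s⁻¹) := by group
      _ = (z * z) * c * (s * c * s⁻¹) := by rw [hcen c]; group
      _ = _ := by rw [hzz]; group
  constructor
  · calc c * (s * c * s⁻¹) * e * t = c * (s * c * s⁻¹) * (t * e) := by rw [mul_assoc _ e t, ← hcene t]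
      _ = (c * (s * c * s⁻¹) * t) * e := by group
      _ = (t * (c * (s * c * s⁻¹)) * t⁻¹ * t) * e := by rw [h3]
      _ = t * (c * (s * c * s⁻¹) * e) := by group
  · have hss2 : (s * s) * c * (s * s)⁻¹ = z * c := by rw [hss, h1]
    have hse : s * e = e * s := hcene s
    have e1 : s * (c * (s * c * s⁻¹) * e) * s⁻¹ = (s * c * s⁻¹) * ((s * s) * c * (s * s)⁻¹) * e := by
      calc s * (c * (s * c * s⁻¹) * e) * s⁻¹ = s * (c * (s * c * s⁻¹)) * (e * s⁻¹) := by group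
        _ = s * (c * (s * c * s⁻¹)) * (s⁻¹ * e) := by rw [hcene s⁻¹]
        _ = _ := by group
    rw [e1, hss2]
    calc (c * (s * c * s⁻¹) * e)⁻¹ * ((s * c * s⁻¹) * (z * c) * e)
        = e⁻¹ * ((s * c * s⁻¹)⁻¹ * (c⁻¹ * (s * c * s⁻¹)) * (z * c)) * e := by group
      _ = e⁻¹ * ((s * c * s⁻¹)⁻¹ * ((s * c * s⁻¹) * c⁻¹) * (z * c)) * e := by rw [hcc]
      _ = e⁻¹ * (c⁻¹ * (z * c)) * e := by group
      _ = e⁻¹ * (c⁻¹ * (c * z)) * e := by rw [hcen c]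
      _ = e⁻¹ * z * e := by group
      _ = e⁻¹ * (z * e) := by group
      _ = e⁻¹ * (e * z) := by rw [hcen e]
      _ = z := by group

/-- **hur.** From `t = r (s r s⁻¹) e`: `flip` gives `v` with `v r v⁻¹ = r z`, `hurwitz` gives `j`;
`d = j * (s j s⁻¹)`. With `c = j r j⁻¹`: `d t d⁻¹ = c (s c s⁻¹) e` commutes with `t` and `s` conjugates it to its
product with `z`. Same for `j⁻¹ r j`. -/
theorem hur {Q : Subgroup X} {z t s r e : X} (hC : CompZ Q z) (ht : t * t = 1)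
    (hss : s * s = t) (hsN : s ∉ normalizer (Q : Set X)) (hn : t ∈ normalizer (Q : Set X))
    (hnt : ∃ j ∈ Q, t * j * t⁻¹ ≠ j) (hr : r ∈ Q) (hrr : r * r = z) (he1 : e = 1 ∨ e = z)
    (hdec : t = r * (s * r * s⁻¹) * e) :
    ∃ d : X, (d * t * d⁻¹) * t = t * (d * t * d⁻¹) ∧ (d⁻¹ * t * d) * t = t * (d⁻¹ * t * d) ∧
      (d * t * d⁻¹)⁻¹ * (s * (d * t * d⁻¹) * s⁻¹) = z ∧
      (d⁻¹ * t * d)⁻¹ * (s * (d⁻¹ * t * d) * s⁻¹) = z := by
  have hcen : ∀ a : X, a * z = z * a := hC.cen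
  have hzz := zz_eq hC
  have hcene : ∀ a : X, a * e = e * a := by
    intro a
    rcases he1 with rfl | rfl
    · simp
    · exact hC.cen a
  have hcm := (XDiag.comm_conj hC hsN).1
  -- `t` acts on `Q` as `r`
  have htQ : ∀ a ∈ Q, t * a * t⁻¹ = r * a * r⁻¹ := by
    intro a ha
    have h1 : a * (s * r * s⁻¹) = (s * r * s⁻¹) * a := hcm a ha r hr
    calc t * a * t⁻¹ = (r * (s * r * s⁻¹) * e) * a * (r * (s * r * s⁻¹) * e)⁻¹ := by rw [← hdec]
      _ = r * ((s * r * s⁻¹) * (e * a * e⁻¹) * (s * r * s⁻¹)⁻¹) * r⁻¹ := by group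
      _ = r * ((s * r * s⁻¹) * a * (s * r * s⁻¹)⁻¹) * r⁻¹ := by
          rw [← hcene a]; group
      _ = r * a * r⁻¹ := by rw [← h1]; group
  -- `v` from `flip`
  obtain ⟨v, hvQ, hvt, hvv⟩ := Flip.flip hC ht hn hnt
  have hvr : v * r * v⁻¹ = r * z := by
    have h1 : v * (s * r * s⁻¹) = (s * r * s⁻¹) * v := hcm v hvQ r hr
    have h2 : v * t * v⁻¹ = (v * r * v⁻¹) * (s * r * s⁻¹) * e := by
      calc v * t * v⁻¹ = v * (r * (s * r * s⁻¹) * e) * v⁻¹ := by rw [← hdec]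
        _ = v * r * (s * r * s⁻¹) * (e * v⁻¹) := by group
        _ = v * r * (s * r * s⁻¹) * (v⁻¹ * e) := by rw [hcene v⁻¹]
        _ = v * r * ((s * r * s⁻¹) * v⁻¹) * e := by group
        _ = v * r * (v⁻¹ * (s * r * s⁻¹)) * e := by
            rw [show (s * r * s⁻¹) * v⁻¹ = v⁻¹ * (s * r * s⁻¹) from (hcm v⁻¹ (inv_mem hvQ) r hr).symm]
        _ = _ := by group
    have h3 : t * z = r * z * (s * r * s⁻¹) * e := by
      calc t * z = r * (s * r * s⁻¹) * e * z := by rw [← hdec]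
        _ = r * (s * r * s⁻¹) * (e * z) := by group
        _ = r * (s * r * s⁻¹) * (z * e) := by rw [hcene z]
        _ = r * ((s * r * s⁻¹) * z) * e := by group
        _ = r * (z * (s * r * s⁻¹)) * e := by rw [hcen (s * r * s⁻¹)]
        _ = _ := by group
    rw [hvt, h3] at h2
    have h4 := mul_right_cancel (mul_right_cancel h2)
    exact h4.symm
  -- `hurwitz`
  obtain ⟨j', hj1, hj2⟩ := hC.qt.hurwitz (⟨r, hr⟩ : ↥Q) (⟨v, hvQ⟩ : ↥Q)
    (Subtype.ext hrr) (Subtype.ext hvv) (Subtype.ext hvr)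
  obtain ⟨j, hj⟩ := j'
  have hj1' : (j * r * j⁻¹) * r * (j * r * j⁻¹)⁻¹ = r * z := congrArg Subtype.val hj1
  have hj2' : (j⁻¹ * r * j) * r * (j⁻¹ * r * j)⁻¹ = r * z := congrArg Subtype.val hj2
  have hc1Q : j * r * j⁻¹ ∈ Q := mul_mem (mul_mem hj hr) (inv_mem hj)
  have hc2Q : j⁻¹ * r * j ∈ Q := mul_mem (mul_mem (inv_mem hj) hr) hj
  have h_r_j : r * (s * j * s⁻¹) = (s * j * s⁻¹) * r := hcm r hr j hj
  have h_j_c1 : j * (s * (j * r * j⁻¹) * s⁻¹) = (s * (j * r * j⁻¹) * s⁻¹) * j := hcm j hj _ hc1Q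
  have h_j_c2 : j⁻¹ * (s * r * s⁻¹) = (s * r * s⁻¹) * j⁻¹ := hcm _ (inv_mem hj) r hr
  have h_c2_j : (j⁻¹ * r * j) * (s * j * s⁻¹) = (s * j * s⁻¹) * (j⁻¹ * r * j) := hcm _ hc2Q j hj
  have hecomm : ∀ a : X, a * e * a⁻¹ = e := by
    intro a
    rw [hcene a]; group
  -- `d t d⁻¹`
  have hd1 : (j * (s * j * s⁻¹)) * t * (j * (s * j * s⁻¹))⁻¹ =
      (j * r * j⁻¹) * (s * (j * r * j⁻¹) * s⁻¹) * e := by
    have a1 : (j * (s * j * s⁻¹)) * r * (j * (s * j * s⁻¹))⁻¹ = j * r * j⁻¹ := by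
      calc (j * (s * j * s⁻¹)) * r * (j * (s * j * s⁻¹))⁻¹
          = j * ((s * j * s⁻¹) * r) * (s * j * s⁻¹)⁻¹ * j⁻¹ := by group
        _ = j * (r * (s * j * s⁻¹)) * (s * j * s⁻¹)⁻¹ * j⁻¹ := by rw [h_r_j]
        _ = _ := by group
    have a2 : (j * (s * j * s⁻¹)) * (s * r * s⁻¹) * (j * (s * j * s⁻¹))⁻¹ =
        s * (j * r * j⁻¹) * s⁻¹ := by
      calc (j * (s * j * s⁻¹)) * (s * r * s⁻¹) * (j * (s * j * s⁻¹))⁻¹
          = j * (s * (j * r * j⁻¹) * s⁻¹) * j⁻¹ := by group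
        _ = (s * (j * r * j⁻¹) * s⁻¹) * j * j⁻¹ := by rw [h_j_c1]
        _ = _ := by group
    calc (j * (s * j * s⁻¹)) * t * (j * (s * j * s⁻¹))⁻¹
        = (j * (s * j * s⁻¹)) * (r * (s * r * s⁻¹) * e) * (j * (s * j * s⁻¹))⁻¹ := by rw [← hdec]
      _ = ((j * (s * j * s⁻¹)) * r * (j * (s * j * s⁻¹))⁻¹) *
            ((j * (s * j * s⁻¹)) * (s * r * s⁻¹) * (j * (s * j * s⁻¹))⁻¹) *
            ((j * (s * j * s⁻¹)) * e * (j * (s * j * s⁻¹))⁻¹) := by group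
      _ = _ := by rw [a1, a2, hecomm]
  have hd2 : (j * (s * j * s⁻¹))⁻¹ * t * (j * (s * j * s⁻¹)) =
      (j⁻¹ * r * j) * (s * (j⁻¹ * r * j) * s⁻¹) * e := by
    have a1 : (j * (s * j * s⁻¹))⁻¹ * r * (j * (s * j * s⁻¹)) = j⁻¹ * r * j := by
      calc (j * (s * j * s⁻¹))⁻¹ * r * (j * (s * j * s⁻¹))
          = (s * j * s⁻¹)⁻¹ * ((j⁻¹ * r * j) * (s * j * s⁻¹)) := by group
        _ = (s * j * s⁻¹)⁻¹ * ((s * j * s⁻¹) * (j⁻¹ * r * j)) := by rw [h_c2_j]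
        _ = _ := by group
    have a2 : (j * (s * j * s⁻¹))⁻¹ * (s * r * s⁻¹) * (j * (s * j * s⁻¹)) =
        s * (j⁻¹ * r * j) * s⁻¹ := by
      calc (j * (s * j * s⁻¹))⁻¹ * (s * r * s⁻¹) * (j * (s * j * s⁻¹))
          = (s * j * s⁻¹)⁻¹ * (j⁻¹ * (s * r * s⁻¹)) * (j * (s * j * s⁻¹)) := by group
        _ = (s * j * s⁻¹)⁻¹ * ((s * r * s⁻¹) * j⁻¹) * (j * (s * j * s⁻¹)) := by rw [h_j_c2]
        _ = _ := by group
    calc (j * (s * j * s⁻¹))⁻¹ * t * (j * (s * j * s⁻¹))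
        = (j * (s * j * s⁻¹))⁻¹ * (r * (s * r * s⁻¹) * e) * (j * (s * j * s⁻¹)) := by rw [← hdec]
      _ = ((j * (s * j * s⁻¹))⁻¹ * r * (j * (s * j * s⁻¹))) *
            ((j * (s * j * s⁻¹))⁻¹ * (s * r * s⁻¹) * (j * (s * j * s⁻¹))) *
            ((j * (s * j * s⁻¹))⁻¹ * e * (j * (s * j * s⁻¹))) := by group
      _ = _ := by
          rw [a1, a2]
          congr 1
          have := hecomm (j * (s * j * s⁻¹))⁻¹
          rwa [inv_inv] at this
  obtain ⟨k1, k2⟩ := hur_key hcen hzz hss ht hcene hj1' (htQ _ hc1Q)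
    (hcm _ (inv_mem hc1Q) _ hc1Q)
  obtain ⟨k3, k4⟩ := hur_key hcen hzz hss ht hcene hj2' (htQ _ hc2Q)
    (hcm _ (inv_mem hc2Q) _ hc2Q)
  refine ⟨j * (s * j * s⁻¹), ?_, ?_, ?_, ?_⟩
  · rw [hd1]; exact k1
  · rw [hd2]; exact k3
  · rw [hd1]; exact k2
  · rw [hd2]; exact k4

/-- **dec.** `s * s = t` acts nontrivially on `Q`, `s ∉ N(Q)`, and a second comp `Q'` with the same `z`
contains `ρ` with `ρ s ρ⁻¹ s⁻¹ = z t o`, `o` odd commuting with `t`. Then `t = r * (s r s⁻¹) * e`,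
`r ∈ Q`, `r * r = z`, `e ∈ {1,z}`.
`E₀ = Q' * (s Q' s⁻¹)` contains `z t o`, so its 2-part `z t`, so `t`; if `Q ∉ {Q', sQ's⁻¹}`, `E₀` commutes
with `Q`, contradiction; so `Q' ∈ {Q, sQs⁻¹}` (`s² ∈ N(Q)`), `t = r * r'`, `r ∈ Q`, `r' ∈ sQs⁻¹`; `t`
commutes with `s`, `t` acts on `Q` as `r` so `s⁻¹ r s = s r s⁻¹` ...; `r * r ∈ {1,z}`, `= 1` makes `t` trivial. -/
theorem dec {Q Q' : Subgroup X} {z t s ρ o : X} (hC : CompZ Q z) (hC' : CompZ Q' z) (ht : t * t = 1)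
    (hss : s * s = t) (hsN : s ∉ normalizer (Q : Set X)) (hn : t ∈ normalizer (Q : Set X))
    (hnt : ∃ j ∈ Q, t * j * t⁻¹ ≠ j) (hρ : ρ ∈ Q') (hoo : Odd (orderOf o)) (hot : o * t = t * o)
    (he : ρ * s * ρ⁻¹ * s⁻¹ = z * t * o) :
    ∃ r ∈ Q, ∃ e : X, r * r = z ∧ (e = 1 ∨ e = z) ∧ t = r * (s * r * s⁻¹) * e := by
  classical
  have hcen : ∀ a : X, a * z = z * a := hC.cen
  have hzz := zz_eq hC
  have hQc := isComp hC
  have hC2' : CompZ (Kc s Q') z := XDiag.CompZ.conj hC' s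
  have hcm := (XDiag.comm_conj hC hsN).1
  have hcap := (XDiag.comm_conj hC hsN).2
  have hst : s * t = t * s := by rw [← hss, mul_assoc]
  have htn : ∀ a ∈ Q, t * a * t⁻¹ ∈ Q := fun a ha => (mem_normalizer_iff.mp hn a).mp ha
  have htn' : ∀ a ∈ Q, t⁻¹ * a * t ∈ Q := fun a ha => by
    have := (mem_normalizer_iff.mp (inv_mem hn) a).mp ha
    rwa [inv_inv] at this
  have hw : ρ * (s * ρ⁻¹ * s⁻¹) = z * t * o := by rw [← he]; group
  -- a power of `w` is `z * t`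
  have hzt_sq : (z * t) * (z * t) = 1 := by
    calc (z * t) * (z * t) = z * (t * z) * t := by group
      _ = z * (z * t) * t := by rw [hcen t]
      _ = (z * z) * (t * t) := by group
      _ = 1 := by rw [hzz, ht, one_mul]
  have hpow : (z * t * o) ^ orderOf o = z * t := by
    have hc : Commute (z * t) o := by
      rw [commute_iff_eq, mul_assoc, ← hot, ← mul_assoc, ← mul_assoc, ← hcen o]
    rw [hc.mul_pow, pow_orderOf_eq_one, mul_one]
    obtain ⟨k, hk⟩ := hoo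
    rw [hk, pow_succ, pow_mul, pow_two, hzt_sq, one_pow, one_mul]
  -- `w = a * (s b s⁻¹)`
  have hab : ∃ a ∈ Q, ∃ b ∈ Q, ρ * (s * ρ⁻¹ * s⁻¹) = a * (s * b * s⁻¹) := by
    by_cases h1 : Q = Q'
    · subst h1
      exact ⟨ρ, hρ, ρ⁻¹, inv_mem hρ, rfl⟩
    by_cases h2 : Q = Kc s Q'
    · obtain ⟨q, hq', hq⟩ : ∃ q, q = s * ρ * s⁻¹ ∧ q ∈ Q := by
        refine ⟨_, rfl, ?_⟩
        rw [h2]; exact conj_mem_Kc s hρ
      obtain ⟨b₀, hb₀', hb⟩ : ∃ b₀, b₀ = t⁻¹ * q * t ∧ b₀ ∈ Q := ⟨_, rfl, htn' _ hq⟩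
      have hρ_eq : ρ = s * b₀ * s⁻¹ := by
        rw [hb₀', hq', ← hss]; group
      refine ⟨q⁻¹, inv_mem hq, b₀, hb, ?_⟩
      have h3 : q⁻¹ * (s * b₀ * s⁻¹) = (s * b₀ * s⁻¹) * q⁻¹ := hcm _ (inv_mem hq) _ hb
      rw [h3, ← hρ_eq, hq']
      group
    · exfalso
      have hQ2' := isComp hC2'
      have hQ' := isComp hC'
      obtain ⟨j, hj, hjt⟩ := hnt
      have c1 : j * ρ = ρ * j :=
        Cfsg.Agent.Lib.LBalance.Basic.commute_of_ne hQc hQ' h1 hj hρ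
      have c2 : j * (s * ρ⁻¹ * s⁻¹) = (s * ρ⁻¹ * s⁻¹) * j :=
        Cfsg.Agent.Lib.LBalance.Basic.commute_of_ne hQc hQ2' h2 hj (conj_mem_Kc s (inv_mem hρ))
      have c3 : Commute j (z * t * o) := by
        rw [← hw, commute_iff_eq]
        calc j * (ρ * (s * ρ⁻¹ * s⁻¹)) = (j * ρ) * (s * ρ⁻¹ * s⁻¹) := by group
          _ = ρ * (j * (s * ρ⁻¹ * s⁻¹)) := by rw [c1]; group
          _ = ρ * ((s * ρ⁻¹ * s⁻¹) * j) := by rw [c2]
          _ = _ := by group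
      have c4 : Commute j (z * t) := by
        have := c3.pow_right (orderOf o)
        rwa [hpow] at this
      apply hjt
      have c5 : j * t = t * j := by
        have h5 : j * (z * t) = (z * t) * j := c4
        have h6 : z * (j * t) = z * (t * j) := by
          calc z * (j * t) = (z * j) * t := by group
            _ = (j * z) * t := by rw [hcen j]
            _ = j * (z * t) := by group
            _ = (z * t) * j := h5
            _ = _ := by group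
        exact mul_left_cancel h6
      rw [← c5]
      group
  obtain ⟨a, ha, b, hb, hwab⟩ := hab
  have hcab : Commute a (s * b * s⁻¹) := hcm a ha b hb
  have h1 : z * t = a ^ orderOf o * (s * b ^ orderOf o * s⁻¹) := by
    rw [← hpow, ← hw, hwab, hcab.mul_pow, conj_pow]
  obtain ⟨r, hr', hr⟩ : ∃ r, r = z * a ^ orderOf o ∧ r ∈ Q :=
    ⟨_, rfl, mul_mem hC.mem (pow_mem ha _)⟩
  obtain ⟨b', hb'', hb'⟩ : ∃ b', b' = b ^ orderOf o ∧ b' ∈ Q := ⟨_, rfl, pow_mem hb _⟩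
  have h2 : t = r * (s * b' * s⁻¹) := by
    rw [hr', hb'', mul_assoc, ← h1, ← mul_assoc, hzz, one_mul]
  -- `t` is fixed by `s`
  have h3 : t = (s * r * s⁻¹) * (t * b' * t⁻¹) := by
    have h4 : s * t * s⁻¹ = t := by rw [hst]; group
    calc t = s * t * s⁻¹ := h4.symm
      _ = s * (r * (s * b' * s⁻¹)) * s⁻¹ := by rw [← h2]
      _ = (s * r * s⁻¹) * ((s * s) * b' * (s * s)⁻¹) := by group
      _ = _ := by rw [hss]
  have hb2 : t * b' * t⁻¹ ∈ Q := htn _ hb'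
  have h4 : (t * b' * t⁻¹) * (s * r * s⁻¹) = (s * r * s⁻¹) * (t * b' * t⁻¹) := hcm _ hb2 r hr
  have h5 : (t * b' * t⁻¹)⁻¹ * r = s * (r * b'⁻¹) * s⁻¹ := by
    have h6 : r * (s * b' * s⁻¹) = (t * b' * t⁻¹) * (s * r * s⁻¹) := by
      rw [← h2, h4]; exact h3
    have h7 : r = (t * b' * t⁻¹) * (s * r * s⁻¹) * (s * b' * s⁻¹)⁻¹ := by
      rw [← h6]; group
    calc (t * b' * t⁻¹)⁻¹ * r
        = (t * b' * t⁻¹)⁻¹ * ((t * b' * t⁻¹) * (s * r * s⁻¹) * (s * b' * s⁻¹)⁻¹) := by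
          rw [← h7]
      _ = _ := by group
  have he1 : (t * b' * t⁻¹)⁻¹ * r = 1 ∨ (t * b' * t⁻¹)⁻¹ * r = z :=
    hcap _ (mul_mem (inv_mem hb2) hr) _ (mul_mem hr (inv_mem hb')) h5
  obtain ⟨e, he', he1⟩ : ∃ e, e = (t * b' * t⁻¹)⁻¹ * r ∧ (e = 1 ∨ e = z) := ⟨_, rfl, he1⟩
  have hcene : ∀ a : X, a * e = e * a := by
    intro a
    rcases he1 with h | h <;> rw [h]
    · simp
    · exact hC.cen a
  have hee : e * e = 1 := by
    rcases he1 with h | h <;> rw [h]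
    · simp
    · exact hzz
  have h6 : (s * r * s⁻¹) * (s * b' * s⁻¹)⁻¹ = e := by
    rw [he', h5]; group
  have h7 : s * b' * s⁻¹ = (s * r * s⁻¹) * e := by
    have h70 : (s * r * s⁻¹) = e * (s * b' * s⁻¹) := by rw [← h6]; group
    calc s * b' * s⁻¹ = (s * b' * s⁻¹) * (e * e) := by rw [hee, mul_one]
      _ = ((s * b' * s⁻¹) * e) * e := by group
      _ = (e * (s * b' * s⁻¹)) * e := by rw [hcene (s * b' * s⁻¹)]
      _ = (s * r * s⁻¹) * e := by rw [← h70]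
  have h8 : t = r * (s * r * s⁻¹) * e := by
    rw [mul_assoc, ← h7]; exact h2
  -- squares
  have hcomm_rr : r * (s * r * s⁻¹) = (s * r * s⁻¹) * r := hcm r hr r hr
  have h9 : (r * r) * (s * (r * r) * s⁻¹) = 1 := by
    calc (r * r) * (s * (r * r) * s⁻¹) = r * (r * (s * r * s⁻¹)) * (s * r * s⁻¹) := by group
      _ = r * ((s * r * s⁻¹) * r) * (s * r * s⁻¹) := by rw [hcomm_rr]
      _ = (r * (s * r * s⁻¹)) * (r * (s * r * s⁻¹)) := by group
      _ = (r * (s * r * s⁻¹)) * (r * (s * r * s⁻¹)) * (e * e) := by rw [hee, mul_one]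
      _ = (r * (s * r * s⁻¹)) * ((r * (s * r * s⁻¹)) * e) * e := by group
      _ = (r * (s * r * s⁻¹)) * (e * (r * (s * r * s⁻¹))) * e := by
          rw [hcene (r * (s * r * s⁻¹))]
      _ = (r * (s * r * s⁻¹) * e) * (r * (s * r * s⁻¹) * e) := by group
      _ = t * t := by rw [← h8]
      _ = 1 := ht
  have h10 : r * r = s * (r * r)⁻¹ * s⁻¹ := by
    have h11 : s * (r * r)⁻¹ * s⁻¹ = (s * (r * r) * s⁻¹)⁻¹ := by group
    rw [h11]
    exact eq_inv_of_mul_eq_one_left h9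
  rcases hcap _ (mul_mem hr hr) _ (inv_mem (mul_mem hr hr)) h10 with h11 | h11
  · exfalso
    obtain ⟨j, hj, hjt⟩ := hnt
    have hcenr : ∀ a : X, a * r = r * a := by
      intro a
      rcases eq_of_sq hC hr h11 with h | h <;> rw [h]
      · simp
      · exact hC.cen a
    apply hjt
    have c1 : j * (s * r * s⁻¹) = (s * r * s⁻¹) * j := hcm j hj r hr
    have c2 : j * t = t * j := by
      calc j * t = j * (r * (s * r * s⁻¹) * e) := by rw [← h8]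
        _ = (j * r) * (s * r * s⁻¹) * e := by group
        _ = r * (j * (s * r * s⁻¹)) * e := by rw [hcenr j]; group
        _ = r * ((s * r * s⁻¹) * j) * e := by rw [c1]
        _ = r * (s * r * s⁻¹) * (j * e) := by group
        _ = r * (s * r * s⁻¹) * (e * j) := by rw [hcene j]
        _ = (r * (s * r * s⁻¹) * e) * j := by group
        _ = t * j := by rw [← h8]
    rw [← c2]
    group
  · exact ⟨r, hr, e, h11, he1, h8⟩

end Cfsg.Agent.Lib.IntrSL.XHur
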