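/-
S1315 G-level. The case s * s = y, second part. See PLAN.md.
-/
import Cfsg.Agent.Lib.IntrSL.Transport
import Cfsg.Agent.Lib.IntrSL.XHur
import Cfsg.Agent.Lib.IntrSL.Lift

set_option autoImplicit false
set_option linter.style.haveILetI false
set_option linter.unusedSectionVars false

namespace Cfsg.Agent.Lib.IntrSL.GB4b

open Subgroup Cfsg Cfsg.Agent.Lib.BpBalance.Basic Cfsg.Agent.Lib.Subnormal.Basic
  Cfsg.Agent.Lib.PTerm.Rel Cfsg.Agent.Lib.PTerm.Dict Cfsg.Agent.Lib.IntrSL.Defs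
open scoped commutatorElement Pointwise

universe u

variable {G : Type u} [Group G] [Finite G]

/-- **B4b.** `XHur.dec` + `XHur.hur` in `Bar x` with `Q = img x J`, `Q' = img x K'`, `t = ȳ`;
lift `d̄` to `d₀ ∈ C(x)`; `y' = d₀ y d₀⁻¹` and the involution lift (`lift_centralizer_inv`) of `d̄ t d̄⁻¹` to `C(y)` are
conjugate under `o ∈ O(C(x))` (`Lift.conj_involutions`); `d = o d₀`. Note: `d y d⁻¹` commutes with `y` iff `d⁻¹ y d` does. -/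
theorem b4_d {J K' : Subgroup G} {x y s ρ : G} (hJ : SLComp J x) (hK' : SLComp K' x) (hxy : x ≠ y)
    (hc : x * y = y * x) (hy : orderOf y = 2) (hsx : s * x = x * s)
    (hss : s * s = y) (hsJ : s ∉ normalizer (J : Set G)) (hyJ : y ∈ normalizer (J : Set G))
    (hyn : ¬ ∀ j ∈ J, y * j * y⁻¹ * j⁻¹ ∈ OC 2 J) (hρ : ρ ∈ K') (hρN : ρ ∈ CC x ⊓ CC y)
    (hcong : (ρ * s * ρ⁻¹ * s⁻¹) * (x * y)⁻¹ ∈ OC 2 (CC x ⊓ CC y)) :
    ∃ d ∈ CC x, (d * y * d⁻¹) * y = y * (d * y * d⁻¹) ∧ (d⁻¹ * y * d) * y = y * (d⁻¹ * y * d) ∧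
      ((d * y * d⁻¹)⁻¹ * (s * (d * y * d⁻¹) * s⁻¹)) * x⁻¹ ∈ OC 2 (CC x) ∧
      ((d⁻¹ * y * d)⁻¹ * (s * (d⁻¹ * y * d) * s⁻¹)) * x⁻¹ ∈ OC 2 (CC x) := by
  haveI : Fact (Nat.Prime 2) := ⟨Nat.prime_two⟩
  have hyy : y * y = 1 := by
    have := pow_orderOf_eq_one y
    rw [hy, pow_two] at this
    exact this
  have hyxm : y ∈ CC x := mem_CC.mpr hc.symm
  have hsxm : s ∈ CC x := mem_CC.mpr hsx
  have hρx : ρ ∈ CC x := hρN.1
  have hρy : ρ ∈ CC y := hρN.2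
  have hsy : s ∈ CC y := mem_CC.mpr (by rw [← hss, mul_assoc])
  set yb : Bar x := bar x ⟨y, hyxm⟩ with hyb
  set sb : Bar x := bar x ⟨s, hsxm⟩ with hsb
  set ρb : Bar x := bar x ⟨ρ, hρx⟩ with hρb
  -- the odd error term
  set c : G := (ρ * s * ρ⁻¹ * s⁻¹) * (x * y)⁻¹ with hc_def
  have hcO : c ∈ OC 2 (CC x ⊓ CC y) := hcong
  have hcN : c ∈ CC x ⊓ CC y := OC_le _ hcO
  have hcodd : Odd (orderOf c) := Transport.odd_order_of_mem_OC _ hcO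
  set o : Bar x := bar x ⟨c, hcN.1⟩ with ho
  have hoo : Odd (orderOf o) := by
    have h1 : orderOf o ∣ orderOf (⟨c, hcN.1⟩ : ↥(CC x)) := orderOf_map_dvd _ _
    rw [Subgroup.orderOf_mk] at h1
    exact Odd.of_dvd_nat hcodd h1
  have hot : o * yb = yb * o := by
    have h1 : (⟨c, hcN.1⟩ : ↥(CC x)) * ⟨y, hyxm⟩ = ⟨y, hyxm⟩ * ⟨c, hcN.1⟩ :=
      Subtype.ext (mem_CC.mp hcN.2)
    have h2 := congrArg (bar x) h1
    rwa [map_mul, map_mul] at h2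
  have hcx : c * x = x * c := mem_CC.mp hcN.1
  have hcy : c * y = y * c := mem_CC.mp hcN.2
  have he : ρb * sb * ρb⁻¹ * sb⁻¹ = barz x * yb * o := by
    have h1 : (⟨ρ, hρx⟩ : ↥(CC x)) * ⟨s, hsxm⟩ * (⟨ρ, hρx⟩ : ↥(CC x))⁻¹ * (⟨s, hsxm⟩ : ↥(CC x))⁻¹ =
        ⟨x, self_mem_CC x⟩ * ⟨y, hyxm⟩ * ⟨c, hcN.1⟩ := by
      apply Subtype.ext
      show ρ * s * ρ⁻¹ * s⁻¹ = x * y * c
      have h3 : x * y * c = c * (x * y) := by
        rw [mul_assoc, ← hcy, ← mul_assoc, ← hcx, mul_assoc]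
      rw [h3, hc_def]
      group
    have h2 := congrArg (bar x) h1
    simp only [map_mul, map_inv] at h2
    exact h2
  have hCJ := Transport.compZ_img hJ
  have hCK := Transport.compZ_img hK'
  have htt : yb * yb = 1 := by
    rw [hyb, ← map_mul]
    have : (⟨y, hyxm⟩ : ↥(CC x)) * ⟨y, hyxm⟩ = 1 := Subtype.ext hyy
    rw [this, map_one]
  have hsbb : sb * sb = yb := by
    rw [hsb, hyb, ← map_mul]
    congr 1
    exact Subtype.ext hss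
  have hsN : sb ∉ normalizer ((img x J : Subgroup (Bar x)) : Set (Bar x)) := by
    intro h
    exact hsJ ((Transport.mem_norm_iff hJ ⟨s, hsxm⟩).mp h)
  have hn : yb ∈ normalizer ((img x J : Subgroup (Bar x)) : Set (Bar x)) :=
    (Transport.mem_norm_iff hJ ⟨y, hyxm⟩).mpr hyJ
  have hnt : ∃ j ∈ img x J, yb * j * yb⁻¹ ≠ j := by
    by_contra hcon
    push_neg at hcon
    apply hyn
    have h1 : ∀ q ∈ img x J, yb * q = q * yb := by
      intro q hq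
      have h2 := hcon q hq
      calc yb * q = yb * q * yb⁻¹ * yb := by group
        _ = q * yb := by rw [h2]
    exact ((Transport.cent_iff hJ ⟨y, hyxm⟩).mp h1).2
  have hρm : ρb ∈ img x K' := ⟨⟨ρ, hρx⟩, mem_subgroupOf.mpr hρ, rfl⟩
  obtain ⟨r, hr, e, hrr, he1, hdec⟩ := XHur.dec hCJ hCK htt hsbb hsN hn hnt hρm hoo hot he
  obtain ⟨db, hd1, hd2, hd3, hd4⟩ := XHur.hur hCJ htt hsbb hsN hn hnt hr hrr he1 hdec
  -- lift
  obtain ⟨d₀, rfl⟩ := QuotientGroup.mk'_surjective (oddCore ↥(CC x)) db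
  have hbb : (bar x d₀ * yb * (bar x d₀)⁻¹) * (bar x d₀ * yb * (bar x d₀)⁻¹) = 1 := by
    calc (bar x d₀ * yb * (bar x d₀)⁻¹) * (bar x d₀ * yb * (bar x d₀)⁻¹)
        = bar x d₀ * (yb * yb) * (bar x d₀)⁻¹ := by group
      _ = 1 := by rw [htt]; group
  obtain ⟨g, hgy, hgb, hgg⟩ := Transport.lift_centralizer_inv hyxm hyy hd1 hbb
  -- `y' = d₀ y d₀⁻¹` and `g` are conjugate under `O(C(x))`
  set y' : G := (d₀ : G) * y * (d₀ : G)⁻¹ with hy'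
  have hy'C : y' ∈ CC x := (CC x).mul_mem ((CC x).mul_mem d₀.2 hyxm) ((CC x).inv_mem d₀.2)
  have hy'y' : y' * y' = 1 := by
    calc y' * y' = (d₀ : G) * (y * y) * (d₀ : G)⁻¹ := by rw [hy']; group
      _ = 1 := by rw [hyy]; group
  have hy'b : bar x ⟨y', hy'C⟩ = bar x d₀ * yb * (bar x d₀)⁻¹ := by
    rw [hyb, ← map_inv, ← map_mul, ← map_mul]
    rfl
  have hcong2 : y' * (g : G)⁻¹ ∈ OC 2 (CC x) := by
    have h1 : bar x ⟨y', hy'C⟩ = bar x g := by rw [hy'b, hgb]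
    exact (Transport.bar_eq_iff _ _).mp h1
  obtain ⟨o', ho', hoo'⟩ := Lift.conj_involutions (OC_le (p := 2) (CC x))
    (fun h hh a ha => conj_mem_OC hh ha) (OC_coprime (CC x)) hy'C g.2 hy'y' hgg hcong2
  have ho'C : o' ∈ CC x := OC_le _ ho'
  set d : G := o' * d₀ with hd_def
  have hdC : d ∈ CC x := (CC x).mul_mem ho'C d₀.2
  have hdb : bar x ⟨d, hdC⟩ = bar x d₀ := by
    have h1 : (⟨d, hdC⟩ : ↥(CC x)) = ⟨o', ho'C⟩ * d₀ := rfl
    have h2 : bar x ⟨o', ho'C⟩ = 1 := (mk_eq_one_iff (p := 2) ⟨o', ho'C⟩).mpr ho'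
    rw [h1, map_mul, h2, one_mul]
  have hdy : d * y * d⁻¹ = (g : G) := by
    rw [hd_def, ← hoo', hy']
    group
  have hcomm1 : (d * y * d⁻¹) * y = y * (d * y * d⁻¹) := by
    rw [hdy]
    exact mem_CC.mp hgy
  have hcomm2 : (d⁻¹ * y * d) * y = y * (d⁻¹ * y * d) := by
    have h1 : d⁻¹ * (d * y * d⁻¹ * y) * d = d⁻¹ * (y * (d * y * d⁻¹)) * d := by rw [hcomm1]
    have e1 : d⁻¹ * (d * y * d⁻¹ * y) * d = y * (d⁻¹ * y * d) := by group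
    have e2 : d⁻¹ * (y * (d * y * d⁻¹)) * d = (d⁻¹ * y * d) * y := by group
    rw [e1, e2] at h1
    exact h1.symm
  -- final congruences, computed in `Bar x`
  have hfinal : ∀ w : G, ∀ hw : w ∈ CC x,
      (bar x ⟨w, hw⟩)⁻¹ * (sb * bar x ⟨w, hw⟩ * sb⁻¹) = barz x →
      (w⁻¹ * (s * w * s⁻¹)) * x⁻¹ ∈ OC 2 (CC x) := by
    intro w hw h
    have h1 : w⁻¹ * (s * w * s⁻¹) ∈ CC x :=
      (CC x).mul_mem ((CC x).inv_mem hw) ((CC x).mul_mem ((CC x).mul_mem hsxm hw) ((CC x).inv_mem hsxm))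
    have h2 : bar x ⟨w⁻¹ * (s * w * s⁻¹), h1⟩ = barz x := by
      rw [← h, hsb, ← map_inv, ← map_inv, ← map_mul, ← map_mul, ← map_mul]
      rfl
    exact (Transport.bar_eq_iff _ _).mp h2
  refine ⟨d, hdC, hcomm1, hcomm2, ?_, ?_⟩
  · have hw : d * y * d⁻¹ ∈ CC x := (CC x).mul_mem ((CC x).mul_mem hdC hyxm) ((CC x).inv_mem hdC)
    apply hfinal _ hw
    have h1 : bar x ⟨d * y * d⁻¹, hw⟩ = bar x d₀ * yb * (bar x d₀)⁻¹ := by
      rw [← hdb, hyb, ← map_inv, ← map_mul, ← map_mul]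
      rfl
    rw [h1]
    exact hd3
  · have hw : d⁻¹ * y * d ∈ CC x := (CC x).mul_mem ((CC x).mul_mem ((CC x).inv_mem hdC) hyxm) hdC
    apply hfinal _ hw
    have h1 : bar x ⟨d⁻¹ * y * d, hw⟩ = (bar x d₀)⁻¹ * yb * bar x d₀ := by
      rw [← hdb, hyb, ← map_inv, ← map_mul, ← map_mul]
      rfl
    rw [h1]
    exact hd4

end Cfsg.Agent.Lib.IntrSL.GB4b
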