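/-
S1315 G-level. Lift of the diagonal. See PLAN.md.
-/
import Cfsg.Agent.Lib.IntrSL.Transport
import Cfsg.Agent.Lib.IntrSL.XDiag

set_option autoImplicit false
set_option linter.style.haveILetI false
set_option linter.unusedSectionVars false

namespace Cfsg.Agent.Lib.IntrSL.GDiag

open Subgroup Cfsg Cfsg.Agent.Lib.BpBalance.Basic Cfsg.Agent.Lib.Subnormal.Basic
  Cfsg.Agent.Lib.PTerm.Rel Cfsg.Agent.Lib.PTerm.Dict Cfsg.Agent.Lib.IntrSL.Defs
open scoped commutatorElement Pointwise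

universe u

variable {G : Type u} [Group G] [Finite G]

/-- `g` an involution of `C(y)` moving `K`. `XDiag.diag` in `Bar y` with `Q = img y K`, `t = ĝ`
(`Transport.mem_norm_iff`), lifted by `Transport.lift_SN`; `quot_img_equiv`, `card_img`. -/
theorem diagLift {K : Subgroup G} {y g : G} (hK : SLComp K y) (hg : g ∈ CC y) (hgg : g * g = 1)
    (hgK : g ∉ normalizer (K : Set G)) :
    ∃ D : Subgroup G, SN D (CC y ⊓ CC g) ∧ PT 2 ↥D ∧ IsSimpleGroup (↥D ⧸ oddCore ↥D) ∧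
      qcard D * 2 = qcard K ∧
      ∀ k ∈ K, ∃ e ∈ D, e * (k * (g * k * g⁻¹))⁻¹ ∈ OC 2 (CC y) := by
  haveI : Fact (Nat.Prime 2) := ⟨Nat.prime_two⟩
  set t : Bar y := bar y ⟨g, hg⟩ with ht_def
  have htt : t * t = 1 := by
    rw [ht_def, ← map_mul]
    have : (⟨g, hg⟩ : ↥(CC y)) * ⟨g, hg⟩ = 1 := Subtype.ext hgg
    rw [this, map_one]
  have hm : t ∉ normalizer ((img y K : Subgroup (Bar y)) : Set (Bar y)) := by
    intro h
    exact hgK ((Transport.mem_norm_iff hK ⟨g, hg⟩).mp h)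
  obtain ⟨S, hS, hSPT, hSs, hScard, hS1, -⟩ := XDiag.diag (Transport.compZ_img hK) htt hm
  obtain ⟨D, hD, hDPT, hDimg⟩ := Transport.lift_SN hg hgg hS hSPT
  have hDle : D ≤ CC y := hD.le.trans inf_le_left
  -- the odd core of `S` is trivial
  have hcore : oddCore ↥S = ⊥ := by
    rcases hSs.eq_bot_or_eq_top_of_normal (oddCore ↥S) inferInstance with h | h
    · exact h
    · exfalso
      have h1 : (Nat.card (oddCore ↥S)).Coprime 2 := Transport.pPrimeCore_coprime_aux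
      rw [h, Subgroup.card_top] at h1
      have h2 := PT.dvd_card hSPT
      have h3 := Nat.Coprime.coprime_dvd_left h2 h1
      exact absurd h3 (by norm_num)
  obtain ⟨e₁⟩ := Transport.quot_img_equiv hDle
  rw [hDimg] at e₁
  let e₂ : (↥D ⧸ oddCore ↥D) ≃* ↥S :=
    e₁.trans ((QuotientGroup.quotientMulEquivOfEq hcore).trans QuotientGroup.quotientBot)
  have hqc : qcard D = Nat.card ↥S := Nat.card_congr e₂.toEquiv
  refine ⟨D, hD, hDPT, e₂.isSimpleGroup, ?_, ?_⟩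
  · rw [hqc, hScard, Transport.card_img hK]
  · intro k hk
    have hkc : k ∈ CC y := hK.sn.le hk
    have h1 : bar y ⟨k, hkc⟩ ∈ img y K := ⟨⟨k, hkc⟩, mem_subgroupOf.mpr hk, rfl⟩
    have h2 := hS1 _ h1
    rw [← hDimg] at h2
    obtain ⟨e, heD, he⟩ := Transport.mem_img_iff.mp h2
    refine ⟨e, heD, ?_⟩
    have hgk : g * k * g⁻¹ ∈ CC y := (CC y).mul_mem ((CC y).mul_mem hg hkc) ((CC y).inv_mem hg)
    have h3 : bar y e = bar y ⟨k * (g * k * g⁻¹), (CC y).mul_mem hkc hgk⟩ := by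
      rw [he, ht_def]
      rw [← map_inv, ← map_mul, ← map_mul, ← map_mul]
      rfl
    exact (Transport.bar_eq_iff _ _).mp h3

end Cfsg.Agent.Lib.IntrSL.GDiag
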