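/-
S1315 G-level. Claim A: x normalizes K (same size) implies y normalizes J. See PLAN.md.
-/
import Cfsg.Agent.Lib.IntrSL.GA
import Cfsg.Agent.Lib.IntrSL.GDiag
import Cfsg.Agent.Lib.IntrSL.Lift

set_option autoImplicit false
set_option linter.style.haveILetI false
set_option linter.unusedSectionVars false

namespace Cfsg.Agent.Lib.IntrSL.GClaimA

open Subgroup Cfsg Cfsg.Agent.Lib.BpBalance.Basic Cfsg.Agent.Lib.Subnormal.Basic
  Cfsg.Agent.Lib.PTerm.Rel Cfsg.Agent.Lib.PTerm.Dict Cfsg.Agent.Lib.IntrSL.Defs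
open scoped commutatorElement Pointwise

universe u

variable {G : Type u} [Group G] [Finite G]

/-- Conjugating "normalizes and acts trivially" by `g`. -/
theorem conj_triv {K : Subgroup G} {b : G} (g : G) (hn : b ∈ normalizer (K : Set G))
    (ht : ∀ k ∈ K, b * k * b⁻¹ * k⁻¹ ∈ OC 2 K) :
    g * b * g⁻¹ ∈ normalizer ((Kc g K : Subgroup G) : Set G) ∧
      ∀ k ∈ Kc g K, (g * b * g⁻¹) * k * (g * b * g⁻¹)⁻¹ * k⁻¹ ∈ OC 2 (Kc g K) := by
  constructor
  · rw [mem_normalizer_iff]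
    intro c
    have e : g⁻¹ * ((g * b * g⁻¹) * c * (g * b * g⁻¹)⁻¹) * g = b * (g⁻¹ * c * g) * b⁻¹ := by group
    show c ∈ Kc g K ↔ (g * b * g⁻¹) * c * (g * b * g⁻¹)⁻¹ ∈ Kc g K
    rw [mem_Kc, mem_Kc, e]
    exact mem_normalizer_iff.mp hn _
  · intro k hk
    have h0 : g⁻¹ * k * g ∈ K := mem_Kc.mp hk
    have h1 := conj_mem_OC_Kc (p := 2) g (ht _ h0)
    have e : g * (b * (g⁻¹ * k * g) * b⁻¹ * (g⁻¹ * k * g)⁻¹) * g⁻¹ =
        (g * b * g⁻¹) * k * (g * b * g⁻¹)⁻¹ * k⁻¹ := by group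
    rwa [e] at h1

/-- The end of Claim A: pure computation with `lemmaA` and `SLComp.conj`.
`K' = Kc h K` has involution `y a x`, `J' = Kc w J` has involution `x y`;
`x y = (y a x) * a` is trivial on `K'`; `lemmaA (J',xy) (K',yax)`: `y a x` trivial on `J'`;
conjugate back by `w⁻¹`: `a x` trivial on `J`, so `a` (as `x ∈ J` central in `J`). -/
theorem claimA_end {J K : Subgroup G} {x y a h w : G} (hJ : SLComp J x) (hK : SLComp K y)
    (hc : x * y = y * x) (haa : a * a = 1) (ha1 : a ≠ 1) (hax : a * x = x * a)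
    (hay : a * y = y * a)
    (hh1 : h * y * h⁻¹ = y * a * x) (hh2 : h * a * h⁻¹ = a)
    (hw1 : w * x * w⁻¹ = x * y) (hw3 : w * a * w⁻¹ = a)
    (han : a ∈ normalizer (K : Set G)) (hat : ∀ k ∈ K, a * k * a⁻¹ * k⁻¹ ∈ OC 2 K) :
    a ∈ normalizer (J : Set G) ∧ ∀ j ∈ J, a * j * a⁻¹ * j⁻¹ ∈ OC 2 J := by
  have hx2 : x * x = 1 := by
    have := pow_orderOf_eq_one x
    rwa [hJ.ord, pow_two] at this
  have hy2 : y * y = 1 := by
    have := pow_orderOf_eq_one y
    rwa [hK.ord, pow_two] at this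
  have hK' := hK.conj h
  rw [hh1] at hK'
  have hJ' := hJ.conj w
  rw [hw1] at hJ'
  obtain ⟨han', hat'⟩ := conj_triv h han hat
  rw [hh2] at han' hat'
  have hxyc : x * y = (y * a * x) * a := by
    calc x * y = y * x := hc
      _ = y * ((a * a) * x) := by rw [haa, one_mul]
      _ = y * a * (a * x) := by group
      _ = y * a * (x * a) := by rw [hax]
      _ = (y * a * x) * a := by group
  have hcN : y * a * x ∈ normalizer ((Kc h K : Subgroup G) : Set G) := by
    rw [mem_normalizer_iff]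
    intro k
    have hmem : y * a * x ∈ Kc h K := hK'.mem
    constructor
    · intro hk
      exact (Kc h K).mul_mem ((Kc h K).mul_mem hmem hk) ((Kc h K).inv_mem hmem)
    · intro hk
      have := (Kc h K).mul_mem ((Kc h K).mul_mem ((Kc h K).inv_mem hmem) hk) hmem
      have e : (y * a * x)⁻¹ * (y * a * x * k * (y * a * x)⁻¹) * (y * a * x) = k := by group
      rwa [e] at this
  have hn' : x * y ∈ normalizer ((Kc h K : Subgroup G) : Set G) := by
    rw [hxyc]
    exact mul_mem hcN han'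
  have ht' : ∀ k ∈ Kc h K, (x * y) * k * (x * y)⁻¹ * k⁻¹ ∈ OC 2 (Kc h K) := by
    intro k hk
    have h0 := hat' k hk
    have hak : a * k * a⁻¹ ∈ Kc h K := (mem_normalizer_iff.mp han' k).mp hk
    have h1 : (a * k * a⁻¹) * (y * a * x) = (y * a * x) * (a * k * a⁻¹) := mem_CC.mp (hK'.sn.le hak)
    have e : (x * y) * k * (x * y)⁻¹ * k⁻¹ = a * k * a⁻¹ * k⁻¹ := by
      rw [hxyc]
      calc (y * a * x) * a * k * ((y * a * x) * a)⁻¹ * k⁻¹
          = ((y * a * x) * (a * k * a⁻¹)) * (y * a * x)⁻¹ * k⁻¹ := by group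
        _ = ((a * k * a⁻¹) * (y * a * x)) * (y * a * x)⁻¹ * k⁻¹ := by rw [h1]
        _ = a * k * a⁻¹ * k⁻¹ := by group
    rw [e]
    exact h0
  have hne : x * y ≠ y * a * x := by
    intro he
    apply ha1
    have h1 : y * x = y * (a * x) := by
      calc y * x = x * y := hc.symm
        _ = y * a * x := he
        _ = y * (a * x) := by group
    have h2 := mul_left_cancel h1
    exact (mul_eq_right.mp h2.symm)
  have hcom : (x * y) * (y * a * x) = (y * a * x) * (x * y) := by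
    have h1 : (x * y) * (y * a * x) = a := by
      calc (x * y) * (y * a * x) = x * (y * y) * a * x := by group
        _ = x * a * x := by rw [hy2, mul_one]
        _ = (a * x) * x := by rw [hax]
        _ = a * (x * x) := by group
        _ = a := by rw [hx2, mul_one]
    have h2 : (y * a * x) * (x * y) = a := by
      calc (y * a * x) * (x * y) = y * a * (x * x) * y := by group
        _ = y * a * y := by rw [hx2, mul_one]
        _ = y * (a * y) := by group
        _ = y * (y * a) := by rw [hay]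
        _ = (y * y) * a := by group
        _ = a := by rw [hy2, one_mul]
    rw [h1, h2]
  obtain ⟨hcn, hct⟩ := GA.lemmaA hJ' hK' hne hcom hn' ht'
  obtain ⟨hbn, hbt⟩ := conj_triv w⁻¹ hcn hct
  rw [Kc_inv_Kc] at hbn hbt
  have he : w⁻¹ * (y * a * x) * w⁻¹⁻¹ = a * x := by
    have h1 : y * a * x = w * (a * x) * w⁻¹ := by
      calc y * a * x = a * y * x := by rw [hay]
        _ = a * (y * x) := by group
        _ = a * (x * y) := by rw [hc]
        _ = (w * a * w⁻¹) * (w * x * w⁻¹) := by rw [hw3, hw1]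
        _ = w * (a * x) * w⁻¹ := by group
    rw [h1]
    group
  rw [he] at hbn hbt
  have hxN : x ∈ normalizer (J : Set G) := by
    rw [mem_normalizer_iff]
    intro k
    constructor
    · intro hk
      exact J.mul_mem (J.mul_mem hJ.mem hk) (J.inv_mem hJ.mem)
    · intro hk
      have := J.mul_mem (J.mul_mem (J.inv_mem hJ.mem) hk) hJ.mem
      have e : x⁻¹ * (x * k * x⁻¹) * x = k := by group
      rwa [e] at this
  have hae : a = (a * x) * x := by
    rw [mul_assoc, hx2, mul_one]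
  refine ⟨?_, ?_⟩
  · rw [hae]
    exact mul_mem hbn hxN
  · intro j hj
    have h1 := hbt j hj
    have h2 : j * x = x * j := mem_CC.mp (hJ.sn.le hj)
    have e : a * j * a⁻¹ * j⁻¹ = (a * x) * j * (a * x)⁻¹ * j⁻¹ := by
      calc a * j * a⁻¹ * j⁻¹ = ((a * x) * x) * j * ((a * x) * x)⁻¹ * j⁻¹ := by rw [← hae]
        _ = (a * x) * (x * j) * x⁻¹ * (a * x)⁻¹ * j⁻¹ := by group
        _ = (a * x) * (j * x) * x⁻¹ * (a * x)⁻¹ * j⁻¹ := by rw [h2]
        _ = (a * x) * j * (a * x)⁻¹ * j⁻¹ := by group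
    rw [e]
    exact h1

/-- A rank-three elementary abelian subgroup: lifting an action modulo an odd normal subgroup. -/
theorem lift_triple {H O : Subgroup G} (hO : O ≤ H) (hnO : ∀ h ∈ H, ∀ a ∈ O, h * a * h⁻¹ ∈ O)
    (hcop : (Nat.card O).Coprime 2) {x y a g x' y' a' : G} (hx : x ∈ H) (hy : y ∈ H) (ha : a ∈ H)
    (hg : g ∈ H) (hxx : x * x = 1) (hyy : y * y = 1) (haa : a * a = 1)
    (hxy : x * y = y * x) (hxa : x * a = a * x) (hya : y * a = a * y)
    (hx' : x' ∈ closure ({x, y, a} : Set G)) (hy' : y' ∈ closure ({x, y, a} : Set G))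
    (ha' : a' ∈ closure ({x, y, a} : Set G))
    (h1 : (g * x * g⁻¹) * x'⁻¹ ∈ O) (h2 : (g * y * g⁻¹) * y'⁻¹ ∈ O)
    (h3 : (g * a * g⁻¹) * a'⁻¹ ∈ O) :
    ∃ o ∈ O, (o * g) * x * (o * g)⁻¹ = x' ∧ (o * g) * y * (o * g)⁻¹ = y' ∧
      (o * g) * a * (o * g)⁻¹ = a' := by
  classical
  haveI : Fact (Nat.Prime 2) := ⟨Nat.prime_two⟩
  set E := closure ({x, y, a} : Set G) with hE
  have hxE : x ∈ E := subset_closure (by simp)
  have hyE : y ∈ E := subset_closure (by simp)
  have haE : a ∈ E := subset_closure (by simp)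
  have hEH : E ≤ H := by
    rw [hE, closure_le]
    rintro b (rfl | rfl | rfl)
    · exact hx
    · exact hy
    · exact ha
  -- every element of `E` commutes with the generators
  have hcg : ∀ e ∈ E, e * x = x * e ∧ e * y = y * e ∧ e * a = a * e := by
    intro e he
    induction he using closure_induction with
    | mem b hb =>
      rcases hb with rfl | rfl | rfl
      · exact ⟨rfl, hxy, hxa⟩
      · exact ⟨hxy.symm, rfl, hya⟩
      · exact ⟨hxa.symm, hya.symm, rfl⟩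
    | one => simp
    | mul b c _ _ hb hc =>
      refine ⟨?_, ?_, ?_⟩
      · rw [mul_assoc, hc.1, ← mul_assoc, hb.1, mul_assoc]
      · rw [mul_assoc, hc.2.1, ← mul_assoc, hb.2.1, mul_assoc]
      · rw [mul_assoc, hc.2.2, ← mul_assoc, hb.2.2, mul_assoc]
    | inv b _ hb =>
      exact ⟨Commute.inv_left hb.1, Commute.inv_left hb.2.1, Commute.inv_left hb.2.2⟩
  have hcomm : ∀ e ∈ E, ∀ f ∈ E, e * f = f * e := by
    intro e he f hf
    induction hf using closure_induction with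
    | mem b hb =>
      rcases hb with rfl | rfl | rfl
      · exact (hcg e he).1
      · exact (hcg e he).2.1
      · exact (hcg e he).2.2
    | one => simp
    | mul b c _ _ hb hc => rw [← mul_assoc, hb, mul_assoc, hc, mul_assoc]
    | inv b _ hb => exact Commute.inv_right hb
  have hsq : ∀ e ∈ E, e * e = 1 := by
    intro e he
    induction he using closure_induction with
    | mem b hb =>
      rcases hb with rfl | rfl | rfl
      · exact hxx
      · exact hyy
      · exact haa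
    | one => simp
    | mul b c hb' hc' hb hc =>
      calc b * c * (b * c) = b * (c * b) * c := by group
        _ = b * (b * c) * c := by rw [hcomm c hc' b hb']
        _ = (b * b) * (c * c) := by group
        _ = 1 := by rw [hb, hc, one_mul]
    | inv b _ hb =>
      rw [← mul_inv_rev, hb, inv_one]
  have hE2 : IsPGroup 2 ↥E := by
    intro e
    refine ⟨1, ?_⟩
    apply Subtype.ext
    rw [pow_one, Subgroup.coe_pow, Subgroup.coe_one, pow_two]
    exact hsq e e.2
  -- existence of the images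
  have hex : ∀ e ∈ E, ∃ f ∈ E, (g * e * g⁻¹) * f⁻¹ ∈ O := by
    intro e he
    induction he using closure_induction with
    | mem b hb =>
      rcases hb with rfl | rfl | rfl
      · exact ⟨x', hx', h1⟩
      · exact ⟨y', hy', h2⟩
      · exact ⟨a', ha', h3⟩
    | one => exact ⟨1, E.one_mem, by simp [O.one_mem]⟩
    | mul b c hb' hc' hb hc =>
      obtain ⟨f₁, hf₁, h4⟩ := hb
      obtain ⟨f₂, hf₂, h5⟩ := hc
      refine ⟨f₁ * f₂, E.mul_mem hf₁ hf₂, ?_⟩
      have hgb : g * b * g⁻¹ ∈ H :=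
        H.mul_mem (H.mul_mem hg (hEH hb')) (H.inv_mem hg)
      have e : (g * (b * c) * g⁻¹) * (f₁ * f₂)⁻¹ =
          (g * b * g⁻¹) * ((g * c * g⁻¹) * f₂⁻¹) * (g * b * g⁻¹)⁻¹ * ((g * b * g⁻¹) * f₁⁻¹) := by
        group
      rw [e]
      exact O.mul_mem (hnO _ hgb _ h5) h4
    | inv b hb' hb =>
      obtain ⟨f, hf, h4⟩ := hb
      refine ⟨f⁻¹, E.inv_mem hf, ?_⟩
      have e : (g * b⁻¹ * g⁻¹) * (f⁻¹)⁻¹ = f⁻¹ * (((g * b * g⁻¹) * f⁻¹)⁻¹) * f := by
        group
      rw [e]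
      have hfH := hEH hf
      have := hnO f⁻¹ (H.inv_mem hfH) _ (O.inv_mem h4)
      rwa [inv_inv] at this
  let φ : G → G := fun e => if he : e ∈ E then (hex e he).choose else e
  have hφ : ∀ e ∈ E, φ e ∈ E ∧ (g * e * g⁻¹) * (φ e)⁻¹ ∈ O := by
    intro e he
    simp only [φ, dif_pos he]
    exact (hex e he).choose_spec
  have huniq : ∀ e ∈ E, ∀ f ∈ E, (g * e * g⁻¹) * f⁻¹ ∈ O → φ e = f := by
    intro e he f hf h4
    obtain ⟨h5, h6⟩ := hφ e he
    have h7 : φ e * f⁻¹ ∈ O := by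
      have e1 : φ e * f⁻¹ = ((g * e * g⁻¹) * (φ e)⁻¹)⁻¹ * ((g * e * g⁻¹) * f⁻¹) := by group
      rw [e1]
      exact O.mul_mem (O.inv_mem h6) h4
    have h8 := Lift.eq_one_of_mem hE2 hcop (E.mul_mem h5 (E.inv_mem hf)) h7
    exact mul_inv_eq_one.mp h8
  obtain ⟨o, ho, hact⟩ := Lift.lift_action hO hnO hcop hEH hE2 hg φ hφ
  refine ⟨o, ho, ?_, ?_, ?_⟩
  · rw [hact x hxE]
    exact huniq x hxE x' hx' h1
  · rw [hact y hyE]
    exact huniq y hyE y' hy' h2
  · rw [hact a haE]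
    exact huniq a haE a' ha' h3

/-- **Claim A.** See PLAN.md. -/
theorem claimA {J K : Subgroup G} {x y : G} (hJ : SLComp J x) (hK : SLComp K y) (hxy : x ≠ y)
    (hc : x * y = y * x) (hn : x ∈ normalizer (K : Set G)) (hsize : qcard J = qcard K) :
    y ∈ normalizer (J : Set G) := by
  haveI : Fact (Nat.Prime 2) := ⟨Nat.prime_two⟩
  by_contra hy
  have hx2 : x * x = 1 := by
    have := pow_orderOf_eq_one x
    rwa [hJ.ord, pow_two] at this
  have hy2 : y * y = 1 := by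
    have := pow_orderOf_eq_one y
    rwa [hK.ord, pow_two] at this
  have hyx : y ∈ CC x := mem_CC.mpr hc.symm
  have hxy' : x ∈ CC y := mem_CC.mpr hc
  -- Step 1
  have hnt : ¬ ∀ k ∈ K, x * k * x⁻¹ * k⁻¹ ∈ OC 2 K := fun ht =>
    hy (GA.lemmaA hJ hK hxy hc hn ht).1
  -- Step 2
  obtain ⟨D, hDsn, hDPT, hDs, hDq, hDe⟩ := GDiag.diagLift hJ hyx hy2 hy
  have hDx : D ≤ CC x := hDsn.le.trans inf_le_left
  have hDy : D ≤ CC y := hDsn.le.trans inf_le_right
  -- Step 3
  set xh : Bar y := bar y ⟨x, hxy'⟩ with hxh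
  have hxhxh : xh * xh = 1 := by
    rw [hxh, ← map_mul]
    have : (⟨x, hxy'⟩ : ↥(CC y)) * ⟨x, hxy'⟩ = 1 := Subtype.ext hx2
    rw [this, map_one]
  have hCK := Transport.compZ_img hK
  have hxhn : xh ∈ normalizer ((img y K : Subgroup (Bar y)) : Set (Bar y)) :=
    (Transport.mem_norm_iff hK ⟨x, hxy'⟩).mpr hn
  have hxhnt : ∃ j ∈ img y K, xh * j * xh⁻¹ ≠ j := by
    by_contra h
    push Not at h
    apply hnt
    have := (Transport.cent_iff hK ⟨x, hxy'⟩).mp (by
      intro q hq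
      have h6 := h q hq
      rw [mul_inv_eq_iff_eq_mul] at h6
      exact h6)
    exact this.2
  have hLsn : SN (img y D) (CC xh) := Transport.img_SN hxy' hx2 (by rw [inf_comm]; exact hDsn)
  have hLPT : PT 2 ↥(img y D) := Transport.img_PT hDy hDPT
  obtain ⟨e₁⟩ := Transport.quot_img_equiv hDy
  have hLs : IsSimpleGroup (↥(img y D) ⧸ oddCore ↥(img y D)) := e₁.symm.isSimpleGroup
  have hLcard : Nat.card (↥(img y D) ⧸ oddCore ↥(img y D)) * 2 = Nat.card (img y K) := by
    rw [Transport.card_img hK, ← hsize, ← hDq]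
    congr 1
    exact (Nat.card_congr e₁.toEquiv).symm
  have hcent := XO2.comp_centralizes hCK hxhxh hxhn hxhnt hLsn hLPT hLs hLcard
  -- every `a ∈ D` is trivial on K
  have hDK : ∀ a (ha : a ∈ D), a ∈ normalizer (K : Set G) ∧
      ∀ k ∈ K, a * k * a⁻¹ * k⁻¹ ∈ OC 2 K := by
    intro a ha
    refine (Transport.cent_iff hK ⟨a, hDy ha⟩).mp ?_
    intro q hq
    have h6 := hcent (bar y ⟨a, hDy ha⟩) ⟨⟨a, hDy ha⟩, mem_subgroupOf.mpr ha, rfl⟩ q hq
    rw [mul_inv_eq_iff_eq_mul] at h6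
    exact h6
  -- Step 4
  set yb : Bar x := bar x ⟨y, hyx⟩ with hyb
  have hCJ := Transport.compZ_img hJ
  have hybn : yb ∉ normalizer ((img x J : Subgroup (Bar x)) : Set (Bar x)) := fun h =>
    hy ((Transport.mem_norm_iff hJ ⟨y, hyx⟩).mp h)
  obtain ⟨hcom, hint⟩ := XDiag.comm_conj hCJ hybn
  obtain ⟨⟨r, hrmem⟩, hr⟩ := hCJ.qt.exists_sq
  have hrr : r * r = barz x := congrArg Subtype.val hr
  obtain ⟨k₀, hk₀J, hk₀r⟩ := Transport.mem_img_iff.mp hrmem
  have hzne : barz x ≠ 1 := by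
    intro h
    have h1 := hCJ.qt.ord
    have h2 : (⟨barz x, hCJ.mem⟩ : ↥(img x J)) = 1 := Subtype.ext h
    rw [h2, orderOf_one] at h1
    exact absurd h1 (by norm_num)
  have hzz : barz x * barz x = 1 := by
    rw [← map_mul]
    have : (⟨x, self_mem_CC x⟩ : ↥(CC x)) * ⟨x, self_mem_CC x⟩ = 1 := Subtype.ext hx2
    rw [this, map_one]
  have hzcen : ∀ a : Bar x, a * barz x = barz x * a := hCJ.cen
  have hr1 : r ≠ 1 := by
    intro h
    rw [h, one_mul] at hrr
    exact hzne hrr.symm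
  have hrz : r ≠ barz x := by
    intro h
    rw [h, hzz] at hrr
    exact hzne hrr.symm
  have hyb2 : yb * yb = 1 := by
    rw [hyb, ← map_mul]
    have : (⟨y, hyx⟩ : ↥(CC x)) * ⟨y, hyx⟩ = 1 := Subtype.ext hy2
    rw [this, map_one]
  obtain ⟨r', hr'⟩ : ∃ r', r' = yb * r * yb⁻¹ := ⟨_, rfl⟩
  have hrr' : r * r' = r' * r := by
    rw [hr']
    exact hcom r hrmem r hrmem
  have hr'r' : r' * r' = barz x := by
    rw [hr']
    calc yb * r * yb⁻¹ * (yb * r * yb⁻¹) = yb * (r * r) * yb⁻¹ := by group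
      _ = yb * barz x * yb⁻¹ := by rw [hrr]
      _ = barz x * yb * yb⁻¹ := by rw [hzcen yb]
      _ = barz x := by group
  have hr'inv : r'⁻¹ = r' * barz x := by
    rw [inv_eq_iff_mul_eq_one, ← mul_assoc, hr'r', hzz]
  -- the element `e`
  obtain ⟨e, heD, he⟩ := hDe k₀ hk₀J
  have hbe : bar x ⟨e, hDx heD⟩ = r * r' := by
    have h1 : bar x ⟨e, hDx heD⟩ = bar x (k₀ * (⟨y, hyx⟩ * k₀ * (⟨y, hyx⟩ : ↥(CC x))⁻¹)) :=
      (Transport.bar_eq_iff _ _).mpr he
    rw [h1, hr', map_mul, map_mul, map_mul, map_inv, hk₀r]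
  have hbe2 : (r * r') * (r * r') = 1 := by
    calc (r * r') * (r * r') = r * (r' * r) * r' := by group
      _ = r * (r * r') * r' := by rw [hrr']
      _ = (r * r) * (r' * r') := by group
      _ = 1 := by rw [hrr, hr'r', hzz]
  have hbe1 : r * r' ≠ 1 := by
    intro h
    have h1 : r = yb * r⁻¹ * yb⁻¹ := by
      have h2 : r = r'⁻¹ := eq_inv_of_mul_eq_one_left h
      calc r = r'⁻¹ := h2
        _ = yb * r⁻¹ * yb⁻¹ := by
          rw [hr']
          group
    rcases hint r hrmem r⁻¹ (inv_mem hrmem) h1 with h2 | h2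
    · exact hr1 h2
    · exact hrz h2
  have hker : (Nat.card (bar x).ker).Coprime 2 := by
    rw [QuotientGroup.ker_mk']
    exact Transport.pPrimeCore_coprime_aux
  obtain ⟨t, ht1, ht2, ht3⟩ := exists_lift_order_p (p := 2) (bar x) hker
    (l := (⟨e, hDx heD⟩ : ↥(CC x))) (by rw [pow_two, hbe]; exact hbe2) (by rw [hbe]; exact hbe1)
  obtain ⟨a, haD, haa, ha1, hab⟩ : ∃ a, ∃ haD : a ∈ D, a * a = 1 ∧ a ≠ 1 ∧ bar x ⟨a, hDx haD⟩ = r * r' := by
    refine ⟨e ^ t, D.pow_mem heD t, ?_, ?_, ?_⟩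
    · have := congrArg Subtype.val ht2
      rw [pow_two] at this
      exact this
    · intro h
      apply ht3
      exact Subtype.ext h
    · rw [← hbe, ← ht1]
      rfl
  have hax : a * x = x * a := mem_CC.mp (hDx haD)
  have hay : a * y = y * a := mem_CC.mp (hDy haD)
  have hax' : a ∈ CC x := hDx haD
  have hay' : a ∈ CC y := hDy haD
  have hxE : x ∈ closure ({x, y, a} : Set G) := subset_closure (by simp)
  have hyE : y ∈ closure ({x, y, a} : Set G) := subset_closure (by simp)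
  have haE : a ∈ closure ({x, y, a} : Set G) := subset_closure (by simp)
  -- the element `h`
  have hab_yb : (r * r') * yb = yb * (r * r') := by
    rw [← hab]
    have h1 : (⟨a, hax'⟩ : ↥(CC x)) * ⟨y, hyx⟩ = ⟨y, hyx⟩ * ⟨a, hax'⟩ := Subtype.ext hay
    have h2 := congrArg (bar x) h1
    rwa [map_mul, map_mul] at h2
  have hk₀x : (k₀ : G) * x * (k₀ : G)⁻¹ * x⁻¹ = 1 := by
    have h1 : (k₀ : G) * x = x * k₀ := mem_CC.mp k₀.2
    rw [h1]
    group
  have hkey : r * yb * r⁻¹ = yb * (r * r') * barz x := by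
    have h1 : r⁻¹ = yb⁻¹ * r'⁻¹ * yb := by
      rw [hr']
      group
    calc r * yb * r⁻¹ = r * r'⁻¹ * yb := by
          rw [h1]
          group
      _ = r * (r' * barz x) * yb := by rw [hr'inv]
      _ = (r * r') * (barz x * yb) := by group
      _ = (r * r') * (yb * barz x) := by rw [hzcen yb]
      _ = ((r * r') * yb) * barz x := by group
      _ = yb * (r * r') * barz x := by rw [hab_yb]
  have hkey2 : r * (r * r') * r⁻¹ = r * r' := by
    calc r * (r * r') * r⁻¹ = r * (r' * r) * r⁻¹ := by rw [hrr']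
      _ = r * r' := by group
  obtain ⟨o, ho, hh0, hh1, hh2⟩ := lift_triple (H := CC x) (O := OC 2 (CC x)) (OC_le _)
    (fun h hh a ha => conj_mem_OC hh ha) (OC_coprime _) (self_mem_CC x) hyx hax' k₀.2 hx2 hy2 haa
    hc hax.symm hay.symm hxE (mul_mem (mul_mem hyE haE) hxE) haE
    (by rw [hk₀x]; exact (OC 2 (CC x)).one_mem)
    ((Transport.bar_eq_iff (k₀ * ⟨y, hyx⟩ * k₀⁻¹)
      ((⟨y, hyx⟩ : ↥(CC x)) * ⟨a, hax'⟩ * ⟨x, self_mem_CC x⟩)).mp (by
        rw [map_mul, map_mul, map_mul, map_mul, map_inv, hab, hk₀r]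
        exact hkey))
    ((Transport.bar_eq_iff (k₀ * ⟨a, hax'⟩ * k₀⁻¹) (⟨a, hax'⟩ : ↥(CC x))).mp (by
        rw [map_mul, map_mul, map_inv, hab, hk₀r]
        exact hkey2))
  -- the element `w`
  obtain ⟨u, huK, hu1, hu2⟩ := Flip.flip hCK hxhxh hxhn hxhnt
  obtain ⟨u₀, hu₀K, hu₀⟩ := Transport.mem_img_iff.mp huK
  have hL_a : bar y ⟨a, hay'⟩ ∈ img y D := ⟨⟨a, hay'⟩, mem_subgroupOf.mpr haD, rfl⟩
  have huah : u * bar y ⟨a, hay'⟩ * u⁻¹ = bar y ⟨a, hay'⟩ := by
    have h6 := hcent _ hL_a u huK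
    rw [mul_inv_eq_iff_eq_mul] at h6 ⊢
    exact h6.symm
  have hu₀y : (u₀ : G) * y * (u₀ : G)⁻¹ * y⁻¹ = 1 := by
    have h1 : (u₀ : G) * y = y * u₀ := mem_CC.mp u₀.2
    rw [h1]
    group
  have hxyE : x * y ∈ closure ({x, y, a} : Set G) := mul_mem hxE hyE
  obtain ⟨o', ho', hw1, hw2, hw3⟩ := lift_triple (H := CC y) (O := OC 2 (CC y)) (OC_le _)
    (fun h hh a ha => conj_mem_OC hh ha) (OC_coprime _) hxy' (self_mem_CC y) hay' u₀.2 hx2 hy2 haa
    hc hax.symm hay.symm hxyE hyE haE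
    ((Transport.bar_eq_iff (u₀ * ⟨x, hxy'⟩ * u₀⁻¹)
      ((⟨x, hxy'⟩ : ↥(CC y)) * ⟨y, self_mem_CC y⟩)).mp (by
        rw [map_mul, map_mul, map_mul, map_inv, hu₀]
        exact hu1))
    (by rw [hu₀y]; exact (OC 2 (CC y)).one_mem)
    ((Transport.bar_eq_iff (u₀ * ⟨a, hay'⟩ * u₀⁻¹) (⟨a, hay'⟩ : ↥(CC y))).mp (by
        rw [map_mul, map_mul, map_inv, hu₀]
        exact huah))
  -- the contradiction
  obtain ⟨han, hat⟩ := hDK a haD
  have hfin := claimA_end hJ hK hc haa ha1 hax hay hh1 hh2 hw1 hw3 han hat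
  have hfin2 := (Transport.cent_iff hJ ⟨a, hax'⟩).mpr hfin
  rw [hab] at hfin2
  have hrcen : (⟨r, hrmem⟩ : ↥(img x J)) ∈ Subgroup.center ↥(img x J) := by
    rw [Subgroup.mem_center_iff]
    rintro ⟨q, hq⟩
    apply Subtype.ext
    show q * r = r * q
    have h1 := hfin2 q hq
    have h2 : q * r' = r' * q := by
      rw [hr']
      exact hcom q hq r hrmem
    have h3 : (q * r) * r' = (r * q) * r' := by
      calc (q * r) * r' = q * (r * r') := by group
        _ = (r * r') * q := h1.symm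
        _ = r * (r' * q) := by group
        _ = r * (q * r') := by rw [h2]
        _ = (r * q) * r' := by group
    exact mul_right_cancel h3
  rcases (hCJ.qt.center_iff _).mp hrcen with h | h
  · exact hr1 (congrArg Subtype.val h)
  · exact hrz (congrArg Subtype.val h)

end Cfsg.Agent.Lib.IntrSL.GClaimA
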