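/-
S1315 G-level. The final contradiction. See PLAN.md.
-/
import Cfsg.Agent.Lib.IntrSL.GBg
import Cfsg.Agent.Lib.IntrSL.GDiag

set_option autoImplicit false
set_option linter.style.haveILetI false
set_option linter.unusedSectionVars false

namespace Cfsg.Agent.Lib.IntrSL.GFinal

open Subgroup Cfsg Cfsg.Agent.Lib.BpBalance.Basic Cfsg.Agent.Lib.Subnormal.Basic
  Cfsg.Agent.Lib.PTerm.Rel Cfsg.Agent.Lib.PTerm.Dict Cfsg.Agent.Lib.IntrSL.Defs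
  Cfsg.Agent.Lib.IntrSL.Transport
open scoped commutatorElement Pointwise

universe u

variable {G : Type u} [Group G] [Finite G]

theorem center_bot_aux {Q : Type u} [Group Q] (h1 : IsQuasisimple Q) (h2 : IsSimpleGroup Q) :
    Subgroup.center Q = ⊥ := by
  rcases h2.eq_bot_or_eq_top_of_normal (Subgroup.center Q) inferInstance with h | h
  · exact h
  · exfalso
    have h3 : IsSimpleGroup (Q ⧸ Subgroup.center Q) := h1.2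
    obtain ⟨a, b, hab⟩ := h3.toNontrivial
    apply hab
    obtain ⟨a, rfl⟩ := QuotientGroup.mk_surjective a
    obtain ⟨b, rfl⟩ := QuotientGroup.mk_surjective b
    exact QuotientGroup.eq.mpr (by rw [h]; trivial)

theorem center_aux {N D : Subgroup G} (hD : SN D N) (hPT : PT 2 ↥D)
    (hS : IsSimpleGroup (↥D ⧸ oddCore ↥D)) {e : G} (he : e ∈ D)
    (h : ∀ b ∈ D, e * b * e⁻¹ * b⁻¹ ∈ OC 2 N) : e ∈ OC 2 N := by
  have hqs : IsQuasisimple (↥D ⧸ pPrimeCore 2 ↥D) := PT.quasisimple_quot hPT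
  have hc : Subgroup.center (↥D ⧸ oddCore ↥D) = ⊥ := center_bot_aux hqs hS
  have hOC : OC 2 D = OC 2 N ⊓ D := OC_of_SN hD
  have h1 : QuotientGroup.mk' (pPrimeCore 2 ↥D) (⟨e, he⟩ : ↥D) ∈
      Subgroup.center (↥D ⧸ oddCore ↥D) := by
    rw [Subgroup.mem_center_iff]
    intro q
    obtain ⟨b, rfl⟩ := QuotientGroup.mk'_surjective (pPrimeCore 2 ↥D) q
    have h2 : (((⟨e, he⟩ : ↥D) * b * (⟨e, he⟩ : ↥D)⁻¹ * b⁻¹ : ↥D) : G) ∈ OC 2 D := by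
      rw [hOC]
      exact ⟨h b b.2, Subtype.property _⟩
    have h3 := (mk_eq_one_iff (p := 2) _).mpr h2
    simp only [map_mul, map_inv] at h3
    have h4 := mul_inv_eq_one.mp h3
    have h5 := mul_inv_eq_iff_eq_mul.mp h4
    exact h5.symm
  rw [hc, Subgroup.mem_bot] at h1
  have h4 := (mk_eq_one_iff (p := 2) (⟨e, he⟩ : ↥D)).mp h1
  rw [hOC] at h4
  exact h4.1

theorem comm_congr {N O : Subgroup G} (hO : ∀ h ∈ N, ∀ a ∈ O, h * a * h⁻¹ ∈ O) {a a' b : G}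
    (hb : b ∈ N) (h : a * a'⁻¹ ∈ O) (hc : a' * b * a'⁻¹ * b⁻¹ ∈ O) :
    a * b * a⁻¹ * b⁻¹ ∈ O := by
  have h1 : a * b * a⁻¹ * b⁻¹ =
      (a * a'⁻¹) * (a' * b * a'⁻¹ * b⁻¹) * (b * (a * a'⁻¹)⁻¹ * b⁻¹) := by group
  rw [h1]
  exact O.mul_mem (O.mul_mem h hc) (hO b hb _ (O.inv_mem h))

theorem abstract_end {N D₁ D₂ : Subgroup G} (hD₁ : SN D₁ N) (hD₂ : SN D₂ N) (hP₁ : PT 2 ↥D₁)
    (hP₂ : PT 2 ↥D₂) (hS₁ : IsSimpleGroup (↥D₁ ⧸ oddCore ↥D₁))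
    (hS₂ : IsSimpleGroup (↥D₂ ⧸ oddCore ↥D₂)) {x y y₂ e₁ e₂ : G} (hxN : x ∈ N) (hyN : y ∈ N)
    (hy₂N : y₂ ∈ N) (hyc : ∀ a ∈ N, a * y = y * a) (hy₂c : ∀ a ∈ N, a * y₂ = y₂ * a)
    (hyy : y * y = 1) (hy₂y₂ : y₂ * y₂ = 1) (he₁ : e₁ ∈ D₁) (he₂ : e₂ ∈ D₂)
    (h₁ : e₁ * (x * y)⁻¹ ∈ OC 2 N) (h₂ : e₂ * (x * y₂)⁻¹ ∈ OC 2 N) :
    y * y₂ ∈ OC 2 N ∨ x * y₂ ∈ OC 2 N := by
  have hO : ∀ h ∈ N, ∀ a ∈ OC 2 N, h * a * h⁻¹ ∈ OC 2 N := fun h hh a ha => conj_mem_OC hh ha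
  have hcent : ∀ a ∈ N, (y * y₂) * a * (y * y₂)⁻¹ = a := by
    intro a ha
    have h1 : a * (y * y₂) = (y * y₂) * a := by
      rw [← mul_assoc, hyc a ha, mul_assoc, hy₂c a ha, mul_assoc]
    rw [← h1]; group
  have hy₂i : y₂⁻¹ = y₂ := inv_eq_of_mul_eq_one_left hy₂y₂
  have hyi : y⁻¹ = y := inv_eq_of_mul_eq_one_left hyy
  have hcomm := pcomp_eq_or_comm (p := 2) (isPComponentOf_iff.mpr ⟨hD₁, hP₁⟩)
    (isPComponentOf_iff.mpr ⟨hD₂, hP₂⟩)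
  rcases hcomm with heq | hcomm
  · left
    subst heq
    have hee : (e₁ * e₂⁻¹) * (y * y₂)⁻¹ ∈ OC 2 N := by
      have h3 : (e₁ * e₂⁻¹) * (y * y₂)⁻¹ =
          (e₁ * (x * y)⁻¹) * ((y * y₂) * (e₂ * (x * y₂)⁻¹)⁻¹ * (y * y₂)⁻¹) := by
        have hk : (x * y)⁻¹ * ((y * y₂) * (x * y₂)) = 1 := by
          have h4 : y₂ * x = x * y₂ := (hy₂c x hxN).symm
          have h5 : (y * y₂) * (x * y₂) = x * y := by
            calc (y * y₂) * (x * y₂) = y * (y₂ * x) * y₂ := by group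
              _ = y * (x * y₂) * y₂ := by rw [h4]
              _ = y * x * (y₂ * y₂) := by group
              _ = x * y := by rw [hy₂y₂, mul_one, hyc x hxN]
          rw [h5]; group
        calc (e₁ * e₂⁻¹) * (y * y₂)⁻¹ = e₁ * 1 * e₂⁻¹ * (y * y₂)⁻¹ := by group
          _ = e₁ * ((x * y)⁻¹ * ((y * y₂) * (x * y₂))) * e₂⁻¹ * (y * y₂)⁻¹ := by rw [hk]
          _ = _ := by group
      rw [h3]
      exact (OC 2 N).mul_mem h₁ (hO _ (N.mul_mem hyN hy₂N) _ ((OC 2 N).inv_mem h₂))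
    have hc1 : ∀ b ∈ D₁, (e₁ * e₂⁻¹) * b * (e₁ * e₂⁻¹)⁻¹ * b⁻¹ ∈ OC 2 N := by
      intro b hb
      refine comm_congr hO (hD₁.le hb) hee ?_
      rw [hcent b (hD₁.le hb), mul_inv_cancel]
      exact (OC 2 N).one_mem
    have h5 := center_aux hD₁ hP₁ hS₁ (D₁.mul_mem he₁ (D₁.inv_mem he₂)) hc1
    have h6 : y * y₂ = ((e₁ * e₂⁻¹) * (y * y₂)⁻¹)⁻¹ * (e₁ * e₂⁻¹) := by group
    rw [h6]
    exact (OC 2 N).mul_mem ((OC 2 N).inv_mem hee) h5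
  · right
    have hee : e₂ * (e₁ * (y * y₂))⁻¹ ∈ OC 2 N := by
      have h3 : e₂ * (e₁ * (y * y₂))⁻¹ = (e₂ * (x * y₂)⁻¹) * (e₁ * (x * y)⁻¹)⁻¹ := by
        have h4 : (x * y₂)⁻¹ * (x * y) = (y * y₂)⁻¹ := by
          have h5 : (x * y₂)⁻¹ * (x * y) = y₂⁻¹ * y := by group
          rw [h5, hy₂i, mul_inv_rev, hy₂i, hyi]
        calc e₂ * (e₁ * (y * y₂))⁻¹ = e₂ * ((y * y₂)⁻¹ * e₁⁻¹) := by group
          _ = e₂ * (((x * y₂)⁻¹ * (x * y)) * e₁⁻¹) := by rw [h4]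
          _ = (e₂ * (x * y₂)⁻¹) * (e₁ * (x * y)⁻¹)⁻¹ := by group
      rw [h3]
      exact (OC 2 N).mul_mem h₂ ((OC 2 N).inv_mem h₁)
    have hc1 : ∀ b ∈ D₂, e₂ * b * e₂⁻¹ * b⁻¹ ∈ OC 2 N := by
      intro b hb
      refine comm_congr hO (hD₂.le hb) hee ?_
      have h3 : (e₁ * (y * y₂)) * b * (e₁ * (y * y₂))⁻¹ * b⁻¹ = e₁ * b * e₁⁻¹ * b⁻¹ := by
        have h4 := hcent b (hD₂.le hb)
        calc (e₁ * (y * y₂)) * b * (e₁ * (y * y₂))⁻¹ * b⁻¹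
            = e₁ * ((y * y₂) * b * (y * y₂)⁻¹) * e₁⁻¹ * b⁻¹ := by group
          _ = e₁ * b * e₁⁻¹ * b⁻¹ := by rw [h4]
      rw [h3]
      exact hcomm e₁ he₁ b hb
    have h5 := center_aux hD₂ hP₂ hS₂ he₂ hc1
    have h6 : x * y₂ = (e₂ * (x * y₂)⁻¹)⁻¹ * e₂ := by group
    rw [h6]
    exact (OC 2 N).mul_mem ((OC 2 N).inv_mem h₂) h5

theorem isP2_of_pow {Q : Type u} [Group Q] {z : Q} {n : ℕ} (h : z ^ (2 ^ n) = 1) :
    IsPGroup 2 ↥(zpowers z) := by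
  intro q
  obtain ⟨k, hk⟩ := Subgroup.mem_zpowers_iff.mp q.2
  refine ⟨n, Subtype.ext ?_⟩
  rw [Subgroup.coe_pow, ← hk, ← zpow_natCast, ← zpow_mul, mul_comm, zpow_mul, zpow_natCast, h,
    one_zpow]
  rfl

theorem alg1 {s g x : G} (hgg : g * g = 1) (hsx : s * x = x * s) :
    s * (g * s * g⁻¹) = (s * (g⁻¹ * (s * g * s⁻¹) * x⁻¹) * s⁻¹) * (x * (s * s)) := by
  have hgi : g⁻¹ = g := inv_eq_of_mul_eq_one_left hgg
  have h : x⁻¹ * s⁻¹ * x = s⁻¹ := by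
    have h1 : x⁻¹ * s⁻¹ = s⁻¹ * x⁻¹ := by
      rw [← mul_inv_rev, ← mul_inv_rev, hsx]
    rw [h1]; group
  calc s * (g * s * g⁻¹) = s * g⁻¹ * s * g := by rw [hgi]; group
    _ = s * g⁻¹ * s * g * s⁻¹ * s⁻¹ * s * s := by group
    _ = s * g⁻¹ * s * g * s⁻¹ * (x⁻¹ * s⁻¹ * x) * s * s := by rw [h]
    _ = _ := by group

theorem step {J K : Subgroup G} {x y s g : G} (hJ : SLComp J x) (hK : SLComp K y) (hxy : x ≠ y)
    (hc : x * y = y * x) (hs : s ∈ K) (hsx : s * x = x * s)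
    (hss : s * s = y) (hsJ : s ∉ normalizer (J : Set G)) (hyJ : y ∈ normalizer (J : Set G))
    (hgx : g ∈ CC x) (hgy : g ∈ CC y) (hgg : g * g = 1)
    (hcg : (g⁻¹ * (s * g * s⁻¹)) * x⁻¹ ∈ OC 2 (CC x)) :
    ∃ D : Subgroup G, SN D (CC y ⊓ CC g) ∧ PT 2 ↥D ∧ IsSimpleGroup (↥D ⧸ oddCore ↥D) ∧
      ∃ e ∈ D, e * (x * y)⁻¹ ∈ OC 2 (CC y ⊓ CC g) := by
  haveI : Fact (Nat.Prime 2) := ⟨Nat.prime_two⟩
  have hxx : x ∈ CC x := self_mem_CC x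
  have hCx : g⁻¹ * (s * g * s⁻¹) ∈ CC x := by
    have h1 : g⁻¹ * (s * g * s⁻¹) = ((g⁻¹ * (s * g * s⁻¹)) * x⁻¹) * x := by group
    rw [h1]
    exact (CC x).mul_mem (OC_le _ hcg) hxx
  have hbar : bar x ⟨g⁻¹ * (s * g * s⁻¹), hCx⟩ = barz x := (bar_eq_iff _ _).mpr hcg
  have hC1 : bar x ⟨g⁻¹ * (s * g * s⁻¹), hCx⟩ ∈ img x J := by
    rw [hbar]
    exact mem_img_iff.mpr ⟨⟨x, hxx⟩, hJ.mem, rfl⟩
  have hxord : x * x = 1 := by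
    have h1 := pow_orderOf_eq_one x
    rw [hJ.ord, pow_two] at h1
    exact h1
  have hyord : y * y = 1 := by
    have h1 := pow_orderOf_eq_one y
    rw [hK.ord, pow_two] at h1
    exact h1
  have hzz : barz x ^ 2 ^ 1 = 1 := by
    rw [pow_one, pow_two, ← map_mul]
    have h1 : (⟨x, hxx⟩ : ↥(CC x)) * ⟨x, hxx⟩ = 1 := Subtype.ext hxord
    rw [h1, map_one]
  have hC2 : IsPGroup 2 ↥(zpowers (bar x ⟨g⁻¹ * (s * g * s⁻¹), hCx⟩)) := by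
    rw [hbar]
    exact isP2_of_pow hzz
  have hC3 : bar x ⟨g⁻¹ * (s * g * s⁻¹), hCx⟩ ≠ 1 := by
    rw [hbar]
    intro h
    have h1 : bar x ⟨x, hxx⟩ = bar x 1 := by rw [map_one]; exact h
    have h2 := (bar_eq_iff _ _).mp h1
    simp only [OneMemClass.coe_one, inv_one, mul_one] at h2
    exact not_mem_OC_of_ord2 _ hJ.ord h2
  have hs2 : IsPGroup 2 ↥(zpowers s) := by
    refine isP2_of_pow (n := 2) ?_
    have h1 : s ^ 2 ^ 2 = (s * s) * (s * s) := by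
      show s ^ 4 = _
      simp only [pow_succ, pow_zero, one_mul, mul_assoc]
    rw [h1, hss, hyord]
  obtain ⟨h1, -, h3⟩ := GBg.bg hJ hK hxy hc hyJ hgx hgy hs hsx hs2 hsJ hCx hC1 hC2 hC3
  obtain ⟨D, hSN, hPT, hSimple, -, hk⟩ := GDiag.diagLift hK hgy hgg h1
  obtain ⟨e, he, he2⟩ := hk s hs
  refine ⟨D, hSN, hPT, hSimple, e, he, ?_⟩
  apply OC_inf y g
  constructor
  · have hsy : s ∈ CC y := hK.sn.le hs
    have e1 : s * (g * s * g⁻¹) = (s * ((g⁻¹ * (s * g * s⁻¹)) * x⁻¹) * s⁻¹) * (x * y) := by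
      rw [alg1 hgg hsx, hss]
    have e2 : e * (x * y)⁻¹ =
        (e * (s * (g * s * g⁻¹))⁻¹) * (s * ((g⁻¹ * (s * g * s⁻¹)) * x⁻¹) * s⁻¹) := by
      rw [e1]; group
    rw [e2]
    exact (OC 2 (CC y)).mul_mem he2 (conj_mem_OC hsy h3)
  · have hegx : e ∈ CC g := (hSN.le he).2
    have hxg : x ∈ CC g := mem_CC.mpr (mem_CC.mp hgx).symm
    have hyg : y ∈ CC g := mem_CC.mpr (mem_CC.mp hgy).symm
    exact (CC g).mul_mem hegx ((CC g).inv_mem ((CC g).mul_mem hxg hyg))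

theorem eq_one_of_sq_mem_OC {H : Subgroup G} {t : G} (h : t ∈ OC 2 H) (htt : t * t = 1) : t = 1 := by
  haveI : Fact (Nat.Prime 2) := ⟨Nat.prime_two⟩
  by_contra hne
  have h1 : orderOf t = 2 := orderOf_eq_prime (by rw [pow_two, htt]) hne
  exact not_mem_OC_of_ord2 _ h1 h

theorem final_aux {J K : Subgroup G} {x y s d y₂ y₀ : G} (hJ : SLComp J x) (hK : SLComp K y)
    (hxy : x ≠ y) (hc : x * y = y * x) (hs : s ∈ K) (hsx : s * x = x * s)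
    (hss : s * s = y) (hsJ : s ∉ normalizer (J : Set G)) (hyJ : y ∈ normalizer (J : Set G))
    (hd : d ∈ CC x) (hy₂ : d * y * d⁻¹ = y₂) (hy₀ : d⁻¹ * y * d = y₀)
    (h2 : y₂ * y = y * y₂) (h0 : y₀ * y = y * y₀)
    (hc2 : (y₂⁻¹ * (s * y₂ * s⁻¹)) * x⁻¹ ∈ OC 2 (CC x))
    (hc0 : (y₀⁻¹ * (s * y₀ * s⁻¹)) * x⁻¹ ∈ OC 2 (CC x)) : False := by
  haveI : Fact (Nat.Prime 2) := ⟨Nat.prime_two⟩
  have hxord : x * x = 1 := by
    have h1 := pow_orderOf_eq_one x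
    rw [hJ.ord, pow_two] at h1
    exact h1
  have hyord : y * y = 1 := by
    have h1 := pow_orderOf_eq_one y
    rw [hK.ord, pow_two] at h1
    exact h1
  have hy₂y₂ : y₂ * y₂ = 1 := by
    rw [← hy₂]
    calc (d * y * d⁻¹) * (d * y * d⁻¹) = d * (y * y) * d⁻¹ := by group
      _ = 1 := by rw [hyord]; group
  have hy₀y₀ : y₀ * y₀ = 1 := by
    rw [← hy₀]
    calc (d⁻¹ * y * d) * (d⁻¹ * y * d) = d⁻¹ * (y * y) * d := by group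
      _ = 1 := by rw [hyord]; group
  have hdx : d * x = x * d := mem_CC.mp hd
  have hdix : d⁻¹ * x = x * d⁻¹ := by
    have h1 : d⁻¹ ∈ CC x := (CC x).inv_mem hd
    exact mem_CC.mp h1
  have hyCx : y ∈ CC x := mem_CC.mpr hc.symm
  have hy₂x : y₂ ∈ CC x := by
    rw [← hy₂]; exact (CC x).mul_mem ((CC x).mul_mem hd hyCx) ((CC x).inv_mem hd)
  have hy₀x : y₀ ∈ CC x := by
    rw [← hy₀]; exact (CC x).mul_mem ((CC x).mul_mem ((CC x).inv_mem hd) hyCx) hd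
  have hy₂y : y₂ ∈ CC y := mem_CC.mpr h2
  have hy₀y : y₀ ∈ CC y := mem_CC.mpr h0
  obtain ⟨D₁, hD₁, hP₁, hS₁, e₁, he₁, hE₁⟩ :=
    step hJ hK hxy hc hs hsx hss hsJ hyJ hy₂x hy₂y hy₂y₂ hc2
  obtain ⟨D', hD', hP', hS', e', he', hE'⟩ :=
    step hJ hK hxy hc hs hsx hss hsJ hyJ hy₀x hy₀y hy₀y₀ hc0
  have hmap : Kc d (CC y ⊓ CC y₀) = CC y ⊓ CC y₂ := by
    have h1 : Kc d (CC y ⊓ CC y₀) = Kc d (CC y) ⊓ Kc d (CC y₀) :=
      Subgroup.map_inf _ _ _ (MulAut.conj d).injective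
    have h3 : d * y₀ * d⁻¹ = y := by rw [← hy₀]; group
    rw [h1, Kc_CC, Kc_CC, hy₂, h3, inf_comm]
  have hSN₂ : SN (Kc d D') (CC y ⊓ CC y₂) := by
    rw [← hmap]
    exact Cfsg.Agent.Lib.PTerm.Balance.SN_map _ hD'
  have hP₂ : PT 2 ↥(Kc d D') :=
    PT.of_equiv (Subgroup.equivMapOfInjective D' _ (MulAut.conj d).injective) hP'
  have hS₂ : IsSimpleGroup (↥(Kc d D') ⧸ oddCore ↥(Kc d D')) := by
    haveI := hS'
    exact (quotConjEquiv D' d).symm.isSimpleGroup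
  have he₂ : d * e' * d⁻¹ ∈ Kc d D' := conj_mem_Kc d he'
  have hE₂ : d * e' * d⁻¹ * (x * y₂)⁻¹ ∈ OC 2 (CC y ⊓ CC y₂) := by
    rw [← hmap]
    have h1 := conj_mem_OC_Kc (p := 2) d hE'
    have e : d * (e' * (x * y)⁻¹) * d⁻¹ = d * e' * d⁻¹ * (x * y₂)⁻¹ := by
      have h3 : x * y₂ = d * (x * y) * d⁻¹ := by
        rw [← hy₂]
        calc x * (d * y * d⁻¹) = (x * d) * y * d⁻¹ := by group
          _ = d * (x * y) * d⁻¹ := by rw [← hdx]; group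
      rw [h3]; group
    rwa [e] at h1
  have hxN : x ∈ CC y ⊓ CC y₂ := ⟨mem_CC.mpr hc, mem_CC.mpr (mem_CC.mp hy₂x).symm⟩
  have hyN : y ∈ CC y ⊓ CC y₂ := ⟨self_mem_CC y, mem_CC.mpr h2.symm⟩
  have hy₂N : y₂ ∈ CC y ⊓ CC y₂ := ⟨hy₂y, self_mem_CC y₂⟩
  have hend := abstract_end hD₁ hSN₂ hP₁ hP₂ hS₁ hS₂ hxN hyN hy₂N (fun a ha => mem_CC.mp ha.1)
    (fun a ha => mem_CC.mp ha.2) hyord hy₂y₂ he₁ he₂ hE₁ hE₂
  have hxOC : ¬ (y₂⁻¹ * (s * y₂ * s⁻¹)) = 1 := by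
    intro h
    rw [h, one_mul] at hc2
    have h3 : x ∈ OC 2 (CC x) := by
      have := (OC 2 (CC x)).inv_mem hc2
      rwa [inv_inv] at this
    exact not_mem_OC_of_ord2 _ hJ.ord h3
  have hsy : s * y = y * s := mem_CC.mp (hK.sn.le hs)
  rcases hend with h3 | h3
  · have htt : (y * y₂) * (y * y₂) = 1 := by
      calc (y * y₂) * (y * y₂) = y * (y₂ * y) * y₂ := by group
        _ = y * (y * y₂) * y₂ := by rw [h2]
        _ = (y * y) * (y₂ * y₂) := by group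
        _ = 1 := by rw [hyord, hy₂y₂, one_mul]
    have h4 := eq_one_of_sq_mem_OC h3 htt
    have h5 : y₂ = y := by
      have h6 : y₂ = y⁻¹ := eq_inv_of_mul_eq_one_right h4
      rw [h6]
      exact inv_eq_of_mul_eq_one_left hyord
    apply hxOC
    rw [h5, hsy]; group
  · have hxy₂ : x * y₂ = y₂ * x := (mem_CC.mp hy₂x).symm
    have htt : (x * y₂) * (x * y₂) = 1 := by
      calc (x * y₂) * (x * y₂) = x * (y₂ * x) * y₂ := by group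
        _ = x * (x * y₂) * y₂ := by rw [hxy₂]
        _ = (x * x) * (y₂ * y₂) := by group
        _ = 1 := by rw [hxord, hy₂y₂, one_mul]
    have h4 := eq_one_of_sq_mem_OC h3 htt
    have h5 : y₂ = x := by
      have h6 : y₂ = x⁻¹ := eq_inv_of_mul_eq_one_right h4
      rw [h6]
      exact inv_eq_of_mul_eq_one_left hxord
    apply hxOC
    rw [h5, hsx]; group

/-- **B4c.** See PLAN.md. -/
theorem b4_final {J K : Subgroup G} {x y s d : G} (hJ : SLComp J x) (hK : SLComp K y) (hxy : x ≠ y)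
    (hc : x * y = y * x) (hs : s ∈ K) (hsx : s * x = x * s)
    (hss : s * s = y) (hsJ : s ∉ normalizer (J : Set G)) (hyJ : y ∈ normalizer (J : Set G))
    (hd : d ∈ CC x) (h2 : (d * y * d⁻¹) * y = y * (d * y * d⁻¹))
    (h0 : (d⁻¹ * y * d) * y = y * (d⁻¹ * y * d))
    (hc2 : ((d * y * d⁻¹)⁻¹ * (s * (d * y * d⁻¹) * s⁻¹)) * x⁻¹ ∈ OC 2 (CC x))
    (hc0 : ((d⁻¹ * y * d)⁻¹ * (s * (d⁻¹ * y * d) * s⁻¹)) * x⁻¹ ∈ OC 2 (CC x)) : False :=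
  final_aux hJ hK hxy hc hs hsx hss hsJ hyJ hd rfl rfl h2 h0 hc2 hc0

end Cfsg.Agent.Lib.IntrSL.GFinal
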