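/-
S1315 G-level. Claim B. See PLAN.md.
-/
import Cfsg.Agent.Lib.IntrSL.GClaimA
import Cfsg.Agent.Lib.IntrSL.GB4a
import Cfsg.Agent.Lib.IntrSL.GB4b
import Cfsg.Agent.Lib.IntrSL.GFinal

set_option autoImplicit false
set_option linter.style.haveILetI false
set_option linter.unusedSectionVars false

namespace Cfsg.Agent.Lib.IntrSL.GClaimB

open Subgroup Cfsg Cfsg.Agent.Lib.BpBalance.Basic Cfsg.Agent.Lib.Subnormal.Basic
  Cfsg.Agent.Lib.PTerm.Rel Cfsg.Agent.Lib.PTerm.Dict Cfsg.Agent.Lib.IntrSL.Defs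
open scoped commutatorElement Pointwise

universe u

variable {G : Type u} [Group G] [Finite G]

/-- **Claim B.** See PLAN.md. -/
theorem claimB {J K : Subgroup G} {x y t : G} (hJ : SLComp J x) (hK : SLComp K y) (hxy : x ≠ y)
    (hc : x * y = y * x) (hn : x ∈ normalizer (K : Set G)) (hsize : qcard J = qcard K)
    (ht : t ∈ K) (htx : t * x = x * t) (ht2 : IsPGroup 2 ↥(zpowers t)) (ht4 : 4 ≤ orderOf t) :
    t ∈ normalizer (J : Set G) := by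
  haveI : Fact (Nat.Prime 2) := ⟨Nat.prime_two⟩
  have hyJ : y ∈ normalizer (J : Set G) := Cfsg.Agent.Lib.IntrSL.GClaimA.claimA hJ hK hxy hc hn hsize
  by_contra htJ
  have hy2 : y * y = 1 := by
    have := pow_orderOf_eq_one y
    rwa [hK.ord, pow_two] at this
  -- the last power outside `N(J)`
  obtain ⟨n, hn'⟩ := IsPGroup.iff_card.mp ht2
  rw [Nat.card_zpowers] at hn'
  have hfind : ∃ i : ℕ, t ^ (2 ^ i) ∉ normalizer (J : Set G) ∧
      t ^ (2 ^ (i + 1)) ∈ normalizer (J : Set G) := by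
    by_contra hno
    push Not at hno
    have hall : ∀ i : ℕ, t ^ (2 ^ i) ∉ normalizer (J : Set G) := by
      intro i
      induction i with
      | zero => simpa using htJ
      | succ i ih => exact hno i ih
    apply hall n
    rw [← hn', pow_orderOf_eq_one]
    exact (normalizer (J : Set G)).one_mem
  obtain ⟨i, hi1, hi2⟩ := hfind
  set s := t ^ (2 ^ i) with hs
  have hsK : s ∈ K := K.pow_mem ht _
  have hsx : s * x = x * s := (Commute.pow_left (show Commute t x from htx) _)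
  have hs2 : IsPGroup 2 ↥(zpowers s) := ht2.to_le (zpowers_le.mpr (pow_mem (mem_zpowers t) _))
  have hss : s * s = t ^ (2 ^ (i + 1)) := by
    rw [hs, ← pow_add, pow_succ]
    congr 1
    ring
  have hssN : s * s ∈ normalizer (J : Set G) := by rw [hss]; exact hi2
  have hss1 : s * s ≠ 1 := by
    intro h1
    by_cases hs1 : s = 1
    · apply hi1
      rw [hs1]
      exact (normalizer (J : Set G)).one_mem
    · have h2 : orderOf s = 2 := orderOf_eq_prime (by rw [pow_two]; exact h1) hs1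
      have h3 := hK.uniq s hsK h2
      apply hi1
      rw [h3]
      exact hyJ
  have hyss : y ∈ zpowers (s * s) := by
    have h1 : IsPGroup 2 ↥(zpowers (s * s)) :=
      hs2.to_le (zpowers_le.mpr ((zpowers s).mul_mem (mem_zpowers s) (mem_zpowers s)))
    obtain ⟨m, hm⟩ := IsPGroup.iff_card.mp h1
    have hm0 : m ≠ 0 := by
      rintro rfl
      rw [pow_zero, Nat.card_zpowers, orderOf_eq_one_iff] at hm
      exact hss1 hm
    have hd : 2 ∣ Nat.card ↥(zpowers (s * s)) := by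
      rw [hm]
      exact dvd_pow_self 2 hm0
    obtain ⟨a, ha⟩ := exists_prime_orderOf_dvd_card' (G := ↥(zpowers (s * s))) 2 hd
    have ha' : orderOf (a : G) = 2 := by rw [Subgroup.orderOf_coe]; exact ha
    have haK : (a : G) ∈ K := (zpowers_le.mpr (K.mul_mem hsK hsK)) a.2
    have := hK.uniq _ haK ha'
    rw [← this]
    exact a.2
  by_cases htriv : ∀ j ∈ J, y * j * y⁻¹ * j⁻¹ ∈ OC 2 J
  · obtain ⟨-, hxt⟩ := Cfsg.Agent.Lib.IntrSL.GA.lemmaA hK hJ hxy.symm hc.symm hyJ htriv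
    exact htJ (Cfsg.Agent.Lib.IntrSL.GA.normalizes_of_trivial hJ hK hxy hc hn hxt ht htx ht2)
  -- work in `Bar x`
  have hyx : y ∈ CC x := mem_CC.mpr hc.symm
  have hsC : s ∈ CC x := mem_CC.mpr hsx
  have hC := Cfsg.Agent.Lib.IntrSL.Transport.compZ_img hJ
  have ht0 : bar x ⟨y, hyx⟩ * bar x ⟨y, hyx⟩ = 1 := by
    rw [← map_mul]
    have : (⟨y, hyx⟩ : ↥(CC x)) * ⟨y, hyx⟩ = 1 := Subtype.ext hy2
    rw [this, map_one]
  have hnorm := (Cfsg.Agent.Lib.IntrSL.Transport.mem_norm_iff hJ ⟨y, hyx⟩).mpr hyJ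
  have hnt : ∃ j ∈ img x J, bar x ⟨y, hyx⟩ * j * (bar x ⟨y, hyx⟩)⁻¹ ≠ j := by
    by_contra hno
    push Not at hno
    have := (Cfsg.Agent.Lib.IntrSL.Transport.cent_iff hJ ⟨y, hyx⟩).mp (by
      intro q hq
      have h6 := hno q hq
      rw [mul_inv_eq_iff_eq_mul] at h6
      exact h6)
    exact htriv this.2
  obtain ⟨k, hk⟩ := mem_zpowers_iff.mp hyss
  have hsb : (⟨s, hsC⟩ : ↥(CC x)) * ⟨y, hyx⟩ = ⟨y, hyx⟩ * ⟨s, hsC⟩ := by
    apply Subtype.ext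
    show s * y = y * s
    rw [← hk]
    exact ((Commute.mul_right (Commute.refl s) (Commute.refl s)).zpow_right k).eq
  have hst : bar x ⟨s, hsC⟩ * bar x ⟨y, hyx⟩ = bar x ⟨y, hyx⟩ * bar x ⟨s, hsC⟩ := by
    rw [← map_mul, ← map_mul, hsb]
  have hs2b : IsPGroup 2 ↥(zpowers (bar x ⟨s, hsC⟩)) := by
    obtain ⟨m, hm⟩ := IsPGroup.iff_card.mp hs2
    rw [Nat.card_zpowers] at hm
    have h1 : (bar x ⟨s, hsC⟩) ^ (2 ^ m) = 1 := by
      rw [← map_pow]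
      have : (⟨s, hsC⟩ : ↥(CC x)) ^ (2 ^ m) = 1 := by
        apply Subtype.ext
        show s ^ (2 ^ m) = 1
        rw [← hm, pow_orderOf_eq_one]
      rw [this, map_one]
    obtain ⟨m', -, hm'⟩ := (Nat.dvd_prime_pow Nat.prime_two).mp (orderOf_dvd_of_pow_eq_one h1)
    exact IsPGroup.of_card (n := m') (by rw [Nat.card_zpowers, hm'])
  have hssC : s * s ∈ CC x := (CC x).mul_mem hsC hsC
  have hssb : bar x ⟨s, hsC⟩ * bar x ⟨s, hsC⟩ = bar x ⟨s * s, hssC⟩ := by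
    rw [← map_mul]
    rfl
  have hssN' : bar x ⟨s, hsC⟩ * bar x ⟨s, hsC⟩ ∈ normalizer ((img x J : Subgroup (Bar x)) : Set (Bar x)) := by
    rw [hssb]
    exact (Cfsg.Agent.Lib.IntrSL.Transport.mem_norm_iff hJ ⟨s * s, hssC⟩).mpr hssN
  have hsN' : bar x ⟨s, hsC⟩ ∉ normalizer ((img x J : Subgroup (Bar x)) : Set (Bar x)) := fun h =>
    hi1 ((Cfsg.Agent.Lib.IntrSL.Transport.mem_norm_iff hJ ⟨s, hsC⟩).mp h)
  have hts : bar x ⟨y, hyx⟩ ∈ zpowers (bar x ⟨s, hsC⟩ * bar x ⟨s, hsC⟩) := by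
    refine mem_zpowers_iff.mpr ⟨k, ?_⟩
    rw [hssb, ← map_zpow]
    congr 1
    apply Subtype.ext
    show ((⟨s * s, hssC⟩ : ↥(CC x)) ^ k : ↥(CC x)).1 = y
    rw [Subgroup.coe_zpow]
    exact hk
  obtain ⟨v, hv, hv1, hc1, hc2, hc3, hg1, hg2⟩ :=
    Cfsg.Agent.Lib.IntrSL.XGel.gel hC ht0 hnorm hnt hst hs2b hssN' hsN' hts
  obtain ⟨g₀, hg₀y, hg₀⟩ := Cfsg.Agent.Lib.IntrSL.Transport.lift_centralizer hyx hy2 hg1
  have hCx : (g₀ : G)⁻¹ * (s * g₀ * s⁻¹) ∈ CC x :=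
    (CC x).mul_mem ((CC x).inv_mem g₀.2) ((CC x).mul_mem ((CC x).mul_mem hsC g₀.2) ((CC x).inv_mem hsC))
  have he : bar x ⟨(g₀ : G)⁻¹ * (s * g₀ * s⁻¹), hCx⟩ =
      (v⁻¹ * ((bar x ⟨s, hsC⟩ * bar x ⟨s, hsC⟩) * v * (bar x ⟨s, hsC⟩ * bar x ⟨s, hsC⟩)⁻¹)) := by
    rw [← hg2, ← hg₀, ← map_inv, ← map_inv, ← map_mul, ← map_mul, ← map_mul]
    rfl
  obtain ⟨-, hssy, -⟩ := Cfsg.Agent.Lib.IntrSL.GBg.bg hJ hK hxy hc hyJ g₀.2 hg₀y hsK hsx hs2 hi1 hCx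
    (by rw [he]; exact hc1) (by rw [he]; exact hc2) (by rw [he]; exact hc3)
  obtain ⟨K', ρ, hK', -, hρ, hρN, hcong⟩ :=
    Cfsg.Agent.Lib.IntrSL.GB4a.b4_rho hJ hK hxy hc hn hsK hsx hssy hi1 hyJ htriv
  obtain ⟨d, hd, h2, h0, hc2', hc0'⟩ :=
    Cfsg.Agent.Lib.IntrSL.GB4b.b4_d hJ hK' hxy hc hK.ord hsx hssy hi1 hyJ htriv hρ hρN hcong
  exact Cfsg.Agent.Lib.IntrSL.GFinal.b4_final hJ hK hxy hc hsK hsx hssy hi1 hyJ hd h2 h0 hc2' hc0'

end Cfsg.Agent.Lib.IntrSL.GClaimB
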