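/-
S1315: 2·A₇ has QType. See PLAN.md.
-/
import Cfsg.Agent.Lib.IntrSL.Defs
import Cfsg.Agent.S2119
import Cfsg.Agent.Lib.Char.Burnside

set_option autoImplicit false
set_option linter.style.haveILetI false
set_option linter.unusedSectionVars false

namespace Cfsg.Agent.Lib.IntrSL.QTA7

open Subgroup Cfsg Cfsg.Agent.Lib.IntrSL.Defs Equiv Equiv.Perm
open scoped commutatorElement

universe u

/-- Cycle type of an even involution of degree seven. -/
theorem cycleType_of_inv (τ : Perm (Fin 7)) (h1 : orderOf τ = 2) (hs : sign τ = 1) :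
    τ.cycleType = Multiset.replicate 2 2 := by
  have hall : ∀ b ∈ τ.cycleType, b = 2 := by
    intro b hb
    have h2 : b ∣ 2 := by
      rw [← h1, ← lcm_cycleType]; exact Multiset.dvd_lcm hb
    have h3 := two_le_of_mem_cycleType hb
    exact le_antisymm (Nat.le_of_dvd (by norm_num) h2) h3
  obtain ⟨k, hk⟩ : ∃ k, τ.cycleType = Multiset.replicate k 2 :=
    ⟨_, Multiset.eq_replicate_card.mpr hall⟩
  have hsum : τ.cycleType.sum = k * 2 := by simp [hk]
  have hle : k * 2 ≤ 7 := by
    rw [← hsum, sum_cycleType]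
    exact (Finset.card_le_univ _).trans (by simp)
  have hsign := sign_of_cycleType τ
  rw [hs, hk] at hsign
  simp only [Multiset.sum_replicate, Multiset.card_replicate, smul_eq_mul] at hsign
  have hk3 : k ≤ 3 := by omega
  interval_cases k
  · exfalso
    have : τ = 1 := cycleType_eq_zero.mp (by simpa using hk)
    rw [this, orderOf_one] at h1
    omega
  · exfalso
    revert hsign
    decide
  · exact hk
  · exfalso
    revert hsign
    decide

/-- A model of the double transposition. -/
def tau0 : Perm (Fin 7) := swap 0 1 * swap 2 3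

/-- A model of the three-cycle. -/
def pi0 : Perm (Fin 7) := swap 1 2 * swap 2 3

theorem cycleType_tau0 : tau0.cycleType = Multiset.replicate 2 2 := by
  have hd : Perm.Disjoint (swap (0 : Fin 7) 1) (swap (2 : Fin 7) 3) := by
    intro x
    revert x
    decide
  unfold tau0
  rw [hd.cycleType_mul, (isCycle_swap (by decide)).cycleType, (isCycle_swap (by decide)).cycleType,
    card_support_swap (by decide), card_support_swap (by decide)]
  rfl

theorem exists_pi (τ : Perm (Fin 7)) (h1 : orderOf τ = 2) (hs : sign τ = 1) :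
    ∃ π : Perm (Fin 7), sign π = 1 ∧ π * τ * π⁻¹ ≠ τ ∧ (π * τ * π⁻¹) * τ = τ * (π * τ * π⁻¹) ∧
      π⁻¹ * τ * π ≠ τ ∧ (π⁻¹ * τ * π) * τ = τ * (π⁻¹ * τ * π) := by
  have hc : IsConj tau0 τ := by
    rw [isConj_iff_cycleType_eq, cycleType_tau0, cycleType_of_inv τ h1 hs]
  obtain ⟨σ, rfl⟩ := isConj_iff.mp hc
  have e1 : pi0 * tau0 * pi0⁻¹ ≠ tau0 := by decide
  have e2 : (pi0 * tau0 * pi0⁻¹) * tau0 = tau0 * (pi0 * tau0 * pi0⁻¹) := by decide
  have e3 : pi0⁻¹ * tau0 * pi0 ≠ tau0 := by decide
  have e4 : (pi0⁻¹ * tau0 * pi0) * tau0 = tau0 * (pi0⁻¹ * tau0 * pi0) := by decide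
  have e5 : sign pi0 = 1 := by decide
  refine ⟨σ * pi0 * σ⁻¹, ?_, ?_, ?_, ?_, ?_⟩
  · simp [e5]
  · intro h
    apply e1
    have : σ * (pi0 * tau0 * pi0⁻¹) * σ⁻¹ = σ * tau0 * σ⁻¹ := by
      rw [← h]; group
    exact mul_left_cancel (mul_right_cancel this)
  · have : σ * ((pi0 * tau0 * pi0⁻¹) * tau0) * σ⁻¹ = σ * (tau0 * (pi0 * tau0 * pi0⁻¹)) * σ⁻¹ := by
      rw [e2]
    simp only [mul_inv_rev, inv_inv] 
    simpa only [mul_assoc, inv_mul_cancel_left] using this
  · intro h
    apply e3
    have : σ * (pi0⁻¹ * tau0 * pi0) * σ⁻¹ = σ * tau0 * σ⁻¹ := by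
      rw [← h]; group
    exact mul_left_cancel (mul_right_cancel this)
  · have : σ * ((pi0⁻¹ * tau0 * pi0) * tau0) * σ⁻¹ = σ * (tau0 * (pi0⁻¹ * tau0 * pi0)) * σ⁻¹ := by
      rw [e4]
    simp only [mul_inv_rev, inv_inv]
    simpa only [mul_assoc, inv_mul_cancel_left] using this

theorem solv_centralizer (τ : Perm (Fin 7)) (h1 : orderOf τ = 2) (hs : sign τ = 1) :
    Group.IsSolvable ↥(centralizer ({τ} : Set (Perm (Fin 7)))) := by
  have hc := nat_card_centralizer τ
  rw [cycleType_of_inv τ h1 hs] at hc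
  have h48 : Nat.card ↥(centralizer ({τ} : Set (Perm (Fin 7)))) = 2 ^ 4 * 3 ^ 1 := by
    rw [hc]
    simp
    decide
  exact Cfsg.Agent.Lib.Char.Burnside.isSolvable_of_card_eq 2 3 4 1 Nat.prime_two Nat.prime_three h48

section main

variable {Q : Type u} [Group Q] [Finite Q]
  (π : Q →* ↥(alternatingGroup (Fin 7))) (hsurj : Function.Surjective π)
  (hker : π.ker = center Q) {z : Q} (hz : orderOf z = 2)
  (huniq : ∀ a : Q, orderOf a = 2 → a = z)
  (hcard : Nat.card ↥(center Q) = 2)

include hcard hz huniq in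
theorem center_iff_aux (a : Q) : a ∈ center Q ↔ a = 1 ∨ a = z := by
  constructor
  · intro ha
    by_cases h1 : a = 1
    · exact Or.inl h1
    · right
      apply huniq
      have h2 : orderOf (⟨a, ha⟩ : ↥(center Q)) ∣ 2 := by
        rw [← hcard]; exact orderOf_dvd_natCard _
      have h3 : orderOf a ∣ 2 := by
        have := Subgroup.orderOf_mk a ha
        rwa [this] at h2
      rcases (Nat.dvd_prime Nat.prime_two).mp h3 with h4 | h4
      · exact absurd (orderOf_eq_one_iff.mp h4) h1
      · exact h4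
  · rintro (rfl | rfl)
    · exact one_mem _
    · haveI : Finite ↥(center Q) := inferInstance
      haveI : Nontrivial ↥(center Q) := by
        apply Finite.one_lt_card_iff_nontrivial.mp
        rw [hcard]; norm_num
      obtain ⟨w, hw⟩ := exists_ne (1 : ↥(center Q))
      have h2 : orderOf w ∣ 2 := by
        rw [← hcard]; exact orderOf_dvd_natCard _
      have h3 : orderOf (w : Q) = 2 := by
        rw [Subgroup.orderOf_coe]
        rcases (Nat.dvd_prime Nat.prime_two).mp h2 with h4 | h4
        · exact absurd (orderOf_eq_one_iff.mp h4) hw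
        · exact h4
      rw [← huniq _ h3]
      exact w.2

include hker hcard hz huniq in
theorem mem_ker_iff (a : Q) : π a = 1 ↔ a = 1 ∨ a = z := by
  rw [← MonoidHom.mem_ker, hker]
  exact center_iff_aux hz huniq hcard a

include hz huniq in
theorem inv_of_sq {r : Q} (hr : r * r = 1) (h1 : r ≠ 1) : r = z := by
  apply huniq
  apply orderOf_eq_prime
  · rw [pow_two, hr]
  · exact h1

include hker hcard hz huniq in
theorem exists_sq_aux (hsurj : Function.Surjective π) : ∃ r : Q, r * r = z := by
  have ht : tau0 ∈ alternatingGroup (Fin 7) := by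
    rw [mem_alternatingGroup]; decide
  obtain ⟨r, hr⟩ := hsurj ⟨tau0, ht⟩
  have h2 : π (r * r) = 1 := by
    rw [map_mul, hr]
    apply Subtype.ext
    show tau0 * tau0 = (1 : Perm (Fin 7))
    decide
  rcases (mem_ker_iff π hker hz huniq hcard _).mp h2 with h3 | h3
  · exfalso
    have h4 : r ≠ 1 := by
      rintro rfl
      rw [map_one] at hr
      have h7 : (1 : Perm (Fin 7)) = tau0 := congrArg Subtype.val hr
      revert h7
      decide
    have h5 := inv_of_sq hz huniq h3 h4
    have h6 : π r = 1 := (mem_ker_iff π hker hz huniq hcard _).mpr (Or.inr h5)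
    rw [hr] at h6
    have h7 : tau0 = (1 : Perm (Fin 7)) := congrArg Subtype.val h6
    revert h7
    decide
  · exact ⟨r, h3⟩

include hker hcard hz huniq in
/-- The image of a square root of `z` is an involution. -/
theorem image_ne_one {r : Q} (hr : r * r = z) : π r ≠ 1 := by
  intro h
  rcases (mem_ker_iff π hker hz huniq hcard _).mp h with h3 | h3
  · rw [h3, mul_one] at hr
    rw [← hr, orderOf_one] at hz
    omega
  · rw [h3] at hr
    have : z = 1 := by simpa using hr
    rw [this, orderOf_one] at hz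
    omega

include hker hcard hz huniq in
theorem image_sq {r : Q} (hr : r * r = z) : π r * π r = 1 := by
  rw [← map_mul, hr]
  exact (mem_ker_iff π hker hz huniq hcard _).mpr (Or.inr rfl)

include hker hcard hz huniq in
theorem image_order {r : Q} (hr : r * r = z) :
    orderOf ((π r : ↥(alternatingGroup (Fin 7))) : Perm (Fin 7)) = 2 := by
  apply orderOf_eq_prime
  · have := congrArg Subtype.val (image_sq π hker hz huniq hcard hr)
    rw [pow_two]
    simpa using this
  · intro h
    apply image_ne_one π hker hz huniq hcard hr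
    exact Subtype.ext h

theorem image_sign (a : ↥(alternatingGroup (Fin 7))) : sign (a : Perm (Fin 7)) = 1 :=
  mem_alternatingGroup.mp a.2

include hker hcard hz huniq in
theorem nzr_solv_aux (r : Q) (hr : r * r = z) :
    Group.IsSolvable ↥(normalizer ((zpowers r : Subgroup Q) : Set Q)) := by
  set τ : ↥(alternatingGroup (Fin 7)) := π r with hτ
  have hτ2 : τ * τ = 1 := image_sq π hker hz huniq hcard hr
  have hτ1 : τ ≠ 1 := image_ne_one π hker hz huniq hcard hr
  haveI := solv_centralizer (τ : Perm (Fin 7)) (image_order π hker hz huniq hcard hr)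
    (image_sign τ)
  have hmem : ∀ n : ↥(normalizer ((zpowers r : Subgroup Q) : Set Q)),
      ((π n : ↥(alternatingGroup (Fin 7))) : Perm (Fin 7)) ∈
        centralizer ({(τ : Perm (Fin 7))} : Set (Perm (Fin 7))) := by
    rintro ⟨n, hn⟩
    rw [Subgroup.mem_centralizer_singleton_iff]
    have h1 : n * r * n⁻¹ ∈ zpowers r := by
      rw [mem_normalizer_iff] at hn
      exact (hn r).mp (mem_zpowers r)
    obtain ⟨k, hk⟩ := mem_zpowers_iff.mp h1
    have h2 : π n * τ * (π n)⁻¹ = τ ^ k := by
      rw [hτ, ← map_mul, ← map_inv, ← map_mul, ← hk, map_zpow]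
    have h3 : π n * τ * (π n)⁻¹ = τ := by
      rcases Int.even_or_odd' k with ⟨m, rfl | rfl⟩
      · exfalso
        apply hτ1
        have h4 : τ ^ (2 * m) = 1 := by
          rw [zpow_mul, zpow_two, hτ2, one_zpow]
        rw [h4] at h2
        have h5 : π n * τ = π n := by
          have := congrArg (· * π n) h2
          simpa using this
        exact mul_left_cancel (a := π n) (by rw [h5, mul_one])
      · rw [h2, zpow_add, zpow_mul, zpow_two, hτ2, one_zpow, one_mul, zpow_one]
    have h6 := congrArg Subtype.val h3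
    have h7 : π n * τ = τ * π n := by
      calc π n * τ = (π n * τ * (π n)⁻¹) * π n := by group
        _ = τ * π n := by rw [h3]
    have h8 := congrArg Subtype.val h7
    simpa using h8
  let g : ↥(normalizer ((zpowers r : Subgroup Q) : Set Q)) →*
      ↥(centralizer ({(τ : Perm (Fin 7))} : Set (Perm (Fin 7)))) :=
    (((alternatingGroup (Fin 7)).subtype.comp π).comp
      (normalizer ((zpowers r : Subgroup Q) : Set Q)).subtype).codRestrict _ hmem
  have hzle : ∀ c : ↥(center Q), (c : Q) ∈ normalizer ((zpowers r : Subgroup Q) : Set Q) := by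
    rintro ⟨c, hc⟩
    rw [mem_normalizer_iff]
    intro b
    have hc' := Subgroup.mem_center_iff.mp hc
    have h1 : c * b * c⁻¹ = b := by rw [← hc' b, mul_inv_cancel_right]
    show b ∈ zpowers r ↔ c * b * c⁻¹ ∈ zpowers r
    rw [h1]
  let f : ↥(center Q) →* ↥(normalizer ((zpowers r : Subgroup Q) : Set Q)) :=
    (center Q).subtype.codRestrict _ hzle
  haveI : Group.IsSolvable ↥(center Q) := Group.isSolvable_of_comm (fun a b => by
    apply Subtype.ext
    exact (Subgroup.mem_center_iff.mp a.2 (b : Q)).symm)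
  apply Group.isSolvable_of_ker_le_range f g
  rintro ⟨n, hn⟩ hker'
  have h1 : π n = 1 := by
    have h2 : (g ⟨n, hn⟩ : Perm (Fin 7)) = 1 := by
      rw [MonoidHom.mem_ker.mp hker']; rfl
    exact Subtype.ext h2
  have h3 : n ∈ center Q := by
    rw [← hker]; exact h1
  exact ⟨⟨n, h3⟩, rfl⟩

include hker hcard hz huniq in
theorem anti_of_image (r j : Q) (hr : r * r = z)
    (h1 : π j * π r * (π j)⁻¹ ≠ π r)
    (h2 : (π j * π r * (π j)⁻¹) * π r = π r * (π j * π r * (π j)⁻¹)) :
    (j * r * j⁻¹) * r * (j * r * j⁻¹)⁻¹ = r * z := by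
  set c := j * r * j⁻¹ with hc
  have hπc : π c = π j * π r * (π j)⁻¹ := by
    rw [hc, map_mul, map_mul, map_inv]
  have hzc : z ∈ center Q := (center_iff_aux hz huniq hcard z).mpr (Or.inr rfl)
  have hcc : c * c = z := by
    have : c * c = j * (r * r) * j⁻¹ := by rw [hc]; group
    rw [this, hr, Subgroup.mem_center_iff.mp hzc j, mul_inv_cancel_right]
  have h3 : π (c * r * c⁻¹ * r⁻¹) = 1 := by
    simp only [map_mul, map_inv, hπc]
    rw [mul_assoc _ _ (π r)⁻¹, mul_assoc]
    have : ∀ a b : ↥(alternatingGroup (Fin 7)), a * b = b * a → a * b * (a⁻¹ * b⁻¹) = 1 := by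
      intro a b hab
      rw [hab]; group
    rw [← mul_assoc]
    exact this _ _ h2
  rcases (mem_ker_iff π hker hz huniq hcard _).mp h3 with h4 | h4
  · exfalso
    have h5 : c * r = r * c := by
      have : c * r * c⁻¹ = r := by
        have := congrArg (· * r) h4
        simpa using this
      calc c * r = c * r * c⁻¹ * c := by group
        _ = r * c := by rw [this]
    have h6 : (c * r) * (c * r) = 1 := by
      calc (c * r) * (c * r) = c * (r * c) * r := by group
        _ = c * (c * r) * r := by rw [h5]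
        _ = (c * c) * (r * r) := by group
        _ = 1 := by
          rw [hcc, hr, ← pow_two, ← hz, pow_orderOf_eq_one]
    have h7 : π (c * r) ≠ 1 := by
      intro h8
      apply h1
      rw [map_mul, hπc] at h8
      have h9 := image_sq π hker hz huniq hcard hr
      exact mul_right_cancel (b := π r) (by rw [h8, h9])
    have h10 : c * r ≠ 1 := by
      intro h; apply h7; rw [h, map_one]
    have h11 := inv_of_sq hz huniq h6 h10
    exact h7 ((mem_ker_iff π hker hz huniq hcard _).mpr (Or.inr h11))
  · have h5 : c * r * c⁻¹ = z * r := by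
      have := congrArg (· * r) h4
      simpa using this
    rw [h5]
    exact (Subgroup.mem_center_iff.mp hzc r).symm

include hker hcard hz huniq hsurj in
theorem hurwitz_aux (r : Q) (hr : r * r = z) :
    ∃ j : Q, (j * r * j⁻¹) * r * (j * r * j⁻¹)⁻¹ = r * z ∧
      (j⁻¹ * r * j) * r * (j⁻¹ * r * j)⁻¹ = r * z := by
  obtain ⟨p, hp1, hp2, hp3, hp4, hp5⟩ := exists_pi ((π r : ↥(alternatingGroup (Fin 7))) : Perm (Fin 7))
    (image_order π hker hz huniq hcard hr) (image_sign _)
  obtain ⟨j, hj⟩ := hsurj ⟨p, mem_alternatingGroup.mpr hp1⟩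
  have hjv : ((π j : ↥(alternatingGroup (Fin 7))) : Perm (Fin 7)) = p := by rw [hj]
  refine ⟨j, anti_of_image π hker hz huniq hcard r j hr ?_ ?_,
    ?_⟩
  · intro h
    apply hp2
    have := congrArg Subtype.val h
    simpa [hjv] using this
  · apply Subtype.ext
    simpa [hjv] using hp3
  · have := anti_of_image π hker hz huniq hcard r j⁻¹ hr ?_ ?_
    · simpa using this
    · intro h
      apply hp4
      have := congrArg Subtype.val h
      simpa [hjv] using this
    · apply Subtype.ext
      simpa [hjv] using hp5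

end main

section aut

variable {Q : Type u} [Group Q] [Finite Q]

theorem comm_central_aux (s t c d : Q) (hc : c ∈ center Q) (hd : d ∈ center Q) :
    (s * c) * (t * d) * (s * c)⁻¹ * (t * d)⁻¹ = s * t * s⁻¹ * t⁻¹ := by
  have h1 : ∀ y : Q, y * c = c * y := Subgroup.mem_center_iff.mp hc
  have h2 : ∀ y : Q, y * d = d * y := Subgroup.mem_center_iff.mp hd
  calc (s * c) * (t * d) * (s * c)⁻¹ * (t * d)⁻¹
      = s * (t * d * c) * c⁻¹ * s⁻¹ * (t * d)⁻¹ := by rw [h1 (t * d)]; group
    _ = s * t * (d * s⁻¹) * (t * d)⁻¹ := by group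
    _ = s * t * (s⁻¹ * d) * (t * d)⁻¹ := by rw [h2 s⁻¹]
    _ = s * t * s⁻¹ * t⁻¹ := by group

/-- The automorphism of the quotient induced by an automorphism of `Q`. -/
noncomputable def indAut (π : Q →* ↥(alternatingGroup (Fin 7))) (hsurj : Function.Surjective π)
    (hker : π.ker = center Q) : MulAut Q →* MulAut ↥(alternatingGroup (Fin 7)) :=
  have hchar : ∀ α : MulAut Q, π.ker.map α.toMonoidHom = π.ker := by
    intro α
    rw [hker]
    exact (Subgroup.characteristic_iff_map_eq.mp inferInstance) α
  MonoidHom.mk'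
    (fun α => ((QuotientGroup.quotientKerEquivOfSurjective π hsurj).symm.trans
      (QuotientGroup.congr _ _ α (hchar α))).trans
      (QuotientGroup.quotientKerEquivOfSurjective π hsurj))
    (by
      intro α β
      ext y
      obtain ⟨x, rfl⟩ := hsurj y
      have hs : ∀ x : Q, (QuotientGroup.quotientKerEquivOfSurjective π hsurj).symm (π x) =
          QuotientGroup.mk x := by
        intro x
        rw [MulEquiv.symm_apply_eq]
        rfl
      simp [hs]
      rfl)

theorem indAut_apply (π : Q →* ↥(alternatingGroup (Fin 7))) (hsurj : Function.Surjective π)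
    (hker : π.ker = center Q) (α : MulAut Q) (x : Q) :
    indAut π hsurj hker α (π x) = π (α x) := by
  have hs : ∀ x : Q, (QuotientGroup.quotientKerEquivOfSurjective π hsurj).symm (π x) =
      QuotientGroup.mk x := by
    intro x
    rw [MulEquiv.symm_apply_eq]
    rfl
  simp [indAut, hs]
  rfl

theorem aut_inner_aux (hperf : Group.IsPerfect Q)
    (π : Q →* ↥(alternatingGroup (Fin 7))) (hsurj : Function.Surjective π)
    (hker : π.ker = center Q) (A : Subgroup (MulAut Q)) (hA : commutator ↥A = ⊤)
    (α : MulAut Q) (hα : α ∈ A) : ∃ q : Q, α = MulAut.conj q := by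
  let Φ : Perm (Fin 7) ≃* MulAut ↥(alternatingGroup (Fin 7)) :=
    MulEquiv.ofBijective MulAut.conjNormal (Cfsg.Agent.S2119.result 7 (by norm_num) (by norm_num))
  let sg : MulAut Q →* ℤˣ := sign.comp (Φ.symm.toMonoidHom.comp (indAut π hsurj hker))
  let f : ↥A →* ℤˣ := sg.comp A.subtype
  have hf : commutator ↥A ≤ f.ker := by
    rw [_root_.commutator_def, Subgroup.commutator_le]
    intro a _ b _
    rw [MonoidHom.mem_ker, commutatorElement_def, map_mul, map_mul, map_mul, map_inv, map_inv,
      mul_comm (f a) (f b), mul_assoc, mul_assoc, mul_inv_cancel_left, mul_inv_cancel]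
  have hsg : f ⟨α, hα⟩ = 1 := by
    apply hf
    rw [hA]
    trivial
  set p : Perm (Fin 7) := Φ.symm (indAut π hsurj hker α) with hp
  have hp1 : sign p = 1 := hsg
  have hp2 : MulAut.conjNormal p = indAut π hsurj hker α := by
    have : Φ p = indAut π hsurj hker α := by rw [hp, MulEquiv.apply_symm_apply]
    exact this
  obtain ⟨q, hq⟩ := hsurj ⟨p, mem_alternatingGroup.mpr hp1⟩
  have hqv : ((π q : ↥(alternatingGroup (Fin 7))) : Perm (Fin 7)) = p := by rw [hq]
  have hmod : ∀ x : Q, π (α x) = π (q * x * q⁻¹) := by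
    intro x
    rw [← indAut_apply π hsurj hker, ← hp2]
    apply Subtype.ext
    rw [MulAut.conjNormal_apply]
    simp [hqv]
  have hcen : ∀ x : Q, ∃ c ∈ center Q, α x = (q * x * q⁻¹) * c := by
    intro x
    refine ⟨(q * x * q⁻¹)⁻¹ * α x, ?_, by group⟩
    rw [← hker, MonoidHom.mem_ker, map_mul, map_inv, hmod, inv_mul_cancel]
  have hall : commutator Q ≤
      MonoidHom.eqLocus (α : Q ≃* Q).toMonoidHom (MulAut.conj q).toMonoidHom := by
    rw [_root_.commutator_def, Subgroup.commutator_le]
    intro u _ v _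
    obtain ⟨c, hc, hu⟩ := hcen u
    obtain ⟨d, hd, hv⟩ := hcen v
    show α ⁅u, v⁆ = (MulAut.conj q) ⁅u, v⁆
    rw [commutatorElement_def, map_mul, map_mul, map_mul, map_inv, map_inv, hu, hv,
      comm_central_aux _ _ _ _ hc hd]
    simp only [MulAut.conj_apply]
    group
  refine ⟨q, ?_⟩
  ext x
  have hx : x ∈ commutator Q := by
    rw [hperf.commutator_eq_top]
    trivial
  exact hall hx

end aut

/-- See PLAN.md. -/
theorem dctype {Q : Type u} [Group Q] [Finite Q]
    (h : IsNonsplitDoubleCover Q ↥(alternatingGroup (Fin 7))) (hqs : IsQuasisimple Q)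
    {z : Q} (hz : orderOf z = 2) (huniq : ∀ a : Q, orderOf a = 2 → a = z) : QType z := by
  obtain ⟨hcard, ⟨e⟩, -⟩ := h
  let π : Q →* ↥(alternatingGroup (Fin 7)) := e.toMonoidHom.comp (QuotientGroup.mk' (center Q))
  have hsurj : Function.Surjective π := e.surjective.comp (QuotientGroup.mk'_surjective _)
  have hker : π.ker = center Q := by
    ext x
    rw [MonoidHom.mem_ker]
    show e (QuotientGroup.mk x) = 1 ↔ _
    rw [map_eq_one_iff e e.injective, QuotientGroup.eq_one_iff]
  exact
    { qs := hqs
      ord := hz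
      center_iff := center_iff_aux hz huniq hcard
      uniq := huniq
      exists_sq := exists_sq_aux π hker hz huniq hcard hsurj
      aut_inner := fun A hA α hα => aut_inner_aux hqs.1 π hsurj hker A hA α hα
      nzr_solv := fun r hr => nzr_solv_aux π hker hz huniq hcard r hr
      hurwitz := fun r _ hr _ _ => hurwitz_aux π hsurj hker hz huniq hcard r hr }

end Cfsg.Agent.Lib.IntrSL.QTA7
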