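/-
S1315: SL₂(F) has QType. See PLAN.md.
-/
import Cfsg.Agent.Lib.IntrSL.Defs
import Cfsg.Agent.Lib.Classical.OutPSL

set_option autoImplicit false
set_option linter.style.haveILetI false
set_option linter.unusedSectionVars false
set_option linter.unusedSimpArgs false
set_option linter.unusedVariables false

namespace Cfsg.Agent.Lib.IntrSL.QTSL2

open Subgroup Cfsg Cfsg.Agent.Lib.IntrSL.Defs Cfsg.Agent.Lib.Components.Basic
open Cfsg.Agent.Lib.KS71.PSLCore

universe u v w

/-- Transport of `QType`, across universes. -/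
theorem qtype_of_equiv {Q : Type v} {Q' : Type w} [Group Q] [Group Q'] (e : Q ≃* Q') {z : Q} (h : QType z) :
    QType (e z) := by
  have hsymm : ∀ a : Q', e (e.symm a) = a := e.apply_symm_apply
  have hsymm' : ∀ a : Q, e.symm (e a) = a := e.symm_apply_apply
  have hcen : ∀ a : Q', a ∈ Subgroup.center Q' ↔ e.symm a ∈ Subgroup.center Q := by
    intro a
    rw [Subgroup.mem_center_iff, Subgroup.mem_center_iff]
    constructor
    · intro ha b
      have := ha (e b)
      apply e.injective
      rw [map_mul, map_mul, hsymm]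
      exact this
    · intro ha b
      have := ha (e.symm b)
      have h2 := congrArg e this
      rwa [map_mul, map_mul, hsymm, hsymm] at h2
  refine ⟨quasisimple_of_mulEquiv e h.qs, ?_, ?_, ?_, ?_, ?_, ?_, ?_⟩
  · rw [MulEquiv.orderOf_eq]; exact h.ord
  · intro a
    rw [hcen, h.center_iff]
    constructor
    · rintro (h1 | h1)
      · left; rw [← hsymm a, h1, map_one]
      · right; rw [← hsymm a, h1]
    · rintro (h1 | h1)
      · left; rw [h1, map_one]
      · right; rw [h1, hsymm']
  · intro a ha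
    have h1 : orderOf (e.symm a) = 2 := by rw [MulEquiv.orderOf_eq]; exact ha
    have := h.uniq _ h1
    rw [← hsymm a, this]
  · obtain ⟨r, hr⟩ := h.exists_sq
    exact ⟨e r, by rw [← map_mul, hr]⟩
  · intro A hA α hα
    let Φ : MulAut Q' ≃* MulAut Q := MulAut.congr e.symm
    let A' : Subgroup (MulAut Q) := A.map Φ.toMonoidHom
    have hA' : commutator ↥A' = ⊤ := by
      let f : ↥A ≃* ↥A' := Subgroup.equivMapOfInjective A Φ.toMonoidHom Φ.injective
      rw [_root_.commutator_def] at hA ⊢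
      have := congrArg (Subgroup.map f.toMonoidHom) hA
      rwa [Subgroup.map_commutator, Subgroup.map_top_of_surjective _ f.surjective] at this
    obtain ⟨q, hq⟩ := h.aut_inner A' hA' (Φ α) ⟨α, hα, rfl⟩
    refine ⟨e q, ?_⟩
    ext a
    have h1 := congrArg (fun β : MulAut Q => β (e.symm a)) hq
    simp only [Φ, MulAut.congr_apply, MulEquiv.trans_apply, MulEquiv.symm_symm, MulAut.conj_apply] at h1
    have h2 : e (e.symm (α (e (e.symm a)))) = e (q * e.symm a * q⁻¹) := congrArg e h1
    rw [hsymm, hsymm, map_mul, map_mul, map_inv, hsymm] at h2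
    rw [h2, MulAut.conj_apply]
  · intro r hr
    have hr0 : e.symm r * e.symm r = z := by
      apply e.injective
      rw [map_mul, hsymm, hr]
    have hz : ∀ a : Q, a ∈ zpowers (e.symm r) ↔ e a ∈ zpowers r := by
      intro a
      rw [mem_zpowers_iff, mem_zpowers_iff]
      constructor
      · rintro ⟨n, rfl⟩
        exact ⟨n, by rw [map_zpow, hsymm]⟩
      · rintro ⟨n, hn⟩
        refine ⟨n, ?_⟩
        apply e.injective
        rw [map_zpow, hsymm, hn]
    have hmem : ∀ a : ↥(normalizer ((zpowers r : Subgroup Q') : Set Q')),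
        e.symm (a : Q') ∈ normalizer ((zpowers (e.symm r) : Subgroup Q) : Set Q) := by
      rintro ⟨a, ha⟩
      rw [mem_normalizer_iff] at ha ⊢
      intro b
      rw [hz, hz, map_mul, map_mul, map_inv, hsymm]
      exact ha (e b)
    haveI := h.nzr_solv _ hr0
    let φ : ↥(normalizer ((zpowers r : Subgroup Q') : Set Q')) →*
        ↥(normalizer ((zpowers (e.symm r) : Subgroup Q) : Set Q)) :=
      (e.symm.toMonoidHom.comp (normalizer ((zpowers r : Subgroup Q') : Set Q')).subtype).codRestrict _ hmem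
    apply Group.isSolvable_of_isSolvable_injective (f := φ)
    intro a b hab
    apply Subtype.ext
    apply e.symm.injective
    exact congrArg Subtype.val hab
  · intro r v hr hv hvr
    have hr0 : e.symm r * e.symm r = z := by
      apply e.injective
      rw [map_mul, hsymm, hr]
    have hv0 : e.symm v * e.symm v = z := by
      apply e.injective
      rw [map_mul, hsymm, hv]
    have hvr0 : e.symm v * e.symm r * (e.symm v)⁻¹ = e.symm r * z := by
      apply e.injective
      simp only [map_mul, map_inv, hsymm]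
      exact hvr
    obtain ⟨j, h1, h2⟩ := h.hurwitz _ _ hr0 hv0 hvr0
    refine ⟨e j, ?_, ?_⟩
    · have := congrArg e h1
      simpa only [map_mul, map_inv, hsymm] using this
    · have := congrArg e h2
      simpa only [map_mul, map_inv, hsymm] using this


variable {F : Type} [Field F]

abbrev SL2 (F : Type) [Field F] := Matrix.SpecialLinearGroup (Fin 2) F

/-- `-1` in `SL₂`. -/
def m1 : SL2 F := ⟨-1, by simp [Matrix.det_fin_two]⟩

theorem coe_m1 : ((m1 : SL2 F) : Matrix (Fin 2) (Fin 2) F) = -1 := rfl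

theorem sl_ext {a b : SL2 F} (h00 : a.1 0 0 = b.1 0 0) (h01 : a.1 0 1 = b.1 0 1)
    (h10 : a.1 1 0 = b.1 1 0) (h11 : a.1 1 1 = b.1 1 1) : a = b := by
  apply Subtype.ext
  ext i j
  fin_cases i <;> fin_cases j <;> assumption

theorem det_eq (a : SL2 F) : a.1 0 0 * a.1 1 1 - a.1 0 1 * a.1 1 0 = 1 := by
  have := a.2
  rwa [Matrix.det_fin_two] at this

theorem mul_00 (a b : SL2 F) : (a * b).1 0 0 = a.1 0 0 * b.1 0 0 + a.1 0 1 * b.1 1 0 := by
  show ((a.1 * b.1) 0 0) = _
  simp [Matrix.mul_apply, Fin.sum_univ_two]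

theorem mul_01 (a b : SL2 F) : (a * b).1 0 1 = a.1 0 0 * b.1 0 1 + a.1 0 1 * b.1 1 1 := by
  show ((a.1 * b.1) 0 1) = _
  simp [Matrix.mul_apply, Fin.sum_univ_two]

theorem mul_10 (a b : SL2 F) : (a * b).1 1 0 = a.1 1 0 * b.1 0 0 + a.1 1 1 * b.1 1 0 := by
  show ((a.1 * b.1) 1 0) = _
  simp [Matrix.mul_apply, Fin.sum_univ_two]

theorem mul_11 (a b : SL2 F) : (a * b).1 1 1 = a.1 1 0 * b.1 0 1 + a.1 1 1 * b.1 1 1 := by
  show ((a.1 * b.1) 1 1) = _
  simp [Matrix.mul_apply, Fin.sum_univ_two]

theorem m1_00 : (m1 : SL2 F).1 0 0 = -1 := by simp [coe_m1]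
theorem m1_01 : (m1 : SL2 F).1 0 1 = 0 := by simp [coe_m1]
theorem m1_10 : (m1 : SL2 F).1 1 0 = 0 := by simp [coe_m1]
theorem m1_11 : (m1 : SL2 F).1 1 1 = -1 := by simp [coe_m1]

theorem one_00 : (1 : SL2 F).1 0 0 = 1 := by
  show (1 : Matrix (Fin 2) (Fin 2) F) 0 0 = 1
  simp
theorem one_01 : (1 : SL2 F).1 0 1 = 0 := by
  show (1 : Matrix (Fin 2) (Fin 2) F) 0 1 = 0
  simp
theorem one_10 : (1 : SL2 F).1 1 0 = 0 := by
  show (1 : Matrix (Fin 2) (Fin 2) F) 1 0 = 0
  simp
theorem one_11 : (1 : SL2 F).1 1 1 = 1 := by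
  show (1 : Matrix (Fin 2) (Fin 2) F) 1 1 = 1
  simp

theorem m1_central (a : SL2 F) : m1 * a = a * m1 := by
  apply sl_ext <;> simp [mul_00, mul_01, mul_10, mul_11, m1_00, m1_01, m1_10, m1_11]

theorem m1_mul_self : (m1 : SL2 F) * m1 = 1 := by
  apply sl_ext <;>
    simp [mul_00, mul_01, mul_10, mul_11, m1_00, m1_01, m1_10, m1_11, one_00, one_01, one_10, one_11]

section
variable (h2 : (2 : F) ≠ 0)
include h2

theorem m1_ne_one : (m1 : SL2 F) ≠ 1 := by
  intro h
  have h1 : (m1 : SL2 F).1 0 0 = (1 : SL2 F).1 0 0 := by rw [h]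
  rw [m1_00, one_00] at h1
  apply h2
  linear_combination -h1

theorem orderOf_m1 : orderOf (m1 : SL2 F) = 2 := by
  have : Fact (Nat.Prime 2) := ⟨Nat.prime_two⟩
  apply orderOf_eq_prime
  · rw [pow_two, m1_mul_self]
  · exact m1_ne_one h2

omit h2 in
/-- Elements squaring to `-1` have trace `0`, and the relation for the entries. -/
theorem tr_of_sq {r : SL2 F} (h : r * r = m1) :
    r.1 1 1 = - r.1 0 0 ∧ r.1 0 0 * r.1 0 0 + r.1 0 1 * r.1 1 0 = -1 := by
  have h00 := congrArg (fun x : SL2 F => x.1 0 0) h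
  have h11 := congrArg (fun x : SL2 F => x.1 1 1) h
  simp only [mul_00, mul_11, m1_00, m1_11] at h00 h11
  have hd := det_eq r
  refine ⟨?_, h00⟩
  generalize r.1 0 0 = a at *
  generalize r.1 0 1 = b at *
  generalize r.1 1 0 = c at *
  generalize r.1 1 1 = d at *
  -- `a + d = 0`
  have : (a + d) * a = 0 := by linear_combination h00 + hd
  have h3 : (a + d) * d = 0 := by linear_combination h11 + hd
  have h4 : (a + d) = 0 := by
    by_contra hne
    have ha : a = 0 := (mul_eq_zero.mp this).resolve_left hne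
    have hd0 : d = 0 := (mul_eq_zero.mp h3).resolve_left hne
    apply hne
    rw [ha, hd0, add_zero]
  linear_combination h4

omit h2 in
/-- The center of `SL₂`. -/
theorem center_iff (a : SL2 F) : a ∈ center (SL2 F) ↔ a = 1 ∨ a = m1 := by
  rw [Matrix.SpecialLinearGroup.mem_center_iff]
  constructor
  · rintro ⟨r, hr, hra⟩
    have h1 : r = 1 ∨ r = -1 := by
      have : (r - 1) * (r + 1) = 0 := by
        simp only [Fintype.card_fin] at hr
        linear_combination hr
      rcases mul_eq_zero.mp this with h | h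
      · left; linear_combination h
      · right; linear_combination h
    rcases h1 with rfl | rfl
    · left
      apply Subtype.ext
      rw [← hra]
      simp
    · right
      apply Subtype.ext
      rw [← hra, coe_m1, map_neg, map_one]
  · rintro (rfl | rfl)
    · exact ⟨1, by simp, by simp⟩
    · exact ⟨-1, by simp, by rw [coe_m1, map_neg, map_one]⟩

/-- Involutions of `SL₂`. -/
theorem uniq (a : SL2 F) (ha : orderOf a = 2) : a = m1 := by
  have h1 : a * a = 1 := by
    have h := pow_orderOf_eq_one a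
    rw [ha, pow_two] at h
    exact h
  have hne : a ≠ 1 := by
    rintro rfl
    simp at ha
  have h00 := congrArg (fun x : SL2 F => x.1 0 0) h1
  have h01 := congrArg (fun x : SL2 F => x.1 0 1) h1
  have h10 := congrArg (fun x : SL2 F => x.1 1 0) h1
  have h11 := congrArg (fun x : SL2 F => x.1 1 1) h1
  simp only [mul_00, mul_01, mul_10, mul_11, one_00, one_01, one_10, one_11] at h00 h01 h10 h11
  have hd := det_eq a
  have key : a.1 0 0 + a.1 1 1 = 0 ∨ (a.1 0 1 = 0 ∧ a.1 1 0 = 0) := by
    by_cases h : a.1 0 0 + a.1 1 1 = 0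
    · exact Or.inl h
    · right
      constructor
      · have : a.1 0 1 * (a.1 0 0 + a.1 1 1) = 0 := by linear_combination h01
        exact (mul_eq_zero.mp this).resolve_right h
      · have : a.1 1 0 * (a.1 0 0 + a.1 1 1) = 0 := by linear_combination h10
        exact (mul_eq_zero.mp this).resolve_right h
  rcases key with h | ⟨hb, hc⟩
  · exfalso
    -- `a₀₀² + bc = 1` and `det = 1` with `d = -a`: `-a² - bc = 1`.
    have : (2 : F) = 0 := by
      have hdd : a.1 1 1 = - a.1 0 0 := by linear_combination h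
      rw [hdd] at hd
      linear_combination (-1 : F) * h00 - hd
    exact h2 this
  · rw [hb, hc] at h00 h11 hd
    have h3 : (a.1 0 0 - 1) * (a.1 0 0 + 1) = 0 := by linear_combination h00
    have h4 : a.1 1 1 = a.1 0 0 := by
      have h5 : a.1 0 0 * (a.1 1 1 - a.1 0 0) = 0 := by linear_combination hd - h00
      have hane : a.1 0 0 ≠ 0 := by
        intro h0
        rw [h0] at hd
        simp at hd
      have := (mul_eq_zero.mp h5).resolve_left hane
      linear_combination this
    rcases mul_eq_zero.mp h3 with h | h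
    · exfalso
      apply hne
      apply sl_ext
      · rw [one_00]; linear_combination h
      · rw [hb, one_01]
      · rw [hc, one_10]
      · rw [h4, one_11]; linear_combination h
    · apply sl_ext
      · rw [m1_00]; linear_combination h
      · rw [hb, m1_01]
      · rw [hc, m1_10]
      · rw [h4, m1_11]; linear_combination h

omit h2 in
/-- A square root of `-1`. -/
theorem exists_sq : ∃ r : SL2 F, r * r = m1 := by
  let w : SL2 F := ⟨!![0, 1; -1, 0], by simp [Matrix.det_fin_two]⟩
  have w00 : w.1 0 0 = 0 := by simp [w]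
  have w01 : w.1 0 1 = 1 := by simp [w]
  have w10 : w.1 1 0 = -1 := by simp [w]
  have w11 : w.1 1 1 = 0 := by simp [w]
  refine ⟨w, ?_⟩
  apply sl_ext
  · rw [mul_00, m1_00, w00, w01, w10]; ring
  · rw [mul_01, m1_01, w00, w01, w11]; ring
  · rw [mul_10, m1_10, w00, w10, w11]; ring
  · rw [mul_11, m1_11, w01, w10, w11]; ring

/-- The centralizer of a square root of `-1` is commutative. -/
theorem comm_of_comm {r a b : SL2 F} (hr : r * r = m1) (ha : a * r = r * a) (hb : b * r = r * b) :
    a * b = b * a := by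
  obtain ⟨hd, hr0⟩ := tr_of_sq hr
  have a00 := congrArg (fun x : SL2 F => x.1 0 0) ha
  have a01 := congrArg (fun x : SL2 F => x.1 0 1) ha
  have a10 := congrArg (fun x : SL2 F => x.1 1 0) ha
  have b00 := congrArg (fun x : SL2 F => x.1 0 0) hb
  have b01 := congrArg (fun x : SL2 F => x.1 0 1) hb
  have b10 := congrArg (fun x : SL2 F => x.1 1 0) hb
  simp only [mul_00, mul_01, mul_10, mul_11, hd] at a00 a01 a10 b00 b01 b10
  have main : a.1 0 1 * b.1 1 0 = b.1 0 1 * a.1 1 0 ∧
      a.1 0 0 * b.1 0 1 + a.1 0 1 * b.1 1 1 = b.1 0 0 * a.1 0 1 + b.1 0 1 * a.1 1 1 ∧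
      a.1 1 0 * b.1 0 0 + a.1 1 1 * b.1 1 0 = b.1 1 0 * a.1 0 0 + b.1 1 1 * a.1 1 0 := by
    generalize r.1 0 0 = α at *
    generalize r.1 0 1 = β at *
    generalize r.1 1 0 = γ at *
    generalize a.1 0 0 = p at *
    generalize a.1 0 1 = q at *
    generalize a.1 1 0 = s at *
    generalize a.1 1 1 = t at *
    generalize b.1 0 0 = p' at *
    generalize b.1 0 1 = q' at *
    generalize b.1 1 0 = s' at *
    generalize b.1 1 1 = t' at *
    clear hr ha hb hd
    by_cases hβ : β = 0
    · subst hβ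
      have hα : α ≠ 0 := by
        rintro rfl
        have : (1 : F) = 0 := by linear_combination hr0
        simp at this
      have h2α : 2 * α ≠ 0 := mul_ne_zero h2 hα
      have hq : q = 0 := by
        have : (2 * α) * q = 0 := by linear_combination -a01
        exact (mul_eq_zero.mp this).resolve_left h2α
      have hq' : q' = 0 := by
        have : (2 * α) * q' = 0 := by linear_combination -b01
        exact (mul_eq_zero.mp this).resolve_left h2α
      subst hq hq'
      refine ⟨by ring, by ring, ?_⟩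
      apply mul_left_cancel₀ h2α
      linear_combination (p' - t') * a10 - (p - t) * b10
    · have hs : β * s = q * γ := by linear_combination -a00
      have hs' : β * s' = q' * γ := by linear_combination -b00
      have h1 : β * (p - t) = 2 * α * q := by linear_combination a01
      have h1' : β * (p' - t') = 2 * α * q' := by linear_combination b01
      refine ⟨?_, ?_, ?_⟩
      · apply mul_left_cancel₀ hβ
        linear_combination q * hs' - q' * hs
      · apply mul_left_cancel₀ hβ
        linear_combination q' * h1 - q * h1'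
      · apply mul_left_cancel₀ hβ
        apply mul_left_cancel₀ hβ
        linear_combination (β * (p' - t')) * hs + q * γ * h1' - (β * (p - t)) * hs' - q' * γ * h1
  obtain ⟨h00, h01, h10⟩ := main
  apply sl_ext
  · rw [mul_00, mul_00]; linear_combination h00
  · rw [mul_01, mul_01]; exact h01
  · rw [mul_10, mul_10]; exact h10
  · rw [mul_11, mul_11]; linear_combination -h00

omit h2 in
/-- Group theory: normalizer of a cyclic subgroup when the centralizer of the generator is
commutative. -/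
theorem solv_nzr {G : Type*} [Group G] (r : G)
    (hc : ∀ a b : G, a * r = r * a → b * r = r * b → a * b = b * a) :
    Group.IsSolvable ↥(normalizer ((zpowers r : Subgroup G) : Set G)) := by
  set N := normalizer ((zpowers r : Subgroup G) : Set G) with hN
  have hexp : ∀ g : ↥N, ∃ k : ℤ, (g : G) * r * (g : G)⁻¹ = r ^ k := by
    rintro ⟨g, hg⟩
    have h1 := (mem_normalizer_iff.mp hg r).mp (mem_zpowers r)
    obtain ⟨k, hk⟩ := mem_zpowers_iff.mp h1
    exact ⟨k, hk.symm⟩
  have hconjz : ∀ (g : G) (k : ℤ), g * r ^ k * g⁻¹ = (g * r * g⁻¹) ^ k := by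
    intro g k
    rw [conj_zpow]
  let C : Subgroup ↥N :=
    { carrier := {g | (g : G) * r = r * (g : G)}
      one_mem' := by simp
      mul_mem' := by
        intro a b ha hb
        simp only [Set.mem_ofPred_eq, Subgroup.coe_mul] at *
        rw [mul_assoc, hb, ← mul_assoc, ha, mul_assoc]
      inv_mem' := by
        intro a ha
        simp only [Set.mem_ofPred_eq, Subgroup.coe_inv] at *
        rw [inv_mul_eq_iff_eq_mul, ← mul_assoc, ha, mul_assoc, mul_inv_cancel, mul_one] }
  have key : ∀ g h : ↥N, ((h : G) * g)⁻¹ * ((g : G) * h) * r = r * (((h : G) * g)⁻¹ * ((g : G) * h)) := by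
    intro a b
    obtain ⟨k, hk⟩ := hexp a
    obtain ⟨l, hl⟩ := hexp b
    have hab : ((a : G) * b) * r = r ^ (k * l) * ((a : G) * b) := by
      have e1 : (b : G) * r = r ^ l * b := by rw [← hl]; group
      have e2 : (a : G) * r ^ l = r ^ (k * l) * a := by
        have : (a : G) * r ^ l * (a : G)⁻¹ = r ^ (k * l) := by
          rw [hconjz, hk, zpow_mul]
        rw [← this]; group
      rw [mul_assoc, e1, ← mul_assoc, e2, mul_assoc]
    have hba : ((b : G) * a) * r = r ^ (k * l) * ((b : G) * a) := by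
      have e1 : (a : G) * r = r ^ k * a := by rw [← hk]; group
      have e2 : (b : G) * r ^ k = r ^ (k * l) * b := by
        have : (b : G) * r ^ k * (b : G)⁻¹ = r ^ (k * l) := by
          rw [hconjz, hl, mul_comm, zpow_mul]
        rw [← this]; group
      rw [mul_assoc, e1, ← mul_assoc, e2, mul_assoc]
    have hB' : r * ((b : G) * a)⁻¹ = ((b : G) * a)⁻¹ * r ^ (k * l) := by
      rw [eq_inv_mul_iff_mul_eq, ← mul_assoc, hba, mul_assoc, mul_inv_cancel, mul_one]
    rw [mul_assoc, hab, ← mul_assoc, ← hB', mul_assoc]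
  have h1 : commutator ↥N ≤ C := by
    rw [_root_.commutator_def, Subgroup.commutator_le]
    intro a _ b _
    have := key a⁻¹ b⁻¹
    rw [commutatorElement_def]
    show ((a * b * a⁻¹ * b⁻¹ : ↥N) : G) * r = r * ((a * b * a⁻¹ * b⁻¹ : ↥N) : G)
    have h3 : ((a * b * a⁻¹ * b⁻¹ : ↥N) : G) =
        (((b⁻¹ : ↥N) : G) * ((a⁻¹ : ↥N) : G))⁻¹ * (((a⁻¹ : ↥N) : G) * ((b⁻¹ : ↥N) : G)) := by
      simp only [Subgroup.coe_mul, Subgroup.coe_inv]
      group
    rw [h3]
    exact this
  have h2 : ∀ a ∈ commutator ↥N, ∀ b ∈ commutator ↥N, a * b = b * a := by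
    intro a ha b hb
    apply Subtype.ext
    exact hc _ _ (h1 ha) (h1 hb)
  rw [Group.isSolvable_def]
  refine ⟨2, ?_⟩
  rw [eq_bot_iff]
  show ⁅derivedSeries ↥N 1, derivedSeries ↥N 1⁆ ≤ ⊥
  rw [Subgroup.commutator_le]
  intro a ha b hb
  have ha' : a ∈ commutator ↥N := by simpa [derivedSeries_succ, _root_.commutator_def] using ha
  have hb' : b ∈ commutator ↥N := by simpa [derivedSeries_succ, _root_.commutator_def] using hb
  rw [Subgroup.mem_bot, commutatorElement_eq_one_iff_mul_comm]
  exact h2 a ha' b hb'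


/-- The Hurwitz element. -/
theorem exists_hurwitz {r v : SL2 F} (hr : r * r = m1) (hv : v * v = m1) (hvr : v * r * v⁻¹ = r * m1) :
    ∃ j : SL2 F, j * r = v * j ∧ r * j = j * (r * v) := by
  obtain ⟨hd, hr0⟩ := tr_of_sq hr
  obtain ⟨hd', hv0⟩ := tr_of_sq hv
  have hvr' : v * r = r * m1 * v := by rw [← hvr]; group
  have hR3 := congrArg (fun x : SL2 F => x.1 0 0) hvr'
  simp only [mul_00, mul_01, mul_10, mul_11, hd, hd', m1_00, m1_01, m1_10, m1_11] at hR3
  have hh : (2 : F) * 2⁻¹ = 1 := mul_inv_cancel₀ h2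
  generalize (2 : F)⁻¹ = h at *
  let J : Matrix (Fin 2) (Fin 2) F := !![h * (1 + r.1 0 0 + v.1 0 0 + (r.1 0 0 * v.1 0 0 + r.1 0 1 * v.1 1 0)),
    h * (r.1 0 1 + v.1 0 1 + (r.1 0 0 * v.1 0 1 - r.1 0 1 * v.1 0 0));
    h * (r.1 1 0 + v.1 1 0 + (r.1 1 0 * v.1 0 0 - r.1 0 0 * v.1 1 0)),
    h * (1 - r.1 0 0 - v.1 0 0 + (r.1 1 0 * v.1 0 1 + r.1 0 0 * v.1 0 0))]
  have hJ : J.det = 1 := by
    rw [Matrix.det_fin_two_of]
    generalize r.1 0 0 = a at *
    generalize r.1 0 1 = b at *
    generalize r.1 1 0 = c at *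
    generalize v.1 0 0 = p at *
    generalize v.1 0 1 = q at *
    generalize v.1 1 0 = s at *
    grind
  let j : SL2 F := ⟨J, hJ⟩
  have j00 : j.1 0 0 = h * (1 + r.1 0 0 + v.1 0 0 + (r.1 0 0 * v.1 0 0 + r.1 0 1 * v.1 1 0)) := by
    simp [j, J]
  have j01 : j.1 0 1 = h * (r.1 0 1 + v.1 0 1 + (r.1 0 0 * v.1 0 1 - r.1 0 1 * v.1 0 0)) := by
    simp [j, J]
  have j10 : j.1 1 0 = h * (r.1 1 0 + v.1 1 0 + (r.1 1 0 * v.1 0 0 - r.1 0 0 * v.1 1 0)) := by
    simp [j, J]
  have j11 : j.1 1 1 = h * (1 - r.1 0 0 - v.1 0 0 + (r.1 1 0 * v.1 0 1 + r.1 0 0 * v.1 0 0)) := by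
    simp [j, J]
  refine ⟨j, ?_, ?_⟩
  · apply sl_ext <;>
    simp only [mul_00, mul_01, mul_10, mul_11, j00, j01, j10, j11, hd, hd'] <;>
    · clear_value j
      clear hJ
      clear_value J
      generalize r.1 0 0 = a at *
      generalize r.1 0 1 = b at *
      generalize r.1 1 0 = c at *
      generalize v.1 0 0 = p at *
      generalize v.1 0 1 = q at *
      generalize v.1 1 0 = s at *
      grind
  · apply sl_ext <;>
    simp only [mul_00, mul_01, mul_10, mul_11, j00, j01, j10, j11, hd, hd'] <;>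
    · clear_value j
      clear hJ
      clear_value J
      generalize r.1 0 0 = a at *
      generalize r.1 0 1 = b at *
      generalize r.1 1 0 = c at *
      generalize v.1 0 0 = p at *
      generalize v.1 0 1 = q at *
      generalize v.1 1 0 = s at *
      grind


/-- The Hurwitz conjugator, at the level of `QType`. -/
theorem hurwitz_sl2 {r v : SL2 F} (hr : r * r = m1) (hv : v * v = m1) (hvr : v * r * v⁻¹ = r * m1) :
    ∃ j : SL2 F, (j * r * j⁻¹) * r * (j * r * j⁻¹)⁻¹ = r * m1 ∧
      (j⁻¹ * r * j) * r * (j⁻¹ * r * j)⁻¹ = r * m1 := by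
  obtain ⟨j, h1, h3⟩ := exists_hurwitz h2 hr hv hvr
  refine ⟨j, ?_, ?_⟩
  · have e1 : j * r * j⁻¹ = v := by rw [h1]; group
    rw [e1, hvr]
  · have e1 : j⁻¹ * r * j = r * v := by
      rw [mul_assoc, h3, inv_mul_cancel_left]
    rw [e1]
    calc r * v * r * (r * v)⁻¹ = r * (v * r * v⁻¹) * r⁻¹ := by group
      _ = r * (r * m1) * r⁻¹ := by rw [hvr]
      _ = r * (r * m1 * r⁻¹) := by group
      _ = r * (m1 * r * r⁻¹) := by rw [m1_central]
      _ = r * m1 := by group

end

/-! ### Automorphisms -/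

/-- A homomorphism from a perfect group to a solvable one is trivial. -/
theorem perfect_map_trivial {H K : Type*} [Group H] [Group K] [Group.IsSolvable K]
    (hp : commutator H = ⊤) (f : H →* K) (x : H) : f x = 1 := by
  have hser : ∀ n, derivedSeries H n = ⊤ := by
    intro n
    induction n with
    | zero => rfl
    | succ n ih =>
      rw [derivedSeries_succ, ih]
      exact hp
  obtain ⟨n, hn⟩ := (Group.isSolvable_def K).mp ‹_›
  have h1 : f x ∈ (derivedSeries H n).map f := ⟨x, by rw [hser]; trivial, rfl⟩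
  have h2 := map_derivedSeries_le_derivedSeries f n h1
  rw [hn] at h2
  exact h2

/-- An automorphism of a perfect group, trivial modulo the center, is trivial. -/
theorem fix_of_central {S : Type*} [Group S] (hperf : commutator S = ⊤) (β : MulAut S)
    (h : ∀ a, a⁻¹ * β a ∈ center S) (a : S) : β a = a := by
  let H : Subgroup S := (β.toMonoidHom).eqLocus (MonoidHom.id S)
  have hle : commutator S ≤ H := by
    rw [_root_.commutator_def, Subgroup.commutator_le]
    intro x _ y _
    rw [commutatorElement_def]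
    show β (x * y * x⁻¹ * y⁻¹) = x * y * x⁻¹ * y⁻¹
    have hx : β x = x * (x⁻¹ * β x) := by group
    have hy : β y = y * (y⁻¹ * β y) := by group
    have hc := Subgroup.mem_center_iff.mp (h x)
    have hd := Subgroup.mem_center_iff.mp (h y)
    generalize x⁻¹ * β x = c at hx hc
    generalize y⁻¹ * β y = d at hy hd
    rw [map_mul, map_mul, map_mul, map_inv, map_inv, hx, hy]
    have h1 : ∀ w, (x * c) * w * (x * c)⁻¹ = x * w * x⁻¹ := by
      intro w
      calc (x * c) * w * (x * c)⁻¹ = x * (c * w) * c⁻¹ * x⁻¹ := by group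
        _ = x * (w * c) * c⁻¹ * x⁻¹ := by rw [hc w]
        _ = x * w * x⁻¹ := by group
    have h2 : ∀ w, (y * d) * w * (y * d)⁻¹ = y * w * y⁻¹ := by
      intro w
      calc (y * d) * w * (y * d)⁻¹ = y * (d * w) * d⁻¹ * y⁻¹ := by group
        _ = y * (w * d) * d⁻¹ * y⁻¹ := by rw [hd w]
        _ = y * w * y⁻¹ := by group
    rw [h1]
    calc x * (y * d) * x⁻¹ * (y * d)⁻¹ = x * ((y * d) * x⁻¹ * (y * d)⁻¹) := by group
      _ = x * (y * x⁻¹ * y⁻¹) := by rw [h2]
      _ = x * y * x⁻¹ * y⁻¹ := by group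
  have : a ∈ H := hle (by rw [hperf]; trivial)
  exact this

/-- The action of `Aut SL₂` on `PSL₂`. -/
noncomputable def autHom : MulAut (SL2 F) →* MulAut (Matrix.ProjectiveSpecialLinearGroup (Fin 2) F) :=
  MonoidHom.mk' autOf (by
    intro α β
    refine MulEquiv.ext fun x => ?_
    obtain ⟨s, rfl⟩ := mkP_surj x
    rfl)

theorem autHom_mkP (α : MulAut (SL2 F)) (s : SL2 F) : autHom α (mkP s) = mkP (α s) := rfl

/-- `Out(PSL₂(F))` is solvable. -/
theorem out_solv [Fintype F] : Group.IsSolvable (Cfsg.Out (Matrix.ProjectiveSpecialLinearGroup (Fin 2) F)) := by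
  obtain ⟨p, hp⟩ := CharP.exists F
  obtain ⟨n, hpp, hF⟩ := FiniteField.card F p
  haveI : Fact p.Prime := ⟨hpp⟩
  obtain ⟨φ, -, hker, -⟩ := Cfsg.Agent.Lib.Classical.OutPSL.main_two (F := F) hF n.pos
  haveI : IsCyclic (F ≃+* F) := Cfsg.Agent.Lib.KS71.GalFin.isCyclic
  letI cg1 : CommGroup (F ≃+* F) := IsCyclic.commGroup
  haveI hs1 : Group.IsSolvable (F ≃+* F) := Group.isSolvable_of_comm (fun a b => cg1.mul_comm a b)
  letI cg2 : CommGroup φ.ker := IsCyclic.commGroup
  haveI hs2 : Group.IsSolvable φ.ker := Group.isSolvable_of_comm (fun a b => cg2.mul_comm a b)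
  exact Group.isSolvable_of_ker_le_range φ.ker.subtype φ (by simp)

/-- Perfect subgroups of `Aut SL₂` are inner. -/
theorem aut_inner_sl2 [Fintype F] (hperf : commutator (SL2 F) = ⊤)
    (A : Subgroup (MulAut (SL2 F))) (hA : commutator ↥A = ⊤) (α : MulAut (SL2 F)) (hα : α ∈ A) :
    ∃ q : SL2 F, α = MulAut.conj q := by
  haveI := out_solv (F := F)
  let P := Matrix.ProjectiveSpecialLinearGroup (Fin 2) F
  let π : MulAut P →* Cfsg.Out P := QuotientGroup.mk' (Cfsg.Inn P)
  let f : ↥A →* Cfsg.Out P := π.comp (autHom.comp A.subtype)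
  have h1 : f ⟨α, hα⟩ = 1 := perfect_map_trivial hA f _
  have h2 : autHom α ∈ Cfsg.Inn P := (QuotientGroup.eq_one_iff _).mp h1
  obtain ⟨pb, hpb⟩ := h2
  obtain ⟨s, rfl⟩ := mkP_surj pb
  refine ⟨s, ?_⟩
  have hfix : ∀ a, a⁻¹ * ((MulAut.conj s)⁻¹ * α) a ∈ center (SL2 F) := by
    intro a
    have e1 := congrArg (fun β : MulAut P => β (mkP a)) hpb
    have e2 : mkP s * mkP a * (mkP s)⁻¹ = mkP (α a) := e1
    have e3 : mkP a = mkP (((MulAut.conj s)⁻¹ * α) a) := by
      show mkP a = mkP (s⁻¹ * α a * s)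
      rw [mkP_mul, mkP_mul, mkP_inv, ← e2]
      group
    exact QuotientGroup.eq.mp e3
  have hall := fix_of_central hperf _ hfix
  refine MulEquiv.ext fun a => ?_
  have := hall a
  have h3 : s⁻¹ * α a * s = a := this
  show α a = s * a * s⁻¹
  calc α a = s * (s⁻¹ * α a * s) * s⁻¹ := by group
    _ = s * a * s⁻¹ := by rw [h3]

/-- `SL₂(F)`, `F` finite of odd characteristic and the group quasisimple, has `QType`. -/
theorem qtype_sl2 [Fintype F] (h2 : (2 : F) ≠ 0) (hqs : IsQuasisimple (SL2 F)) :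
    QType (m1 : SL2 F) where
  qs := hqs
  ord := orderOf_m1 h2
  center_iff := center_iff
  uniq := uniq h2
  exists_sq := exists_sq
  aut_inner := by
    intro A hA α hα
    have hperf : commutator (SL2 F) = ⊤ := hqs.1.commutator_eq_top
    exact aut_inner_sl2 hperf A hA α hα
  nzr_solv := fun r hr => solv_nzr r (fun a b ha hb => comm_of_comm h2 hr ha hb)
  hurwitz := fun r v hr hv hvr => hurwitz_sl2 h2 hr hv hvr

/-- See PLAN.md. -/
theorem sltype {Q : Type u} [Group Q] [Finite Q] {F : Type} [Field F] [Fintype F]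
    (hodd : Odd (Fintype.card F)) (e : Q ≃* Matrix.SpecialLinearGroup (Fin 2) F) (hqs : IsQuasisimple Q)
    {z : Q} (hz : orderOf z = 2) : QType z := by
  have h2 : (2 : F) ≠ 0 := by
    apply Ring.two_ne_zero
    intro h
    have := FiniteField.even_card_of_char_two h
    rw [Nat.odd_iff] at hodd
    omega
  have h0 := qtype_sl2 h2 (quasisimple_of_mulEquiv e hqs)
  have h1 := qtype_of_equiv e.symm h0
  have h3 := h1.uniq z hz
  rw [h3]
  exact h1

end Cfsg.Agent.Lib.IntrSL.QTSL2
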