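/-
S1315: assembly. See PLAN.md.
-/
import Cfsg.Agent.Lib.IntrSL.GClaimB
import Cfsg.Agent.Lib.IntrSL.QTSL2
import Cfsg.Agent.Lib.IntrSL.QTA7

set_option autoImplicit false
set_option linter.style.haveILetI false
set_option linter.unusedSectionVars false

namespace Cfsg.Agent.Lib.IntrSL.Main

open Subgroup Cfsg Cfsg.Agent.Lib.BpBalance.Basic Cfsg.Agent.Lib.Subnormal.Basic
  Cfsg.Agent.Lib.PTerm.Rel Cfsg.Agent.Lib.PTerm.Dict Cfsg.Agent.Lib.IntrSL.Defs
  Cfsg.Agent.Lib.IntrSL.Transport Cfsg.Agent.Lib.Core.Basic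
open scoped commutatorElement Pointwise

universe u

variable {G : Type u} [Group G] [Finite G]

/-- An element of order 2 in `A` has nontrivial image in `A/O(A)`. -/
theorem mk_ord_two {A : Type u} [Group A] [Finite A] {a : A} (ha : orderOf a = 2) :
    orderOf (QuotientGroup.mk' (oddCore A) a) = 2 := by
  apply orderOf_eq_prime
  · have h0 : a ^ 2 = 1 := by
      have h := pow_orderOf_eq_one a
      rwa [ha] at h
    rw [← map_pow, h0, map_one]
  · intro h
    have h1 : a ∈ oddCore A := (QuotientGroup.eq_one_iff a).mp h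
    have h2 := orderOf_coprime_of_mem_pPrimeCore h1
    rw [ha] at h2
    exact absurd h2 (by norm_num)

/-- Involutions of `A/O(A)` lift. -/
theorem uniq_mk {A : Type u} [Group A] [Finite A] {x : A}
    (huniq : ∀ t : A, orderOf t = 2 → t = x) (b : A ⧸ oddCore A) (hb : orderOf b = 2) :
    b = QuotientGroup.mk' (oddCore A) x := by
  obtain ⟨l, rfl⟩ := QuotientGroup.mk'_surjective (oddCore A) b
  have hker : (Nat.card (QuotientGroup.mk' (oddCore A)).ker).Coprime 2 := by
    rw [QuotientGroup.ker_mk']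
    exact pPrimeCore_coprime
  have hb2 : (QuotientGroup.mk' (oddCore A) l) ^ 2 = 1 := by
    have h := pow_orderOf_eq_one (QuotientGroup.mk' (oddCore A) l)
    rwa [hb] at h
  have hne : QuotientGroup.mk' (oddCore A) l ≠ 1 := by
    intro h
    rw [h, orderOf_one] at hb
    omega
  obtain ⟨t, h1, h2, h3⟩ := exists_lift_order_p (p := 2) (QuotientGroup.mk' (oddCore A)) hker hb2 hne
  have h4 : orderOf (l ^ t) = 2 := orderOf_eq_prime h2 h3
  rw [← h1, huniq _ h4]

/-- The two hypotheses give `SLComp` data. -/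
theorem slcomp_of_type {J : Subgroup G} {x : G}
    (hz : x ∈ J ∧ orderOf x = 2 ∧ ∀ t ∈ J, orderOf t = 2 → t = x)
    (hJ : J ≤ centralizer ({x} : Set G) ∧ IsPComponent 2 (J.subgroupOf (centralizer ({x} : Set G))))
    (hq : QType (QuotientGroup.mk' (oddCore ↥J) (⟨x, hz.1⟩ : ↥J))) : SLComp J x := by
  obtain ⟨h1, h2⟩ := isPComponentOf_iff.mp (show IsPComponentOf 2 J (CC x) from hJ)
  exact ⟨h1, h2, hz.1, hz.2.1, hz.2.2, hq⟩

theorem pt_of {J : Subgroup G} {x : G}
    (hJ : J ≤ centralizer ({x} : Set G) ∧ IsPComponent 2 (J.subgroupOf (centralizer ({x} : Set G)))) :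
    PT 2 ↥J := (isPComponentOf_iff.mp (show IsPComponentOf 2 J (CC x) from hJ)).2

theorem ord_mk {J : Subgroup G} {x : G}
    (hz : x ∈ J ∧ orderOf x = 2 ∧ ∀ t ∈ J, orderOf t = 2 → t = x) :
    orderOf (QuotientGroup.mk' (oddCore ↥J) (⟨x, hz.1⟩ : ↥J)) = 2 :=
  mk_ord_two (by rw [Subgroup.orderOf_mk]; exact hz.2.1)

/-- Order of a double cover of `A₇`. -/
theorem card_of_dc {Q : Type u} [Group Q] [Finite Q]
    (h : IsNonsplitDoubleCover Q ↥(alternatingGroup (Fin 7))) :
    Nat.card Q = 2 * Nat.card ↥(alternatingGroup (Fin 7)) := by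
  obtain ⟨h1, ⟨e⟩, -⟩ := h
  have h2 := Subgroup.card_eq_card_quotient_mul_card_subgroup (Subgroup.center Q)
  rw [h1, Nat.card_congr e.toEquiv] at h2
  rw [h2, mul_comm]

/-- The case `x = y`: everything in `K` normalizes `J`. -/
theorem same_center {J K : Subgroup G} {x : G} (hJ : SLComp J x) (hK : SN K (CC x)) (hKt : PT 2 ↥K)
    (hJK : J ≠ K) {t : G} (ht : t ∈ K) : t ∈ normalizer (J : Set G) := by
  have hJc : IsPComponentOf 2 J (CC x) := isPComponentOf_iff.mpr ⟨hJ.sn, hJ.pt⟩
  have hKc : IsPComponentOf 2 K (CC x) := isPComponentOf_iff.mpr ⟨hK, hKt⟩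
  rcases pcomp_eq_or_comm hJc hKc with h | h
  · exact absurd h hJK
  have htx : t ∈ CC x := hK.le ht
  have := (cent_iff hJ ⟨t, htx⟩).mp (by
    intro q hq
    obtain ⟨j, hj, rfl⟩ := mem_img_iff.mp hq
    have h1 := h j hj t ht
    have h2 : bar x j * bar x ⟨t, htx⟩ = bar x ⟨t, htx⟩ * bar x j := by
      have h3 : bar x (j * ⟨t, htx⟩) = bar x (⟨t, htx⟩ * j) := by
        rw [bar_eq_iff]
        have e : ((j * ⟨t, htx⟩ : ↥(CC x)) : G) * ((⟨t, htx⟩ * j : ↥(CC x)) : G)⁻¹ =
            (j : G) * t * (j : G)⁻¹ * t⁻¹ := by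
          simp only [Subgroup.coe_mul, mul_inv_rev]
          group
        rw [e]
        exact h1
      rwa [map_mul, map_mul] at h3
    exact h2.symm)
  exact this.1

/-- The abstract form of S1315. -/
theorem main {J K : Subgroup G} {x y : G} (hJK : J ≠ K) (hJ : SLComp J x) (hK : SLComp K y)
    (hsize : qcard J = qcard K) :
    (∀ t ∈ K, IsPGroup 2 ↥(zpowers t) → 4 ≤ orderOf t → t * x = x * t →
        t ∈ normalizer (J : Set G)) ∧
      (x ∈ normalizer (K : Set G) → y ∈ normalizer (J : Set G)) := by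
  by_cases hxy : x = y
  · subst hxy
    refine ⟨fun t ht _ _ _ => same_center hJ hK.sn hK.pt hJK ht, fun _ => ?_⟩
    exact same_center hJ hK.sn hK.pt hJK hK.mem
  -- `y` is a power of every nontrivial 2-element of `K`
  have hpow : ∀ t ∈ K, IsPGroup 2 ↥(zpowers t) → t ≠ 1 → y ∈ zpowers t := by
    intro t ht h2 h1
    obtain ⟨n, hn⟩ := IsPGroup.iff_card.mp h2
    have hn0 : n ≠ 0 := by
      rintro rfl
      rw [pow_zero, Nat.card_zpowers, orderOf_eq_one_iff] at hn
      exact h1 hn
    have hd : 2 ∣ Nat.card ↥(zpowers t) := by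
      rw [hn]
      exact dvd_pow_self 2 hn0
    obtain ⟨a, ha⟩ := exists_prime_orderOf_dvd_card' (G := ↥(zpowers t)) 2 hd
    have ha' : orderOf (a : G) = 2 := by rw [Subgroup.orderOf_coe]; exact ha
    have haK : (a : G) ∈ K := (zpowers_le.mpr ht) a.2
    have := hK.uniq _ haK ha'
    rw [← this]
    exact a.2
  constructor
  · intro t ht ht2 ht4 htx
    have ht1 : t ≠ 1 := by
      rintro rfl
      rw [orderOf_one] at ht4
      omega
    have hyt := hpow t ht ht2 ht1
    have hc : x * y = y * x := by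
      obtain ⟨n, rfl⟩ := mem_zpowers_iff.mp hyt
      exact ((Commute.zpow_left (show Commute t x from htx) n)).symm
    have hn : x ∈ normalizer (K : Set G) := by
      have hxy' : x ∈ CC y := mem_CC.mpr hc
      have hnc : ¬ ∀ a ∈ K, t * a * t⁻¹ * a⁻¹ ∈ OC 2 K := by
        intro hcen
        have h1 : QuotientGroup.mk' (oddCore ↥K) (⟨t, ht⟩ : ↥K) ∈ Subgroup.center (↥K ⧸ oddCore ↥K) := by
          rw [Subgroup.mem_center_iff]
          intro b
          obtain ⟨a, rfl⟩ := QuotientGroup.mk'_surjective (oddCore ↥K) b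
          have h2 := (mk_eq_one_iff (p := 2) ((⟨t, ht⟩ : ↥K) * a * (⟨t, ht⟩ : ↥K)⁻¹ * a⁻¹)).mpr
            (hcen a a.2)
          rw [map_mul, map_mul, map_mul, map_inv, map_inv] at h2
          have h3 := mul_inv_eq_one.mp h2
          rw [mul_inv_eq_iff_eq_mul] at h3
          exact h3.symm
        have hsq : (⟨t * t, K.mul_mem ht ht⟩ : ↥K) ∈ oddCore ↥K := by
          rw [← QuotientGroup.eq_one_iff]
          have e : ((⟨t * t, K.mul_mem ht ht⟩ : ↥K) : ↥K ⧸ oddCore ↥K) =
              QuotientGroup.mk' (oddCore ↥K) (⟨t, ht⟩ : ↥K) * QuotientGroup.mk' (oddCore ↥K) (⟨t, ht⟩ : ↥K) := rfl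
          rw [e]
          rcases hK.qt.center_iff _ |>.mp h1 with h4 | h4
          · rw [h4, one_mul]
          · rw [h4]
            have h5 := hK.qt.ord
            have h6 := pow_orderOf_eq_one (QuotientGroup.mk' (oddCore ↥K) (⟨y, hK.mem⟩ : ↥K))
            rw [h5, pow_two] at h6
            exact h6
        have h7 := orderOf_coprime_of_mem_pPrimeCore hsq
        rw [Subgroup.orderOf_mk] at h7
        obtain ⟨m, hm⟩ := IsPGroup.iff_card.mp ht2
        rw [Nat.card_zpowers] at hm
        have h8 : orderOf (t * t) ∣ 2 ^ m := by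
          apply orderOf_dvd_of_pow_eq_one
          rw [← pow_two, ← pow_mul, mul_comm, pow_mul, ← hm, pow_orderOf_eq_one, one_pow]
        have h9 : orderOf (t * t) = 1 :=
          Nat.eq_one_of_dvd_coprimes (Nat.Coprime.pow_right m h7) dvd_rfl h8
        rw [orderOf_eq_one_iff] at h9
        have h10 : orderOf t ∣ 2 := by
          apply orderOf_dvd_of_pow_eq_one
          rw [pow_two, h9]
        have := Nat.le_of_dvd (by norm_num) h10
        omega
      have hs := normalizes_of_shared (p := 2) hK.sn hK.pt hxy' ht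
        (by
          have : x⁻¹ * t * x = t := by
            calc x⁻¹ * t * x = x⁻¹ * (t * x) := by group
              _ = x⁻¹ * (x * t) := by rw [htx]
              _ = t := by group
          rw [this]; exact ht) hnc
      rw [mem_normalizer_iff]
      intro a
      constructor
      · intro ha
        have : x * a * x⁻¹ ∈ Kc x K := conj_mem_Kc x ha
        rwa [hs] at this
      · intro ha
        have h1 : x * a * x⁻¹ ∈ Kc x K := by rw [hs]; exact ha
        have h2 := mem_Kc.mp h1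
        have e : x⁻¹ * (x * a * x⁻¹) * x = a := by group
        rwa [e] at h2
    exact Cfsg.Agent.Lib.IntrSL.GClaimB.claimB hJ hK hxy hc hn hsize ht htx ht2 ht4
  · intro hn
    have hc : x * y = y * x := by
      have h1 : x * y * x⁻¹ ∈ K := (mem_normalizer_iff.mp hn y).mp hK.mem
      have h2 : orderOf (x * y * x⁻¹) = 2 := by
        have h3 := (MulAut.conj x).orderOf_eq y
        rw [MulAut.conj_apply] at h3
        rw [h3, hK.ord]
      have h3 := hK.uniq _ h1 h2
      calc x * y = (x * y * x⁻¹) * x := by group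
        _ = y * x := by rw [h3]
    exact Cfsg.Agent.Lib.IntrSL.GClaimA.claimA hJ hK hxy hc hn hsize

end Cfsg.Agent.Lib.IntrSL.Main
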